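import Cfsg.Agent.Lib.Fus.FusSimp
import Cfsg.Agent.Lib.Grp.H10Wr

/-!
Strongly closed subgroups for the fusion systems of alternating groups.
-/

namespace CA.Fus

open Cfsg Subgroup CA.AmbSyl CA.AmbChar Equiv Equiv.Perm CA.H10Wr
open Cfsg.FusionSystem (normalizerIn centralizerIn)

section gen
variable {Ω Ω' : Type*} [Group Ω] [Group Ω'] {L : Subgroup Ω} {p : ℕ} {D : Set Ω} {x y : Ω}

theorem PCl.mul_comm (h : PCl p L D) (hx : x ∈ D) (hy : y ∈ D) (e : Commute x y) : x * y ∈ D := by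
  obtain ⟨h1, k, hk⟩ := h.le x hx
  obtain ⟨h2, l, hl⟩ := h.le y hy
  refine h.mul (isPGroup_sup_of_norm' (isPGroup_zpowers hk) (isPGroup_zpowers hl) (zpowers_le.2
    (centralizer_le_normalizer _ ?_))) (sup_le (zpowers_le.2 h1) (zpowers_le.2 h2)) (mem_sup_left (mem_zpowers x))
    (mem_sup_right (mem_zpowers y)) hx hy
  rintro _ ⟨n, rfl⟩
  exact e.zpow_left n

theorem PCl.pow (h : PCl p L D) (hx : x ∈ D) (n : ℕ) : x ^ n ∈ D := by
  induction n with
  | zero => simpa using h.one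
  | succ n ih => exact pow_succ x n ▸ h.mul_comm ih hx (Commute.self_pow x n).symm

theorem PCl.exists_ord (h : PCl p L D) (hx : ∃ x ∈ D, x ≠ 1) : ∃ y ∈ D, y ≠ 1 ∧ y ^ p = 1 := by
  obtain ⟨x, hx, h1⟩ := hx
  obtain ⟨-, k, hk⟩ := h.le x hx
  induction k with
  | zero => exact absurd (by simpa using hk) h1
  | succ k ih =>
    by_cases e : x ^ p ^ k = 1
    · exact ih e
    · exact ⟨_, h.pow hx _, e, by rwa [← pow_mul, ← pow_succ]⟩

theorem PCl.comap (h : PCl p L D) {f : Ω' →* Ω} (hf : Function.Injective f) : PCl p (L.comap f) (f ⁻¹' D) where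
  one := by simpa using h.one
  le x hx := ⟨(h.le _ hx).1, (h.le _ hx).2.imp fun k hk => hf (by rw [map_pow, hk, map_one])⟩
  conj g hg x hx := by simpa using h.conj _ hg _ hx
  inv x hx := by simpa using h.inv _ hx
  mul hP hL x y hx hy h1 h2 := by
    simpa using h.mul (hP.map f) (map_le_iff_le_comap.2 hL) (mem_map_of_mem f hx) (mem_map_of_mem f hy) h1 h2

/-- Closed classes containing all elements of order `p` contain all `p`-elements. -/
def AP (p : ℕ) (L : Subgroup Ω) : Prop :=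
  ∀ D, PCl p L D → (∀ x ∈ L, x ^ p = 1 → x ∈ D) → ∀ x ∈ L, (∃ k : ℕ, x ^ p ^ k = 1) → x ∈ D

theorem AP.map_mem {f : Ω' →* Ω} (hf : Function.Injective f) (h : AP p (L.comap f)) (hD : PCl p L D)
    (h1 : ∀ x ∈ L, x ^ p = 1 → x ∈ D) {x : Ω'} (hx : f x ∈ L) (h2 : ∃ k : ℕ, x ^ p ^ k = 1) : f x ∈ D :=
  h _ (hD.comap hf) (fun y hy e => h1 _ hy (by rw [← map_pow, e, map_one])) x hx h2

end gen

section perm
variable {α : Type*} [Fintype α] [DecidableEq α] {p : ℕ} [hp : Fact p.Prime] {D : Set (Perm α)} {x y : Perm α}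

theorem PCl.isConj (hD : PCl p (alternatingGroup α) D) (hn : p + 2 ≤ Fintype.card α) (hx : x ∈ D) (h1 : x ^ p = 1)
    (h : IsConj x y) : y ∈ D := by
  obtain ⟨g, rfl⟩ := _root_.isConj_iff.1 h
  by_cases hg : g ∈ alternatingGroup α
  · exact hD.conj g hg x hx
  obtain ⟨t, ht, h2⟩ : ∃ t ∈ centralizer {x}, t ∉ alternatingGroup α := by
    by_contra! e
    obtain ⟨-, h2, h3⟩ := centralizer_le_alternating_iff.1 e
    rw [cycleType_of_pow_prime_eq_one h1] at h2 h3
    have := h3 p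
    rw [Multiset.count_replicate_self] at this
    rw [Multiset.sum_replicate, smul_eq_mul] at h2
    nlinarith
  have := hD.conj (g * t) (by
    rw [mem_alternatingGroup] at hg h2 ⊢
    rw [map_mul, (Int.units_eq_one_or _).resolve_left hg, (Int.units_eq_one_or _).resolve_left h2]; rfl) x hx
  rwa [mul_assoc g, ← ht x rfl, mul_inv_rev, ← mul_assoc, ← mul_assoc, mul_inv_cancel_right] at this

omit hp in
theorem exists_split (h : x ≠ 1) (h1 : x ^ p = 1) :
    ∃ c y, IsCycle c ∧ Perm.Disjoint c y ∧ c ^ p = 1 ∧ y ^ p = 1 ∧ x = c * y := by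
  induction x using cycle_induction_on with
  | base_one => exact absurd rfl h
  | base_cycles c hc => exact ⟨c, 1, hc, disjoint_one_right c, h1, one_pow p, (mul_one c).symm⟩
  | induction_disjoint c y hd hc =>
    rw [hd.commute.mul_pow, (hd.pow_disjoint_pow p p).mul_eq_one_iff] at h1
    exact ⟨c, y, hc, hd, h1.1, h1.2, rfl⟩

theorem card_of_cyc (h : IsCycle x) (h1 : x ^ p = 1) : x.support.card = p :=
  h.orderOf.symm.trans (orderOf_eq_prime h1 h.ne_one)

theorem PCl.ord_odd (hD : PCl p (alternatingGroup α) D) (hn : p + 2 ≤ Fintype.card α) (h2 : p ≠ 2)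
    (h : ∃ x ∈ D, x ≠ 1) (hx : x ^ p = 1) : x ∈ D := by
  obtain ⟨y, hy, h3, h4⟩ := hD.exists_ord h
  obtain ⟨c, y, hc, hd, h5, -, rfl⟩ := exists_split h3 h4
  have h6 := hD.mul_comm hy (hD.inv _ (hD.isConj hn hy h4 (Disjoint.isConj_mul (hc.isConj hc.inv (by rw [support_inv]))
    (IsConj.refl y) hd hd.inv_left))) (Commute.inv_right ((Commute.refl c).inv_right.mul_left
      hd.commute.symm.inv_right |>.mul_right (hd.commute.mul_left (Commute.refl y))))
  obtain ⟨k, hk⟩ := hp.1.odd_of_ne_two h2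
  have h7 := hD.pow h6 (k + 1)
  rw [mul_inv_rev, inv_inv, mul_assoc, mul_inv_cancel_left, ← sq, ← pow_mul, mul_add, mul_one, ← add_assoc _ 1 1, ← hk, pow_succ,
    h5, one_mul] at h7
  induction x using cycle_induction_on with
  | base_one => exact hD.one
  | base_cycles d hd => exact hD.isConj hn h7 h5 (hc.isConj hd (by rw [card_of_cyc hc h5, card_of_cyc hd hx]))
  | induction_disjoint d z e _ i1 i2 =>
    rw [e.commute.mul_pow, (e.pow_disjoint_pow p p).mul_eq_one_iff] at hx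
    exact hD.mul_comm (i1 hx.1) (i2 hx.2) e.commute

theorem PCl.ord_two (hD : PCl 2 (alternatingGroup α) D) (hn : 4 ≤ Fintype.card α)
    (h : ∃ x ∈ D, x ≠ 1) (h0 : x ∈ alternatingGroup α) (hx : x ^ 2 = 1) : x ∈ D := by
  obtain ⟨y, hy, h3, h4⟩ := hD.exists_ord h
  have hyy : ∀ a, y (y a) = a := fun a => by rw [← Perm.mul_apply, ← sq, h4, Perm.one_apply]
  obtain ⟨b, hb⟩ : ∃ b, y b ≠ b := by by_contra! e; exact h3 (Perm.ext e)
  obtain ⟨c, h5, h6, h7⟩ : ∃ c, y c ≠ c ∧ c ≠ b ∧ c ≠ y b := by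
    by_contra! e
    have := mem_alternatingGroup.1 (hD.le y hy).1
    rw [show y = swap b (y b) from Perm.ext fun a => by
      rw [swap_apply_def]
      split_ifs with i1 i2
      · rw [i1]
      · rw [i2, hyy]
      · by_contra i; exact i2 (e a i i1), sign_swap hb.symm] at this
    exact absurd this (by decide)
  have h8 : (swap (y b) (y c)).Disjoint (swap b c) := fun a => by
    by_cases i : a = b ∨ a = c
    · left
      rcases i with rfl | rfl
      · exact swap_apply_of_ne_of_ne hb.symm fun e => h7 (by rw [e, hyy])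
      · exact swap_apply_of_ne_of_ne h7 h5.symm
    · exact .inr (swap_apply_of_ne_of_ne (not_or.1 i).1 (not_or.1 i).2)
  have i1 : y⁻¹ = y := by rw [inv_eq_iff_mul_eq_one, ← sq, h4]
  have h9 : y * (swap b c * y * (swap b c)⁻¹) = swap (y b) (y c) * swap b c := by
    rw [swap_apply_apply, i1, swap_inv]; simp only [mul_assoc]
  have sq1 : ∀ {s t : Perm α}, IsSwap s → IsSwap t → s.Disjoint t → (s * t) ^ 2 = 1 := by
    rintro _ _ ⟨a, b, -, rfl⟩ ⟨c, d, -, rfl⟩ e
    rw [e.commute.mul_pow, sq, sq, swap_mul_self, swap_mul_self, one_mul]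
  have s1 : IsSwap (swap (y b) (y c)) := ⟨_, _, y.injective.ne h6.symm, rfl⟩
  have s2 : IsSwap (swap b c) := ⟨_, _, h6.symm, rfl⟩
  have h10 := hD.mul_comm hy (hD.isConj hn hy h4 (_root_.isConj_iff.2 ⟨swap b c, rfl⟩)) (by
    have := sq1 s1 s2 h8
    rw [← h9, sq, mul_eq_one_iff_eq_inv] at this
    rw [Commute, SemiconjBy, this]
    simp only [mul_inv_rev, inv_inv, i1, swap_inv, mul_assoc])
  rw [h9] at h10
  have key : ∀ s t : Perm α, IsCycle s → s ^ 2 = 1 → IsCycle t → t ^ 2 = 1 → s.Disjoint t → s * t ∈ D :=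
    fun s t a1 a2 a3 a4 a5 => hD.isConj hn h10 (sq1 s1 s2 h8) (Disjoint.isConj_mul
      (s1.isCycle.isConj a1 (by rw [card_support_eq_two.2 s1, card_of_cyc a1 a2]))
      (s2.isCycle.isConj a3 (by rw [card_support_eq_two.2 s2, card_of_cyc a3 a4])) h8 a5)
  generalize hk : x.support.card = k
  induction k using Nat.strong_induction_on generalizing x with
  | _ k ih =>
  by_cases e : x = 1
  · exact e ▸ hD.one
  obtain ⟨s, x, a1, a2, a3, a4, rfl⟩ := exists_split e hx
  have a5 := (card_support_eq_two.1 (card_of_cyc a1 a3)).sign_eq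
  rw [mem_alternatingGroup, map_mul, a5] at h0
  obtain ⟨t, x, b1, b2, b3, b4, rfl⟩ := exists_split (x := x) (by rintro rfl; simp at h0) a4
  rw [map_mul, (card_support_eq_two.1 (card_of_cyc b1 b3)).sign_eq] at h0
  rw [a2.card_support_mul, b2.card_support_mul, card_of_cyc a1 a3] at hk
  rw [disjoint_iff_disjoint_support, b2.support_mul, Finset.disjoint_union_right, ← disjoint_iff_disjoint_support,
    ← disjoint_iff_disjoint_support] at a2
  rw [← mul_assoc]
  exact hD.mul_comm (key s t a1 a3 b1 b3 a2.1) (ih _ (by omega) (by simpa using h0) b4 rfl)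
    (a2.2.commute.mul_left b2.commute)

theorem PCl.ord (hD : PCl p (alternatingGroup α) D) (hn : p + 2 ≤ Fintype.card α) (h : ∃ x ∈ D, x ≠ 1)
    (h0 : x ∈ alternatingGroup α) (hx : x ^ p = 1) : x ∈ D := by
  by_cases e : p = 2
  · subst e; exact hD.ord_two hn h h0 hx
  · exact hD.ord_odd hn e h hx

theorem mem_alt_of_odd (h2 : p ≠ 2) (h : ∃ k : ℕ, x ^ p ^ k = 1) : x ∈ alternatingGroup α := by
  obtain ⟨k, hk⟩ := h
  have := congrArg sign hk
  rw [map_pow, map_one] at this
  refine (Int.units_eq_one_or _).resolve_right fun e => ?_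
  rw [e, (hp.1.odd_of_ne_two h2).pow.neg_one_pow] at this
  exact absurd this (by decide)

variable {ι A C : Type*} [Fintype ι] [DecidableEq ι] [Fintype A] [DecidableEq A] [Fintype C] [DecidableEq C] [Nonempty A]

omit hp in
theorem sign_σ (π : Perm ι) : sign ((permWr ι A C).σ π) = sign π ^ Fintype.card A := by
  change sign (Perm.sumCongr (prodCongrLeft fun _ => π) 1) = _
  simp [sign_prodCongrLeft]

theorem σ_mem_alt (hA : Fintype.card A = p) {π : Perm ι} (h : ∃ k : ℕ, π ^ p ^ k = 1) :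
    (permWr ι A C).σ π ∈ alternatingGroup _ := by
  rw [mem_alternatingGroup, sign_σ, hA]
  by_cases e : p = 2
  · rw [e, Int.units_sq]
  · rw [mem_alternatingGroup.1 (mem_alt_of_odd e h), one_pow]

omit [Nonempty A] in
theorem fact_perm (hA : Fintype.card A = p) : (Nat.card (Perm A)).factorization p = 1 := by
  simpa [Fintype.card_perm, hA] using fact_factorial 1 hp.1.pos

theorem syl_wr (hA : Fintype.card A = p) (hC : Fintype.card C < p) (E : Sylow p (Perm A)) (T : Sylow p (Perm ι))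
    (G : Subgroup (Perm (ι × A ⊕ C))) [G.Normal] : SylIn p ((permWr ι A C).P E ⊥ T G) G := by
  have := (permWr ι A C).syl E T (G := G) (E := ⊥) IsPGroup.of_bot (by
    rw [fact_perm hA, Nat.card_perm]
    simp [hA, fact_factorial _ hC])
  exact sylIn_of_eq_subgroupOf this.le this.toSylow rfl

theorem ap_aux (hA : Fintype.card A = p) (hC : Fintype.card C < p)
    (h : ∀ G : Subgroup (Perm ι), G.Normal → alternatingGroup ι ≤ G → AP p G)
    (G : Subgroup (Perm (ι × A ⊕ C))) [G.Normal] (hG : alternatingGroup _ ≤ G) : AP p G := by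
  rintro D hD h1 x hx ⟨k, hk⟩
  obtain ⟨E⟩ : Nonempty (Sylow p (Perm A)) := inferInstance
  obtain ⟨T⟩ : Nonempty (Sylow p (Perm ι)) := inferInstance
  have hS := syl_wr hA hC E T G
  obtain ⟨a, ha, h2⟩ := hS.exists_conj_le (isPGroup_zpowers hk) (zpowers_le.2 hx)
  have h3 := h2 (Amb.conj_mem_cj.2 (mem_zpowers x))
  obtain ⟨_, ⟨b, h4, rfl⟩, _, ⟨π, h5, rfl⟩, e⟩ := mem_sup_of (Wr.norm_bs _ _ _ _) h3.1
  have h6 := isPGroup_iff_mem.1 T.isPGroup' π h5
  have h7 := hG (σ_mem_alt (C := C) hA h6)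
  have h8 := (G.mul_mem_cancel_right h7).1 (e ▸ h3.2)
  have h9 := hD.mul hS.pg hS.le ⟨Wr.β_mem _ h4, h8⟩ ⟨Wr.σ_mem _ h5, h7⟩ (h1 _ h8 (by
    rw [← map_pow, show b ^ p = 1 from Prod.ext (funext fun i => by
      have := pow_card_eq_one' (x := (⟨b.1 i, (Wr.mem_bs.1 h4).1 i⟩ : (E : Subgroup (Perm A))))
      rw [E.card_eq_multiplicity, fact_perm hA, pow_one] at this
      exact congrArg Subtype.val this) (by rw [Prod.pow_snd, mem_bot.1 (Wr.mem_bs.1 h4).2, one_pow]; rfl), map_one]))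
    ((h _ inferInstance fun τ hτ => hG (by
      rw [mem_alternatingGroup, sign_σ, mem_alternatingGroup.1 hτ, one_pow])).map_mem (Wr.σ_inj _) hD h1 h7 h6)
  simpa [← e, mul_assoc] using hD.conj _ (inv_mem ha) _ h9

theorem ap_step (α : Type*) [Fintype α] [DecidableEq α]
    (ih : ∀ G : Subgroup (Perm (Fin (Fintype.card α / p))), G.Normal → alternatingGroup _ ≤ G → AP p G)
    (G : Subgroup (Perm α)) (hG : G.Normal) (h : alternatingGroup α ≤ G) : AP p G := by
  have : Nonempty (Fin p) := ⟨⟨0, hp.1.pos⟩⟩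
  obtain ⟨e⟩ := nonempty_equiv (p := p) α
  intro D hD h1 x hx ⟨k, hk⟩
  obtain ⟨x, rfl⟩ := e.permCongrHom.surjective x
  exact (ap_aux (by simp) (by simpa using Nat.mod_lt _ hp.1.pos) ih (G.comap e.permCongrHom.toMonoidHom)
    fun τ hτ => h (by simpa using hτ)).map_mem e.permCongrHom.injective hD h1 hx
      ⟨k, e.permCongrHom.injective (by rw [map_pow, hk, map_one])⟩

theorem ap_perm (α : Type*) [Fintype α] [DecidableEq α] (G : Subgroup (Perm α)) (hG : G.Normal)
    (h : alternatingGroup α ≤ G) : AP p G := by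
  refine ap_step α ?_ G hG h
  generalize Fintype.card α / p = n
  induction n using Nat.strong_induction_on with
  | _ n ih =>
  rcases n.eq_zero_or_pos with rfl | h0
  · exact fun _ _ _ D hD _ x _ _ => Subsingleton.elim 1 x ▸ hD.one
  · exact ap_step _ (ih _ (by simpa using Nat.div_lt_self h0 hp.1.one_lt))

theorem pcl_alt (hn : p + 2 ≤ Fintype.card α) (hD : PCl p (alternatingGroup α) D) (h : ∃ x ∈ D, x ≠ 1)
    (h0 : x ∈ alternatingGroup α) (hx : ∃ k : ℕ, x ^ p ^ k = 1) : x ∈ D :=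
  ap_perm α _ inferInstance le_rfl D hD (fun _ h1 h2 => hD.ord hn h h1 h2) x h0 hx

end perm

end CA.Fus
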