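import Cfsg.Agent.Lib.Fus.FusSimp
import Cfsg.Agent.Lib.Lin.AutPSL

/-!
The fusion system of `SL(V)` in the defining characteristic is simple for `dim V ≥ 3`.
-/

namespace CA.Fus

open Cfsg Subgroup CA.AmbSyl CA.AmbChar CA.AutLin CA.AutSL1 Module
open Cfsg.FusionSystem (normalizerIn centralizerIn)
open LinearEquiv (transvection)
open scoped commutatorElement

variable {F V : Type*} [Field F] [AddCommGroup V] [Module F V] {p : ℕ} {X : Submodule F V} {g : V ≃ₗ[F] V}
  {D : Set (V ≃ₗ[F] V)} {x y : V}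

theorem exists_scale {Ω : Type*} [Group Ω] (ρ : Ω →* V ≃ₗ[F] V) {K : Subgroup Ω}
    (h1 : ∀ c : F, ∃ t ∈ K, ρ t x = x + c • y ∧ ρ t y = y) (h2 : ∀ c : F, ∃ t ∈ K, ρ t y = y + c • x ∧ ρ t x = x)
    {a : F} (ha : a ≠ 0) : ∃ m ∈ K, ρ m x = a • x := by
  obtain ⟨t₁, m1, e1, -⟩ := h1 1
  obtain ⟨t₂, m2, e2, e3⟩ := h2 (a - 1)
  obtain ⟨t₃, m3, e4, e5⟩ := h1 (-a⁻¹)
  refine ⟨t₃ * t₂ * t₁, mul_mem (mul_mem m3 m2) m1, ?_⟩
  simp only [map_mul, mul_apply', e1, one_smul, map_add, e2, e3, map_smul, e4, e5]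
  match_scalars <;> field_simp <;> ring

theorem exists_not_mem_sup [FiniteDimensional F V] {Y : Submodule F V} (h : finrank F X < finrank F Y) : ∃ y ∈ Y, y ∉ X :=
  SetLike.not_le_iff_exists.1 fun e => (Submodule.finrank_mono e).not_gt h

theorem norm_QX [FiniteDimensional F V] (h : ∀ x ∈ X, g x ∈ X) : g ∈ normalizer (QX X : Set (V ≃ₗ[F] V)) :=
  SylIn.mem_normalizer_iff_conj_eq.2 (conj_QX_of_stab (mem_stab_of_forall h))

theorem span_maps {a : F} (h : g x = a • x) : ∀ v ∈ F ∙ x, g v ∈ F ∙ x := fun v hv => by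
  obtain ⟨c, rfl⟩ := Submodule.mem_span_singleton.1 hv
  rw [map_smul, h]
  exact Submodule.smul_mem _ _ (Submodule.smul_mem _ _ (Submodule.mem_span_singleton_self x))

theorem fix_sup (h : ∀ v ∈ X, g v = v) (hx : g x = x) : ∀ v ∈ X ⊔ F ∙ x, g v = v := fun v hv => by
  obtain ⟨a, ha, b, hb, rfl⟩ := Submodule.mem_sup.1 hv
  obtain ⟨c, rfl⟩ := Submodule.mem_span_singleton.1 hb
  rw [map_add, map_smul, h a ha, hx]

theorem lt_sup_span (hx : x ∉ X) : X < X ⊔ F ∙ x :=
  left_lt_sup.2 fun e => hx (e (Submodule.mem_span_singleton_self x))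

theorem mem_of_fix [FiniteDimensional F V] {K : Subgroup (V ≃ₗ[F] V)}
    (hK : ∀ (φ : Dual F V) w (h : φ w = 0), φ x = 0 → transvection h ∈ K) (hg : g ∈ SLV F V) (hx : g x = x) : g ∈ K := by
  suffices ∀ X : Submodule F V, x ∈ X → ∀ g ∈ SLV F V, (∀ v ∈ X, g v = v) → g ∈ K from
    this _ (Submodule.mem_span_singleton_self x) g hg (by simpa using fix_sup (X := ⊥) (by simp) hx)
  intro X
  induction X using WellFoundedGT.induction with
  | _ X ih =>
  intro hX g hg hf
  by_cases ht : X = ⊤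
  · rw [show g = 1 from LinearEquiv.ext fun v => hf v (ht ▸ trivial)]; exact one_mem K
  obtain ⟨v, -, hv⟩ := SetLike.not_le_iff_exists.1 (mt top_le_iff.1 ht)
  have key : ∀ g ∈ SLV F V, (∀ v ∈ X, g v = v) → ∀ φ : Dual F V, (∀ v ∈ X, φ v = 0) → φ v = 1 → φ (g v) = 1 → g ∈ K := by
    intro g hg hf φ h1 h2 h3
    have h4 : φ (v - g v) = 0 := by rw [map_sub, h2, h3, sub_self]
    refine (mul_mem_cancel_left (hK φ _ h4 (h1 x hX))).1 (ih _ (lt_sup_span hv) (Submodule.mem_sup_left hX) _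
      (mul_mem (tv_mem_SLV h4) hg) (fix_sup (fun u hu => ?_) ?_))
    · rw [mul_apply', hf u hu, tv_apply, h1 u hu, zero_smul, add_zero]
    · rw [mul_apply', tv_apply, h3, one_smul, add_sub_cancel]
  have key2 : ∀ g ∈ SLV F V, (∀ v ∈ X, g v = v) → g v ∉ X ⊔ F ∙ v → g ∈ K := by
    intro g hg hf h1
    obtain ⟨φ, h2, h3⟩ := exists_dual (X ⊔ F ∙ (g v - v)) (v := v) fun e => by
      obtain ⟨a, ha, b, hb, e⟩ := Submodule.mem_sup.1 e
      obtain ⟨c, rfl⟩ := Submodule.mem_span_singleton.1 hb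
      by_cases hc : c = 0
      · rw [hc, zero_smul, add_zero] at e; exact hv (e ▸ ha)
      · refine h1 (Submodule.mem_sup.2 ⟨-c⁻¹ • a, X.smul_mem _ ha, (c⁻¹ + 1) • v,
          Submodule.smul_mem _ _ (Submodule.mem_span_singleton_self v), ?_⟩)
        rw [eq_sub_of_add_eq e]
        match_scalars <;> field_simp <;> ring
    refine key g hg hf φ (fun u hu => h3 u (Submodule.mem_sup_left hu)) h2 ?_
    have := h3 _ (Submodule.mem_sup_right (Submodule.mem_span_singleton_self _))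
    rwa [map_sub, h2, sub_eq_zero] at this
  by_cases h1 : g v ∈ X ⊔ F ∙ v
  swap
  · exact key2 g hg hf h1
  by_cases h2 : X ⊔ F ∙ v = ⊤
  · obtain ⟨φ, h3, h4⟩ := exists_dual X hv
    refine key g hg hf φ h4 h3 ?_
    have e : (g : V →ₗ[F] V) = LinearMap.transvection φ (g v - v) := LinearMap.ext fun u => by
      obtain ⟨a, ha, b, hb, rfl⟩ := Submodule.mem_sup.1 (h2.ge (Submodule.mem_top (x := u)))
      obtain ⟨c, rfl⟩ := Submodule.mem_span_singleton.1 hb
      simp [LinearMap.transvection.apply, hf a ha, h4 a ha, h3, smul_sub]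
    have h5 : LinearMap.det (g : V →ₗ[F] V) = 1 := by rw [← LinearEquiv.coe_det, mem_SLV.1 hg, Units.val_one]
    rwa [e, LinearMap.transvection.det, map_sub, h3, add_sub_cancel] at h5
  obtain ⟨u, -, hu⟩ := SetLike.not_le_iff_exists.1 (mt top_le_iff.1 h2)
  obtain ⟨φ, h3, h4⟩ := exists_dual X (v := g v) fun e => hv (g.injective (hf _ e) ▸ e)
  have h5 : φ (u - φ u • g v) = 0 := by rw [map_sub, map_smul, h3, smul_eq_mul, mul_one, sub_self]
  refine (mul_mem_cancel_left (hK φ _ h5 (h4 x hX))).1 (key2 _ (mul_mem (tv_mem_SLV h5) hg) (fun w hw => ?_) fun e => hu ?_)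
  · rw [mul_apply', hf w hw, tv_apply, h4 w hw, zero_smul, add_zero]
  · rw [mul_apply', tv_apply, h3, one_smul] at e
    simpa using Submodule.add_mem _ (Submodule.sub_mem _ e h1) (Submodule.smul_mem _ (φ u) h1)

variable [Fact p.Prime] [CharP F p]

theorem pc_QX (L : Subgroup (V ≃ₗ[F] V)) (hX : X ≠ ⊥) (hX' : X ≠ ⊤) : PC p L (QX X) := fun z _ hz h => by
  have key : ∀ φ : Dual F V, (∀ x ∈ X, φ x = 0) → ∀ w ∈ X, ∀ v, φ (z v) • w = φ v • z w := fun φ hφ w hw v => by
    have := LinearEquiv.congr_fun (h _ (tv_mem_QX hφ hw)) v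
    rwa [mul_apply', mul_apply', tv_apply, tv_apply, map_add, map_smul, add_right_inj] at this
  obtain ⟨v, -, hv⟩ := SetLike.not_le_iff_exists.1 (mt top_le_iff.1 hX')
  obtain ⟨φ, h1, h2⟩ := exists_dual X hv
  have h3 : ∀ w ∈ X, z w = w := fun w hw => by
    by_cases e : w = 0
    · rw [e, map_zero]
    have := key φ h2 w hw v
    rw [h1, one_smul] at this
    rw [← this, pe_eigen hz e this.symm, one_smul]
  refine ⟨fun u => by_contra fun e => ?_, h3⟩
  obtain ⟨ψ, h4, h5⟩ := exists_dual X e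
  obtain ⟨w, hw, hw0⟩ := Submodule.exists_mem_ne_zero_of_ne_bot hX
  have := key ψ h5 w hw u
  rw [h3 w hw, ← sub_eq_zero, ← sub_smul, ← map_sub, h4, one_smul] at this
  exact hw0 this

theorem tv_mem_span {φ : Dual F V} (h : φ x = 0) : transvection h ∈ QX (F ∙ x) :=
  tv_mem_QX (X := F ∙ x) (fun v hv => by
    obtain ⟨c, rfl⟩ := Submodule.mem_span_singleton.1 hv
    rw [map_smul, h, smul_zero]) (Submodule.mem_span_singleton_self x)

theorem tv_pe {φ : Dual F V} (h : φ x = 0) : ∃ k : ℕ, transvection h ^ p ^ k = 1 :=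
  isPGroup_iff_mem.1 (QX_isPGroup _) _ (tv_mem_span h)

variable [Finite V] [FiniteDimensional F V]

theorem tv_mem_D (hD : PCl p (SLV F V) D) (h3 : 3 ≤ finrank F V) (hg : g ∈ D) (h1 : g ≠ 1) {ψ : Dual F V} {w : V}
    (hw : ψ w = 0) : transvection hw ∈ D := by
  have : Nontrivial V := Module.nontrivial_of_finrank_pos (R := F) (by omega)
  obtain ⟨-, k, hk⟩ := hD.le g hg
  obtain ⟨x, -, hx, h2⟩ := exists_fixed (isPGroup_zpowers hk) ⊤ top_ne_bot fun _ _ _ _ => trivial
  have hr := finrank_span_singleton (K := F) hx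
  obtain ⟨e, he, he', he1⟩ := hD.exists_mem (pc_QX _ (X := F ∙ x) (by simpa using hx) fun e => by
    rw [e, finrank_top] at hr; omega) (QX_isPGroup _) (QX_le_SLV p _) hg h1
    (norm_QX (span_maps (a := 1) (by rw [h2 g (mem_zpowers g), one_smul])))
  obtain ⟨α, hα, -⟩ := exists_dual (F := F) ⊥ (v := x) (by simpa using hx)
  let φ : Dual F V := α ∘ₗ ((e : V →ₗ[F] V) - LinearMap.id)
  have hφ : ∀ v, e v = v + φ v • x := fun v => by
    obtain ⟨c, hc⟩ := Submodule.mem_span_singleton.1 (he.1 v)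
    have : φ v = c := by simp [φ, ← hc, hα]
    rw [this, hc, add_sub_cancel]
  have hφx : φ x = 0 := by simp [φ, he.2 x (Submodule.mem_span_singleton_self x)]
  obtain ⟨v₀, hv₀⟩ : ∃ v, φ v = 1 := by
    obtain ⟨v, hv⟩ : ∃ v, φ v ≠ 0 := by
      by_contra! e'
      exact he1 (LinearEquiv.ext fun v => by rw [hφ, e', zero_smul, add_zero]; rfl)
    exact ⟨(φ v)⁻¹ • v, by rw [map_smul, smul_eq_mul, inv_mul_cancel₀ hv]⟩
  have key : ∀ (χ : Dual F V) (h : χ x = 0) y, φ y = 0 → χ y ≠ 0 → transvection h ∈ D := fun χ h y h4 h5 => by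
    have h6 : χ (v₀ - (χ v₀ / χ y) • y) = 0 := by rw [map_sub, map_smul, smul_eq_mul, div_mul_cancel₀ _ h5, sub_self]
    obtain ⟨j, hj⟩ := tv_pe (p := p) h6
    have := hD.comm (isPGroup_sup_of_norm' (QX_isPGroup _) (isPGroup_zpowers hj) (zpowers_le.2 (norm_QX
      (span_maps (a := 1) (by rw [tv_apply, h, zero_smul, add_zero, one_smul]))))) (sup_le (QX_le_SLV p _)
      (zpowers_le.2 (tv_mem_SLV h6))) (mem_sup_left he) (mem_sup_right (mem_zpowers _)) he'
    convert this using 1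
    rw [commutatorElement_def, eq_mul_inv_iff_mul_eq, eq_mul_inv_iff_mul_eq]
    ext v
    simp only [mul_apply', tv_apply, hφ, map_add, map_smul, map_sub, h, h4, hv₀, hφx, smul_eq_mul]
    match_scalars <;> field_simp <;> ring
  obtain ⟨y, hy, hy'⟩ := exists_not_mem_sup (X := F ∙ x) (Y := LinearMap.ker φ) (by
    have := Module.Dual.finrank_ker_add_one_of_ne_zero (f := φ) fun e => by simp [e] at hv₀
    omega)
  obtain ⟨β, hβ, hβ'⟩ := exists_dual _ hy'
  have hβx := hβ' x (Submodule.mem_span_singleton_self x)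
  have key2 : ∀ (χ : Dual F V) (h : χ x = 0), transvection h ∈ D := fun χ h => by
    by_cases h4 : χ y = 0
    swap
    · exact key χ h y hy h4
    have h5 : (χ - β) x = 0 := by rw [LinearMap.sub_apply, h, hβx, sub_zero]
    convert hD.mul (QX_isPGroup _) (QX_le_SLV p _) (tv_mem_span h5) (tv_mem_span hβx) (key _ h5 y hy (by simp [h4, hβ]))
      (key _ hβx y hy (by simp [hβ])) using 1
    ext v
    simp only [mul_apply', tv_apply, map_add, map_smul, h5, smul_eq_mul, mul_zero, add_zero, LinearMap.sub_apply]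
    module
  by_cases h0 : w = 0
  · subst h0; rw [LinearEquiv.transvection.of_right_eq_zero]; exact hD.one
  obtain ⟨a, ha, c, hc, e1⟩ := AutSL2.exists_SL_point (F := F) hx h0
  have h4 : (c⁻¹ • ψ ∘ₗ (a : V →ₗ[F] V)) x = 0 := by simp [e1, hw]
  convert hD.conj a ha _ (key2 _ h4) using 1
  rw [eq_mul_inv_iff_mul_eq]
  ext v
  simp [LinearMap.transvection.apply, e1, smul_smul, mul_right_comm _ _ c, hc]

theorem mem_D_SL (hD : PCl p (SLV F V) D) (h : ∀ (ψ : Dual F V) w (hw : ψ w = 0), transvection hw ∈ D)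
    (hg : ∃ k : ℕ, g ^ p ^ k = 1) : g ∈ D := by
  suffices ∀ X : Submodule F V, ∀ g : V ≃ₗ[F] V, (∃ k : ℕ, g ^ p ^ k = 1) → (∀ v ∈ X, g v = v) → g ∈ D from
    this ⊥ g hg (by simp)
  intro X
  induction X using WellFoundedGT.induction with
  | _ X ih =>
  rintro g ⟨k, hk⟩ hf
  by_cases ht : X = ⊤
  · rw [show g = 1 from LinearEquiv.ext fun v => hf v (ht ▸ trivial)]; exact hD.one
  obtain ⟨v, -, hv, h1⟩ := exists_fixed_mod (isPGroup_zpowers hk) ⊤ X (mt top_le_iff.1 ht) (fun _ _ _ _ => trivial)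
    fun a ha => (mem_stab.1 (zpowers_le.2 (mem_stab_of_forall fun u hu => by rwa [hf u hu]) ha) · |>.2)
  have h2 := neg_mem (h1 g (mem_zpowers g))
  obtain ⟨φ, h3, h4⟩ := exists_dual X hv
  refine hD.of_mul (QX_isPGroup _) (QX_le_SLV p _) (pe_det ⟨k, hk⟩) hk (norm_QX (span_maps (a := 1)
    (by rw [hf _ h2, one_smul]))) (tv_mem_span (h4 _ h2)) (h _ _ _) fun h5 => ih _ (lt_sup_span hv) _ h5
      (fix_sup (fun u hu => ?_) ?_)
  · rw [mul_apply', hf u hu, tv_apply, h4 u hu, zero_smul, add_zero]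
  · have := h4 _ (h1 g (mem_zpowers g))
    rw [map_sub, h3, sub_eq_zero] at this
    rw [mul_apply', tv_apply, this, one_smul, neg_sub, add_sub_cancel]

theorem simple_SL [Finite F] (h3 : 3 ≤ finrank F V) : ∃ S, ∃ hS : SylIn p S (SLV F V),
    (fusionSystemOfSubgroup _ S hS.le).IsSimple p := by
  have : Nontrivial V := Module.nontrivial_of_finrank_pos (R := F) (by omega)
  obtain ⟨x, hx⟩ := exists_ne (0 : V)
  have hr := finrank_span_singleton (K := F) hx
  have hxx := Submodule.mem_span_singleton_self (R := F) x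
  obtain ⟨v, -, hv⟩ := exists_not_mem_sup (X := F ∙ x) (Y := ⊤) (by rw [finrank_top]; omega)
  obtain ⟨φ, h1, h2⟩ := exists_dual _ hv
  have hφ : φ ≠ 0 := fun e => by simp [e] at h1
  have hk := Module.Dual.finrank_ker_add_one_of_ne_zero hφ
  obtain ⟨y, hy, hy'⟩ := exists_not_mem_sup (X := F ∙ x) (Y := LinearMap.ker φ) (by omega)
  obtain ⟨β, hβ, hβ'⟩ := exists_dual _ hy'
  obtain ⟨α, hα, hα'⟩ := exists_dual (F ∙ y) (v := x) fun e => by
    obtain ⟨c, rfl⟩ := Submodule.mem_span_singleton.1 e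
    have := hβ' _ hxx
    rw [map_smul, hβ, smul_eq_mul, mul_one] at this
    exact hx (by rw [this, zero_smul])
  obtain ⟨S, hS, hle⟩ := exists_sylIn_ge (isPGroup_sup_of_norm (QX_isPGroup (p := p) (F ∙ x)) (QX_isPGroup (LinearMap.ker φ))
    fun g hg => norm_QX fun u hu => by simpa using (LinearMap.ker φ).add_mem (h2 _ (hg.1 u)) hu)
    (sup_le (QX_le_SLV p _) (QX_le_SLV p _))
  have hb : (F ∙ x) ≠ ⊥ := by simpa using hx
  have hfix : ∀ s ∈ S, s x = x := fun s hs => by
    obtain ⟨c, hc⟩ := Submodule.mem_span_singleton.1 ((mem_stab.1 (le_stab_of_QX_le (by omega) (.inl hr) hS.pg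
      (le_sup_left.trans hle) hs) x).2 hxx)
    rw [← hc, pe_eigen (isPGroup_iff_mem.1 hS.pg s hs) hx hc.symm, one_smul]
  have hpec : ∀ (X : Submodule F V) (χ : Dual F V) w (h : χ w = 0), (∀ u ∈ X, χ u • w ∈ X) →
      transvection h ∈ pElementClosure p (normalizerIn (SLV F V) (QX X)) := fun X χ w h h' =>
    let ⟨_, hj⟩ := tv_pe (p := p) h
    le_pec (isPGroup_zpowers hj) (zpowers_le.2 (mem_normIn.2 ⟨tv_mem_SLV h, norm_QX fun u hu => X.add_mem hu (h' u hu)⟩))
      (mem_zpowers _)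
  refine ⟨S, hS, simple_two hS (fun e => ?_) (fun D hD ⟨g, hg, hg'⟩ s hs => mem_D_SL hD
    (fun _ _ => tv_mem_D hD h3 hg hg') (isPGroup_iff_mem.1 hS.pg s hs)) (le_sup_left.trans hle) (le_sup_right.trans hle)
    (pc_QX _ hb fun e => by rw [e, finrank_top] at hr; omega) (pc_QX _ (fun e => hx (e.le (h2 x hxx)))
      fun e => hφ (LinearMap.ker_eq_top.1 e)) fun g hg => ?_⟩
  · have := LinearEquiv.congr_fun (mem_bot.1 (e.le (hle (mem_sup_left (tv_mem_span (h2 x hxx)))))) v
    rw [tv_apply, h1, one_smul] at this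
    exact hx (add_eq_left.1 this)
  obtain ⟨a, ha⟩ := Submodule.mem_span_singleton.1 (mem_of_QX_fixes hb (v := g x) fun s hs => ⟨1, by
    have := hfix _ (conj_mem_of_norm' hg.2 (hle (mem_sup_left hs)))
    simpa [mul_apply'] using congrArg g this⟩)
  have ha0 : a ≠ 0 := by rintro rfl; exact hx (g.injective (by rw [← ha, zero_smul, map_zero]))
  have hyy := hα' y (Submodule.mem_span_singleton_self y)
  obtain ⟨m, hm, e⟩ := exists_scale (MonoidHom.id _) (K := pElementClosure p (normalizerIn (SLV F V) (QX (LinearMap.ker φ))))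
    (x := x) (y := y) (fun c => ⟨transvection (f := α) (v := c • y) (by rw [map_smul, hyy, smul_zero]), hpec _ _ _ _
      fun u _ => Submodule.smul_mem _ _ (Submodule.smul_mem _ _ hy), by simp [LinearMap.transvection.apply, hα], by simp [LinearMap.transvection.apply, hyy]⟩)
    (fun c => ⟨transvection (f := β) (v := c • x) (by rw [map_smul, hβ' x hxx, smul_zero]), hpec _ _ _ _
      fun u _ => Submodule.smul_mem _ _ (Submodule.smul_mem _ _ (h2 x hxx)), by simp [LinearMap.transvection.apply, hβ],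
        by simp [LinearMap.transvection.apply, hβ' x hxx]⟩) ha0
  refine ⟨m, hm, norm_QX (span_maps e), mem_of_fix (x := x) (fun χ w h h' => hpec _ χ w h fun u hu => ?_)
    (mul_mem (inv_mem (pec_le _ _ hm).1) hg.1) ?_⟩
  · obtain ⟨c, rfl⟩ := Submodule.mem_span_singleton.1 hu
    simp [h']
  · rw [mul_apply', ← ha, ← show m x = a • x from e, inv_apply_apply]

theorem simple_PSL {K : Type*} [Field K] [Finite K] [CharP K p] {n : ℕ} (hn : 3 ≤ n)
    (S : Sylow p (Matrix.ProjectiveSpecialLinearGroup (Fin n) K)) :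
    (groupFusionSystem (S : Subgroup (Matrix.ProjectiveSpecialLinearGroup (Fin n) K))).IsSimple p := by
  obtain ⟨T, hT, h⟩ := simple_SL (p := p) (F := K) (V := Fin n → K) (by simpa using hn)
  refine simple_quot hT h ((MonoidHom.ofInjective (CForm.glEquiv.injective.comp
    Matrix.SpecialLinearGroup.toGL_injective)).trans (MulEquiv.subgroupCongr AutPSL.range_toLin)) (fun z hz h1 h2 => ?_) S
  have : Nontrivial (Fin n → K) := Module.nontrivial_of_finrank_pos (R := K) (by simp; omega)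
  refine LinearEquiv.ext fun v => ?_
  by_cases hv : v = 0
  · simp [hv]
  have hr := finrank_span_singleton (K := K) hv
  exact (pc_QX (X := K ∙ v) _ (by simpa using hv) (fun e => by rw [e, finrank_top] at hr; simp at hr; omega) z hz h2
    fun y hy => h1 y (QX_le_SLV p _ hy)).2 v (Submodule.mem_span_singleton_self v)

end CA.Fus
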