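import Cfsg.Agent.Lib.Fus.FusAlt
import Cfsg.Agent.Lib.Fus.FusSL

/-!
The `p`-fusion system of `A_n` is simple for `n ≥ max 6 p²` and `n ≡ 0, 1 mod p`.
-/

namespace CA.Fus

open Cfsg Subgroup CA.AmbSyl CA.AmbChar Equiv Equiv.Perm CA.H10Wr Sum
open Cfsg.FusionSystem (normalizerIn centralizerIn)
open LinearEquiv (transvection)

theorem comm_reg {α A : Type*} [AddCommGroup A] {J : A → α} {z : Perm α}
    (h1 : ∀ v, ∃ s : Perm α, s * z = z * s ∧ ∀ x, s (J x) = J (x + v))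
    (h2 : ∀ y ∉ Set.range J, ∃ s : Perm α, s * z = z * s ∧ s y = y ∧ s (J 0) ≠ J 0) : ∃ v, ∀ x, z (J x) = J (x + v) := by
  obtain ⟨v, hv⟩ : z (J 0) ∈ Set.range J := by
    by_contra e
    obtain ⟨s, h3, h4, h5⟩ := h2 _ e
    exact h5 (z.injective (by rw [← Perm.mul_apply, ← h3, Perm.mul_apply, h4]))
  refine ⟨v, fun x => ?_⟩
  obtain ⟨s, h3, h4⟩ := h1 x
  have := h4 0
  rw [zero_add] at this
  rw [← this, ← Perm.mul_apply, ← h3, Perm.mul_apply, ← hv, h4, add_comm]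

variable {p : ℕ} [hp : Fact p.Prime]

theorem exists_trl : ∃ E : Sylow p (Perm (ZMod p)), ∀ z : Perm (ZMod p), z ∈ (E : Subgroup _) ↔ ∃ v, ∀ a, z a = a + v := by
  let f := MulAction.toPermHom (Multiplicative (ZMod p)) (ZMod p)
  have hf : Function.Injective f := fun a b h => by
    simpa [f, HSMul.hSMul, SMul.smul] using congrArg (fun s : Perm (ZMod p) => s 0) h
  refine ⟨Sylow.ofCard f.range (by
    rw [fact_perm (ZMod.card p), pow_one, ← Nat.card_congr (MonoidHom.ofInjective hf).toEquiv]; simp), fun z =>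
      ⟨?_, fun ⟨v, h⟩ => ⟨Multiplicative.ofAdd v, Perm.ext fun a => ((h a).trans (add_comm a v)).symm⟩⟩⟩
  rintro ⟨v, rfl⟩
  exact ⟨v.toAdd, fun a => add_comm _ _⟩

variable {ι C : Type*} [Fintype ι] [DecidableEq ι] {g g' s z : Perm (ι × ZMod p ⊕ C)} {u u' : ι → (ZMod p)ˣ} {i l m : ι}
  {a b v : ZMod p}

variable (ι C p) in
/-- The base group. -/
def Bs : Subgroup (Perm (ι × ZMod p ⊕ C)) where
  carrier := {z | ∀ i, ∃ v, ∀ a, z (inl (i, a)) = inl (i, a + v)}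
  one_mem' _ := ⟨0, by simp⟩
  mul_mem' h1 h2 i := let ⟨v, hv⟩ := h1 i; let ⟨w, hw⟩ := h2 i; ⟨w + v, fun a => by rw [Perm.mul_apply, hw, hv, add_assoc]⟩
  inv_mem' h i := let ⟨v, hv⟩ := h i; ⟨-v, fun a => by rw [inv_eq_iff_eq, hv, neg_add_cancel_right]⟩

/-- Permutations which are affine on the blocks. -/
def Aff (g : Perm (ι × ZMod p ⊕ C)) (u : ι → (ZMod p)ˣ) : Prop :=
  ∀ i, ∃ j v, ∀ a, g (inl (i, a)) = inl (j, u i * a + v)

theorem Aff.perm (h : Aff g u) : ∃ π : Perm ι, ∃ v : ι → ZMod p, ∀ i a, g (inl (i, a)) = inl (π i, u i * a + v i) := by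
  choose f v h using h
  refine ⟨Equiv.ofBijective f (Finite.injective_iff_bijective.1 fun i j e => ?_), v, h⟩
  exact congrArg (Sum.elim Prod.fst fun _ => i) (g.injective ((h i 0).trans (show _ = g (inl (j, ↑(u j)⁻¹ * (v i - v j))) by
    rw [h, e, Units.mul_inv_cancel_left, mul_zero, zero_add, sub_add_cancel])))

theorem Aff.mul (h : Aff g u) (h' : Aff g' u') : ∃ w, Aff (g' * g) w ∧ ∏ i, w i = (∏ i, u' i) * ∏ i, u i := by
  obtain ⟨π, v, h⟩ := h.perm
  refine ⟨fun i => u' (π i) * u i, fun i => ?_, by rw [Finset.prod_mul_distrib, Equiv.prod_comp π u']⟩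
  obtain ⟨j, w, h'⟩ := h' (π i)
  exact ⟨j, u' (π i) * v i + w, fun a => by rw [Perm.mul_apply, h, h']; simp [mul_add, mul_assoc, add_assoc]⟩

theorem Aff.conj (h : Aff g u) (hz : z ∈ Bs p ι C) : g * z * g⁻¹ ∈ Bs p ι C := fun j => by
  obtain ⟨π, v, h⟩ := h.perm
  obtain ⟨i, rfl⟩ := π.surjective j
  obtain ⟨w, hw⟩ := hz i
  refine ⟨u i * w, fun a => ?_⟩
  rw [Perm.mul_apply, Perm.mul_apply, show g⁻¹ (inl (π i, a)) = inl (i, ↑(u i)⁻¹ * (a - v i)) by
    rw [inv_eq_iff_eq, h, Units.mul_inv_cancel_left, sub_add_cancel], hw, h, mul_add, Units.mul_inv_cancel_left,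
    add_right_comm, sub_add_cancel]

theorem Aff.fix [Subsingleton C] (h : Aff g u) (c : C) : g (inr c) = inr c := by
  obtain ⟨π, v, h⟩ := h.perm
  rcases e : g (inr c) with ⟨j, a⟩ | d
  · obtain ⟨i, rfl⟩ := π.surjective j
    exact absurd (g.injective (e.trans (show _ = g (inl (i, ↑(u i)⁻¹ * (a - v i))) by
      rw [h, Units.mul_inv_cancel_left, sub_add_cancel]))) inr_ne_inl
  · rw [Subsingleton.elim d c]

theorem aff_of_mem (h : z ∈ Bs p ι C) : Aff z 1 := fun i => let ⟨v, hv⟩ := h i; ⟨i, v, by simpa using hv⟩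

theorem aff_σ (π : Perm ι) : Aff ((permWr ι (ZMod p) C).σ π) 1 := fun i => ⟨π i, 0, fun a => by simp; rfl⟩

variable (C) in
/-- Scalings of the blocks. -/
def muB : (ι → (ZMod p)ˣ) →* Perm (ι × ZMod p ⊕ C) :=
  (permWr ι (ZMod p) C).β.comp ((MonoidHom.inl _ _).comp ((MulAction.toPermHom (ZMod p)ˣ (ZMod p)).compLeft ι))

theorem muB_apply (u : ι → (ZMod p)ˣ) (i : ι) (a : ZMod p) : muB C u (inl (i, a)) = inl (i, u i * a) := rfl

theorem aff_muB (u : ι → (ZMod p)ˣ) : Aff (muB C u) u := fun i => ⟨i, 0, fun a => by rw [muB_apply, add_zero]⟩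

theorem σ_muB (π : Perm ι) (u : ι → (ZMod p)ˣ) :
    (permWr ι (ZMod p) C).σ π * muB C u * ((permWr ι (ZMod p) C).σ π)⁻¹ = muB C fun i => u (π⁻¹ i) :=
  (permWr ι (ZMod p) C).conj π _ 1

theorem Aff.decomp (h : Aff g u) : ∃ π, ∃ z ∈ Bs p ι C, g = (permWr ι (ZMod p) C).σ π * muB C u * z := by
  obtain ⟨π, v, h⟩ := h.perm
  refine ⟨π, ((permWr ι (ZMod p) C).σ π * muB C u)⁻¹ * g, fun i => ⟨↑(u i)⁻¹ * v i, fun a => ?_⟩, by group⟩
  rw [Perm.mul_apply, inv_eq_iff_eq, h, Perm.mul_apply, muB_apply, mul_add, Units.mul_inv_cancel_left]; rfl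

theorem e_apply (i : ι) (d : Perm (ZMod p)) (a : ZMod p) : (permWr ι (ZMod p) C).e i d (inl (i, a)) = inl (i, d a) := by
  change inl (i, Pi.mulSingle (M := fun _ => Perm (ZMod p)) i d i a) = _
  rw [Pi.mulSingle_eq_same]

theorem e_apply_ne (h : m ≠ i) (d : Perm (ZMod p)) (a : ZMod p) :
    (permWr ι (ZMod p) C).e i d (inl (m, a)) = inl (m, a) := by
  change inl (m, Pi.mulSingle (M := fun _ => Perm (ZMod p)) i d m a) = _
  rw [Pi.mulSingle_eq_of_ne h]; rfl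

theorem e_mem_Bs (i : ι) (v : ZMod p) : (permWr ι (ZMod p) C).e i (Equiv.addRight v) ∈ Bs p ι C := fun m => by
  by_cases h : m = i
  · exact ⟨v, fun a => h ▸ e_apply m _ a⟩
  · exact ⟨0, fun a => by rw [e_apply_ne h, add_zero]⟩

variable (C) in
/-- Even elements of the base group. -/
def cc (i l : ι) (v : ZMod p) : Perm (ι × ZMod p ⊕ C) :=
  (permWr ι (ZMod p) C).e i (Equiv.addRight v) * (permWr ι (ZMod p) C).e l (Equiv.addRight v)⁻¹

theorem cc_apply (h : i ≠ l) (v a : ZMod p) : cc C i l v (inl (i, a)) = inl (i, a + v) := by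
  rw [cc, Perm.mul_apply, e_apply_ne h, e_apply]; rfl

theorem cc_apply_ne (h : m ≠ i) (h' : m ≠ l) (v a : ZMod p) : cc C i l v (inl (m, a)) = inl (m, a) := by
  rw [cc, Perm.mul_apply, e_apply_ne h', e_apply_ne h]

theorem cc_ne (h : i ≠ l) (a : ZMod p) : cc C i l 1 (inl (i, a)) ≠ inl (i, a) := by simp [cc_apply h]

omit [DecidableEq ι] in
theorem exists_third (h : 3 ≤ Fintype.card ι) (i j : ι) : ∃ l, i ≠ l ∧ j ≠ l := by
  classical
  by_contra! e
  have := Finset.card_le_card (show Finset.univ ⊆ {i, j} from fun l _ => by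
    by_cases h : i = l <;> simp [h, e l, *])
  have := Finset.card_le_two (a := i) (b := j)
  simp only [Finset.card_univ] at *
  omega

variable [Fintype C] [DecidableEq C] [Subsingleton C]

omit [Subsingleton C] in
theorem cc_mem (i l : ι) (v : ZMod p) : cc C i l v ∈ Bs p ι C ⊓ alternatingGroup _ :=
  mem_inf.2 ⟨mul_mem (e_mem_Bs i v) (by rw [map_inv]; exact inv_mem (e_mem_Bs l v)),
    Wr.e_mul_inv_mem _ alternatingGroup.commutator_perm_le i l _⟩

theorem Aff.norm (h : Aff g u) : g ∈ normalizer ((Bs p ι C ⊓ alternatingGroup _ : Subgroup _) : Set (Perm (ι × ZMod p ⊕ C))) :=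
  mem_normalizer_of_maps fun _ hz => ⟨h.conj hz.1, Normal.conj_mem inferInstance _ hz.2 g⟩

omit [Fintype C] [DecidableEq C] in
theorem Bs_eq {E : Subgroup (Perm (ZMod p))} (hE : ∀ z, z ∈ E ↔ ∃ v, ∀ a, z a = a + v) :
    Bs p ι C = (Wr.bs E ⊥).map (permWr ι (ZMod p) C).β := by
  refine le_antisymm (fun z hz => ?_) ?_
  · choose v hv using id hz
    refine ⟨(fun i => Equiv.addRight (v i), 1), Wr.mem_bs.2 ⟨fun i => (hE _).2 ⟨v i, fun _ => rfl⟩, rfl⟩, Perm.ext ?_⟩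
    rintro (⟨i, a⟩ | c)
    · exact (hv i a).symm
    · exact ((aff_of_mem hz).fix c).symm
  · rintro _ ⟨b, hb, rfl⟩ i
    exact ((hE _).1 ((Wr.mem_bs.1 hb).1 i)).imp fun v hv a => congrArg (fun b => inl (i, b)) (hv a)

omit [Fintype C] [DecidableEq C] in
theorem Bs_pow (hz : z ∈ Bs p ι C) : z ^ p = 1 := by
  have key : ∀ n : ℕ, ∀ i, ∃ v, ∀ a, (z ^ n) (inl (i, a)) = inl (i, a + n * v) := fun n i => by
    obtain ⟨v, hv⟩ := hz i
    refine ⟨v, ?_⟩
    induction n with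
    | zero => simp
    | succ n ih => intro a; rw [pow_succ', Perm.mul_apply, ih, hv]; simp [add_mul, add_assoc]
  ext (⟨i, a⟩ | c)
  · obtain ⟨v, hv⟩ := key p i
    simp [hv]
  · exact (aff_of_mem (pow_mem hz p)).fix c

theorem pc_Bs (h : 3 ≤ Fintype.card ι) : PC p (alternatingGroup _) (Bs p ι C ⊓ alternatingGroup _) := fun z hz _ hc =>
  ⟨fun i => comm_reg (J := fun a => inl (i, a)) (fun v => let ⟨l, hl, _⟩ := exists_third h i i
    ⟨_, hc _ (cc_mem i l v), cc_apply hl v⟩) (by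
      rintro (⟨j, b⟩ | c) hy
      · obtain ⟨l, h1, h2⟩ := exists_third h i j
        exact ⟨_, hc _ (cc_mem i l 1), cc_apply_ne (by rintro rfl; exact hy ⟨b, rfl⟩) h2 _ _, cc_ne h1 0⟩
      · obtain ⟨l, h1, -⟩ := exists_third h i i
        exact ⟨_, hc _ (cc_mem i l 1), (aff_of_mem (cc_mem i l 1).1).fix c, cc_ne h1 0⟩), hz⟩

theorem aff_of_norm (h : 3 ≤ Fintype.card ι) {S : Subgroup (Perm (ι × ZMod p ⊕ C))}
    (h1 : Bs p ι C ⊓ alternatingGroup _ ≤ S) (h2 : ∀ s ∈ S, Aff s 1) (hg : g ∈ normalizer (S : Set (Perm (ι × ZMod p ⊕ C)))) :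
    ∃ u, Aff g u := by
  suffices ∀ i, ∃ u : (ZMod p)ˣ, ∃ j v, ∀ a, g (inl (i, a)) = inl (j, u * a + v) by
    choose u hu using this
    exact ⟨u, hu⟩
  intro i
  obtain ⟨l, hl, -⟩ := exists_third h i i
  have h3 := h2 _ (conj_mem_of_norm hg (h1 (cc_mem i l 1)))
  have h4 : ∀ a, (g * cc C i l 1 * g⁻¹ :) (g (inl (i, a))) = g (inl (i, a + 1)) := fun a => by simp [cc_apply hl]
  rcases e : g (inl (i, 0)) with ⟨j, v⟩ | c
  swap
  · have := h4 0
    rw [e, h3.fix, ← e] at this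
    simpa using this
  obtain ⟨j', w, h5⟩ := h3 j
  simp only [Pi.one_apply, Units.val_one, one_mul] at h5
  have h6 := h4 0
  rw [e, h5, zero_add] at h6
  obtain rfl : j = j' := by
    by_contra h7
    obtain ⟨l', h8, h9⟩ := exists_third h j j'
    obtain ⟨i', x, h10⟩ := h2 _ (conj_mem_of_norm' hg (h1 (cc_mem j' l' 1))) i
    have h11 := h10 0
    rw [Perm.mul_apply, Perm.mul_apply, e, cc_apply_ne h7 h8, ← e, ← Perm.mul_apply, inv_mul_cancel] at h11
    simp only [Perm.one_apply, mul_zero, zero_add, inl.injEq, Prod.mk.injEq] at h11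
    have h12 := h10 1
    rw [Perm.mul_apply, Perm.mul_apply, ← h11.1, ← h11.2, inv_eq_iff_eq] at h12
    simp only [Pi.one_apply, Units.val_one, mul_one, add_zero] at h12
    rw [← h6] at h12
    exact cc_ne h9 _ h12
  refine ⟨Units.mk0 w ?_, j, v, fun a => ?_⟩
  · rintro rfl
    rw [add_zero, ← e] at h6
    simpa using h6
  obtain ⟨n, rfl⟩ := ZMod.natCast_zmod_surjective a
  induction n with
  | zero => simpa using e
  | succ n ih => rw [Nat.cast_succ, ← h4, ih, h5]; simp [mul_add, add_right_comm]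

theorem mem_pec_of_aff (h : 3 ≤ Fintype.card ι) (hk : p ≤ Fintype.card ι) (hg : Aff g u) (hu : ∏ i, u i = 1)
    (hA : g ∈ alternatingGroup _) :
    g ∈ pElementClosure p (normalizerIn (alternatingGroup _) (Bs p ι C ⊓ alternatingGroup _)) := by
  set R := pElementClosure p (normalizerIn (alternatingGroup _) (Bs p ι C ⊓ alternatingGroup _))
  have h1 : ∀ {g u}, Aff g u → g ∈ alternatingGroup _ → ∀ k : ℕ, g ^ p ^ k = 1 → g ∈ R := fun h1 h2 k hk =>
    le_pec (isPGroup_zpowers hk) (zpowers_le.2 (mem_normIn.2 ⟨h2, h1.norm⟩)) (mem_zpowers _)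
  have h2 : ∀ {g u}, Aff g u → g ∈ normalizer (R : Set (Perm (ι × ZMod p ⊕ C))) := fun h2 => normalizer_le_pec _ _
    (mem_normalizer_of_maps fun x hx => mem_normIn.2 ⟨Normal.conj_mem inferInstance _ hx.1 _,
      mul_mem (mul_mem h2.norm hx.2) (inv_mem h2.norm)⟩)
  let H := R.comap (permWr ι (ZMod p) C).σ
  have hn : H.Normal := ⟨fun π hπ τ => by simpa [H] using conj_mem_of_norm (h2 (aff_σ τ)) hπ⟩
  have h3 : ∀ π : Perm ι, π ^ p = 1 → π ∈ H := fun π e =>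
    h1 (aff_σ π) (σ_mem_alt (ZMod.card p) ⟨1, by rwa [pow_one]⟩) 1 (by rw [pow_one, ← map_pow, e, map_one])
  have h4 : p = 2 → ∀ π, π ∈ H := fun e π => (closure_le H).2 (by
    rintro _ ⟨a, b, -, rfl⟩
    exact h3 _ (by rw [e, sq, swap_mul_self])) (closure_isSwap.ge (mem_top π))
  have h5 : alternatingGroup ι ≤ H := by
    by_cases e : p = 2
    · exact fun π _ => h4 e π
    by_cases e' : p = 3
    · rw [← closure_three_cycles_eq_alternating, closure_le]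
      exact fun c hc => h3 c (by rw [e', ← IsThreeCycle.orderOf hc, pow_orderOf_eq_one])
    have := hp.1.five_le_of_ne_two_of_ne_three e e'
    obtain ⟨π, hπ⟩ := exists_prime_orderOf_dvd_card (G := Perm ι) p (by
      rw [Fintype.card_perm]; exact Nat.dvd_factorial hp.1.pos hk)
    exact alternatingGroup_le_of_normal (by rw [Nat.card_eq_fintype_card]; omega) (nontrivial_iff_exists_ne_one H |>.2
      ⟨π, h3 π (by rw [← hπ, pow_orderOf_eq_one]), by rintro rfl; exact hp.1.one_lt.ne (by simpa using hπ)⟩)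
  have h6 : muB C u ∈ R := by
    obtain ⟨i⟩ : Nonempty ι := Fintype.card_pos_iff.1 (by omega)
    have e : u = ∏ j, Pi.mulSingle j (u j) * (Pi.mulSingle i (u j))⁻¹ := by
      rw [Finset.prod_mul_distrib, Finset.univ_prod_mulSingle, Finset.prod_inv_distrib]
      have := map_prod (MonoidHom.mulSingle (fun _ : ι => (ZMod p)ˣ) i) u Finset.univ
      rw [hu, map_one] at this
      exact (mul_eq_left.2 (inv_eq_one.2 this.symm)).symm
    rw [e]
    refine prod_mem (S := R.comap (muB C)) fun j _ => ?_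
    have := alternatingGroup.isPretransitive_of_three_le_card ι (by rwa [Nat.card_eq_fintype_card])
    obtain ⟨⟨π, h6⟩, rfl : π j = i⟩ := MulAction.exists_smul_eq (alternatingGroup ι) j i
    have h7 := mul_mem (conj_mem_of_norm (h2 (aff_muB (Pi.mulSingle j (u j)))) (h5 h6)) (inv_mem (h5 h6))
    rw [mul_assoc, mul_assoc, ← mul_assoc (Wr.σ _ π), ← map_inv (muB C), σ_muB, ← map_mul] at h7
    rw [mem_comap]
    convert h7 using 3
    funext m
    simp only [Pi.inv_apply, Pi.mulSingle_apply, inv_eq_iff_eq]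
  obtain ⟨π, z, hz, rfl⟩ := hg.decomp
  have h7 := (mem_normIn.1 (pec_le _ _ h6)).1
  by_cases e : p = 2
  · have h8 := mul_mem (mem_comap.1 (h4 e π)) h6
    exact mul_mem h8 (h1 (aff_of_mem hz) ((mul_mem_cancel_left (mem_normIn.1 (pec_le _ _ h8)).1).1 hA) 1 (by rw [pow_one, Bs_pow hz]))
  · have h8 := mem_alt_of_odd e ⟨1, by rw [pow_one, Bs_pow hz]⟩
    have h9 := (mul_mem_cancel_right h7).1 ((mul_mem_cancel_right h8).1 hA)
    rw [mem_alternatingGroup, sign_σ, ZMod.card] at h9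
    refine mul_mem (mul_mem (mem_comap.1 (h5 ((Int.units_eq_one_or _).resolve_right fun e' => ?_))) h6)
      (h1 (aff_of_mem hz) h8 1 (by rw [pow_one, Bs_pow hz]))
    rw [e', (hp.1.odd_of_ne_two e).neg_one_pow] at h9
    exact absurd h9 (by decide)

omit [Fintype C] [DecidableEq C] [Subsingleton C] in
theorem aff_of_mem_Ph {E : Subgroup (Perm (ZMod p))} (hE : ∀ z, z ∈ E ↔ ∃ v, ∀ a, z a = a + v) {T : Subgroup (Perm ι)}
    [Finite C] (h : s ∈ (permWr ι (ZMod p) C).Ph E ⊥ T) : Aff s 1 := by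
  obtain ⟨_, ⟨b, h1, rfl⟩, _, ⟨π, -, rfl⟩, rfl⟩ := mem_sup_of (Wr.norm_bs _ _ _ _) h
  intro i
  obtain ⟨v, hv⟩ := (hE _).1 ((Wr.mem_bs.1 h1).1 (π i))
  exact ⟨π i, v, fun a => congrArg (fun b => inl (π i, b)) (by simpa using hv a)⟩

variable (C) in
/-- The square of `p` blocks. -/
def sqE (j : ZMod p ↪ ι) : ZMod p × ZMod p ↪ ι × ZMod p ⊕ C := (j.prodMap (Function.Embedding.refl _)).trans .inl

variable {j : ZMod p ↪ ι}

omit [Fintype ι] [DecidableEq ι] [Fintype C] [DecidableEq C] [Subsingleton C] hp in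
theorem not_mem_sq (h : i ∉ Set.range j) : inl (i, a) ∉ Set.range (sqE C j) := by
  rintro ⟨x, hx⟩
  exact h ⟨x.1, congrArg (Sum.elim Prod.fst fun _ => i) hx⟩

variable (C j) in
/-- A second self-centralising subgroup. -/
def Q2 : Subgroup (Perm (ι × ZMod p ⊕ C)) where
  carrier := {z | (∃ v, ∀ x, z (sqE C j x) = sqE C j (x + v)) ∧ ∀ i ∉ Set.range j, ∃ v, ∀ a, z (inl (i, a)) = inl (i, a + v)}
  one_mem' := ⟨⟨0, by simp⟩, fun _ _ => ⟨0, by simp⟩⟩
  mul_mem' := fun ⟨⟨v, hv⟩, h1⟩ ⟨⟨w, hw⟩, h2⟩ => ⟨⟨w + v, fun a => by rw [Perm.mul_apply, hw, hv, add_assoc]⟩, fun i hi =>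
    let ⟨v, hv⟩ := h1 i hi; let ⟨w, hw⟩ := h2 i hi; ⟨w + v, fun a => by rw [Perm.mul_apply, hw, hv, add_assoc]⟩⟩
  inv_mem' := fun ⟨⟨v, hv⟩, h⟩ => ⟨⟨-v, fun a => by rw [inv_eq_iff_eq, hv, neg_add_cancel_right]⟩, fun i hi =>
    let ⟨v, hv⟩ := h i hi; ⟨-v, fun a => by rw [inv_eq_iff_eq, hv, neg_add_cancel_right]⟩⟩

omit [Fintype C] [DecidableEq C] [Subsingleton C] in
theorem pc_Q2 (L : Subgroup (Perm (ι × ZMod p ⊕ C))) : PC p L (Q2 C j) := fun z _ _ hc => by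
  have h1 : ∀ v, viaEmbedding (Equiv.addRight v) (sqE C j) ∈ Q2 C j := fun v =>
    ⟨⟨v, viaEmbedding_apply _ _⟩, fun i hi => ⟨0, fun a => by rw [viaEmbedding_apply_of_notMem _ _ _ (not_mem_sq hi), add_zero]⟩⟩
  have h2 : ∀ i ∉ Set.range j, ∀ v, (permWr ι (ZMod p) C).e i (Equiv.addRight v) ∈ Q2 C j := fun i hi v =>
    ⟨⟨0, fun x => by rw [add_zero]; exact e_apply_ne (fun e => hi ⟨x.1, e⟩) _ _⟩, fun m _ => e_mem_Bs i v m⟩
  refine ⟨comm_reg (fun v => ⟨_, hc _ (h1 v), viaEmbedding_apply _ _⟩) fun y hy => ⟨_, hc _ (h1 1),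
    viaEmbedding_apply_of_notMem _ _ _ hy, by rw [viaEmbedding_apply]; simp⟩, fun i hi => comm_reg (J := fun a => inl (i, a))
      (fun v => ⟨_, hc _ (h2 i hi v), e_apply i _⟩) fun y hy => ⟨_, hc _ (h2 i hi 1), ?_, by simp [e_apply]⟩⟩
  rcases y with ⟨m, b⟩ | c
  · exact e_apply_ne (by rintro rfl; exact hy ⟨b, rfl⟩) _ _
  · rfl

omit [Fintype C] [DecidableEq C] in
theorem Q2_le {E : Subgroup (Perm (ZMod p))} (hE : ∀ z, z ∈ E ↔ ∃ v, ∀ a, z a = a + v) {T : Subgroup (Perm ι)}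
    (hT : ∀ v, viaEmbedding (Equiv.addRight v) j ∈ T) : Q2 C j ≤ (permWr ι (ZMod p) C).Ph E ⊥ T := by
  rintro z ⟨⟨v, hv⟩, h⟩
  refine (mul_mem_cancel_left (Wr.σ_mem _ (hT (-v.1)))).1 (mem_sup_left (Bs_eq (ι := ι) (C := C) hE ▸ fun i => ?_))
  by_cases hi : i ∈ Set.range j
  · obtain ⟨b, rfl⟩ := hi
    refine ⟨v.2, fun a => ?_⟩
    rw [Perm.mul_apply, show z (inl (j b, a)) = inl (j (b + v.1), a + v.2) from hv (b, a)]
    change inl (viaEmbedding _ j (j _), _) = _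
    rw [viaEmbedding_apply]; simp
  · obtain ⟨w, hw⟩ := h i hi
    refine ⟨w, fun a => ?_⟩
    rw [Perm.mul_apply, hw]
    change inl (viaEmbedding _ j _, _) = _
    rw [viaEmbedding_apply_of_notMem _ _ _ hi]

theorem exists_aff (h2 : p ≠ 2) (j : ZMod p ↪ ι) (w : (ZMod p)ˣ) :
    ∃ r ∈ pElementClosure p (normalizerIn (alternatingGroup _) (Q2 C j)), ∃ u, Aff r u ∧ ∏ i, u i = w := by
  classical
  let ψ := (viaEmbeddingHom (sqE C j)).comp (MulAction.toPermHom ((ZMod p × ZMod p) ≃ₗ[ZMod p] (ZMod p × ZMod p)) _)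
  have e1 : ∀ φ x, ψ φ (sqE C j x) = sqE C j (φ x) := fun φ => viaEmbedding_apply _ _
  have e2 : ∀ φ, ∀ i ∉ Set.range j, ∀ a, ψ φ (inl (i, a)) = inl (i, a) := fun φ i hi a =>
    viaEmbedding_apply_of_notMem _ _ _ (not_mem_sq hi)
  have h1 : ∀ φ, ψ φ ∈ normalizer (Q2 C j : Set (Perm (ι × ZMod p ⊕ C))) := fun φ => mem_normalizer_of_maps (by
    rintro z ⟨⟨v, hv⟩, h⟩
    refine ⟨⟨φ v, fun x => ?_⟩, fun i hi => (h i hi).imp fun v hv a => ?_⟩
    · rw [Perm.mul_apply, Perm.mul_apply, ← map_inv, e1, hv, e1, map_add, AutLin.apply_inv_apply]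
    · rw [Perm.mul_apply, Perm.mul_apply, ← map_inv, e2 _ i hi, hv, e2 _ i hi])
  have h3 : ∀ (φ : Module.Dual (ZMod p) (ZMod p × ZMod p)) x (h : φ x = 0),
      ψ (transvection h) ∈ pElementClosure p (normalizerIn (alternatingGroup _) (Q2 C j)) := fun φ x h => by
    obtain ⟨k, hk⟩ := tv_pe (p := p) h
    have h4 : ψ (transvection h) ^ p ^ k = 1 := by rw [← map_pow, hk, map_one]
    exact le_pec (isPGroup_zpowers h4) (zpowers_le.2 (mem_normIn.2 ⟨mem_alt_of_odd h2 ⟨k, h4⟩, h1 _⟩)) (mem_zpowers _)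
  obtain ⟨φ, h4, h5⟩ := exists_scale (MonoidHom.id _) (K := (pElementClosure p (normalizerIn (alternatingGroup _)
    (Q2 C j))).comap ψ) (x := (0, 1)) (y := (1, 0))
    (fun c => ⟨_, h3 (LinearMap.snd _ _ _) (c, 0) rfl, (LinearEquiv.transvection.apply rfl _).trans (by simp),
      (LinearEquiv.transvection.apply rfl _).trans (by simp)⟩)
    (fun c => ⟨_, h3 (LinearMap.fst _ _ _) (0, c) rfl, (LinearEquiv.transvection.apply rfl _).trans (by simp),
      (LinearEquiv.transvection.apply rfl _).trans (by simp)⟩)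
    w.ne_zero
  refine ⟨_, h4, fun i => if i ∈ Finset.univ.map j then w else 1, fun i => ?_, ?_⟩
  · by_cases hi : i ∈ Set.range j
    · obtain ⟨b, rfl⟩ := hi
      refine ⟨j (φ (b, 0)).1, (φ (b, 0)).2, fun a => (e1 φ (b, a)).trans ?_⟩
      rw [show (b, a) = (b, 0) + a • ((0, 1) : ZMod p × ZMod p) by simp, map_add, map_smul, show φ (0, 1) = _ from h5]
      simp [sqE, mul_comm, add_comm, Prod.map]
    · exact ⟨i, 0, fun a => by
        simp only [e2 _ i hi, if_neg (show i ∉ Finset.univ.map j by simpa using hi), Units.val_one, one_mul, add_zero]⟩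
  · rw [Finset.prod_ite_mem, Finset.univ_inter, Finset.prod_const, Finset.card_map, Finset.card_univ, ZMod.card]
    exact Units.ext (ZMod.pow_card _)

theorem simple_wr (h : 3 ≤ Fintype.card ι) (j : ZMod p ↪ ι) : ∃ S, ∃ hS : SylIn p S (alternatingGroup (ι × ZMod p ⊕ C)),
    (fusionSystemOfSubgroup _ S hS.le).IsSimple p := by
  obtain ⟨E, hE⟩ := exists_trl (p := p)
  obtain ⟨T, hT⟩ := (E.isPGroup'.map (viaEmbeddingHom j)).exists_le_sylow
  have hC : Fintype.card C < p := (Fintype.card_le_one_iff_subsingleton.2 ‹_›).trans_lt hp.1.one_lt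
  have hS := syl_wr (ZMod.card p) hC E T (alternatingGroup _)
  have hQ : Bs p ι C ⊓ alternatingGroup _ ≤ (permWr ι (ZMod p) C).P E ⊥ T (alternatingGroup _) :=
    inf_le_inf_right _ ((Bs_eq hE).le.trans le_sup_left)
  have hk : p ≤ Fintype.card ι := by simpa using Fintype.card_le_of_embedding j
  refine ⟨_, hS, simple_of_kf hS (fun e => ?_) (fun D hD h1 x hx => pcl_alt ?_ hD h1 (hS.le hx)
    (isPGroup_iff_mem.1 hS.pg x hx)) fun K hK g hg => ?_⟩
  · obtain ⟨l, hl, -⟩ := exists_third h (j 0) (j 0)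
    exact cc_ne (C := C) hl 0 (by rw [mem_bot.1 (e.le (hQ (cc_mem _ l 1)))]; rfl)
  · simp only [Fintype.card_sum, Fintype.card_prod, ZMod.card]
    have := hp.1.one_lt
    nlinarith
  obtain ⟨u, hu⟩ := aff_of_norm h hQ (fun s hs => aff_of_mem_Ph hE hs.1) hg.2
  refine hK.tr hQ le_rfl (pc_Bs h) ?_ hg.2
  by_cases h2 : p = 2
  · subst h2
    exact hK.pec hQ (mem_pec_of_aff h hk hu (Subsingleton.elim _ _) hg.1)
  obtain ⟨r, h3, w, h4, h5⟩ := exists_aff (C := C) h2 j (∏ i, u i)⁻¹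
  obtain ⟨x, h6, h7⟩ := hu.mul h4
  have h8 : Q2 C j ≤ (permWr ι (ZMod p) C).P E ⊥ T (alternatingGroup _) := fun z hz =>
    have := Q2_le hE (fun v => hT ⟨_, (hE _).2 ⟨v, fun _ => rfl⟩, rfl⟩) hz
    ⟨this, mem_alt_of_odd h2 (isPGroup_iff_mem.1 (syl_wr (ZMod.card p) hC E T ⊤).pg z ⟨this, trivial⟩)⟩
  exact (mul_mem_cancel_left (hK.tr h8 hQ (pc_Q2 _) (hK.pec h8 h3) h4.norm)).1 (hK.pec hQ (mem_pec_of_aff h hk h6
    (by rw [h7, h5, inv_mul_cancel]) (mul_mem (mem_normIn.1 (pec_le _ _ h3)).1 hg.1)))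

theorem simple_alt {n : ℕ} (hn : 6 ≤ n) (hnp : p ^ 2 ≤ n) (hb : n % p ≤ 1) (S : Sylow p (alternatingGroup (Fin n))) :
    (groupFusionSystem (S : Subgroup (alternatingGroup (Fin n)))).IsSimple p := by
  have h1 : p ≤ n / p := (Nat.le_div_iff_mul_le hp.1.pos).2 (by rwa [← sq])
  have : Subsingleton (Fin (n % p)) := Fin.subsingleton_iff_le_one.2 hb
  obtain ⟨j⟩ : Nonempty (ZMod p ↪ Fin (n / p)) := Function.Embedding.nonempty_of_card_le (by simpa using h1)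
  obtain ⟨T, hT, h⟩ := simple_wr (C := Fin (n % p)) (by
    rw [Fintype.card_fin]
    rcases hp.1.eq_two_or_odd' with rfl | h2
    · omega
    · have := hp.1.two_le
      have := h2.ne_two_of_dvd_nat dvd_rfl
      omega) j
  have e : Fin (n / p) × ZMod p ⊕ Fin (n % p) ≃ Fin n := Fintype.equivOfCardEq (by simp [Nat.div_add_mod'])
  exact simple_map hT h e.altCongrHom.toMonoidHom e.altCongrHom.surjective
    (fun x hx _ => e.altCongrHom.injective (hx.trans (map_one _).symm)) S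

end CA.Fus
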