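import Cfsg.Agent.Lib.Fus.FusSL
import Cfsg.Agent.Lib.Lin.AutForm1

/-!
The fusion systems of symplectic and unitary groups of Witt index at least two in the defining characteristic
are simple.
-/

namespace CA.Fus

open Cfsg Subgroup CA.AmbSyl CA.AmbChar CA.AutForm CA.CForm CA.CForm.Form Module
open Cfsg.FusionSystem (normalizerIn centralizerIn)
open scoped commutatorElement

variable {F V : Type*} [Field F] [AddCommGroup V] [Module F V] {k : Kind F} {f : Form k V} {p : ℕ}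
  {X : Submodule F V} {g : f.Isom} {D : Set f.Isom} {x y z w : V} {c : F}

/-- Forms with transvections and Witt index at least two. -/
structure Tr (f : Form k V) : Prop where
  nd : f.Nondeg
  sing : ∀ v, f.B v v = 0 → f.Q v = 0
  ex : ∃ c, c ≠ 0 ∧ k.π c = 0
  fix : ∀ a c, k.σ a = a → k.π c = 0 → k.π (a * c) = 0
  pt : ∃ x, x ≠ 0 ∧ f.Q x = 0
  two : ∀ {x y}, f.IsHyp x y → ∃ z, z ≠ 0 ∧ f.Q z = 0 ∧ f.B x z = 0 ∧ f.B y z = 0

theorem σ_of_π (h : k.π c = 0) : k.σ c = -(k.ε * c) := by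
  have := k.δπ c
  rw [h, mul_zero] at this
  linear_combination (-k.ε) * this - k.σ c * k.εε

theorem norm_Qgrp {a : F} (ha : a ≠ 0) (h : (g : V ≃ₗ[F] V) x = a • x) : g ∈ normalizer (f.Qgrp x : Set f.Isom) :=
  SylIn.mem_normalizer_iff_conj_eq.2 (by rw [conj_Qgrp, h, f.Qgrp_smul ha])

theorem not_mem_span (h : f.IsHyp x y) (hw : w ≠ 0) (h1 : f.B x w = 0) (h2 : f.B y w = 0) :
    w ∉ Submodule.span F {x, y} := fun e =>
  hw (Submodule.disjoint_def.1 h.isCompl.disjoint w e (f.mem_perp_span_pair.2 ⟨h1, h2⟩))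

theorem exists_shear (h : f.IsHyp x y) (hz : f.Q z = 0) (h1 : f.B z x = 0) (h2 : f.B z y = 0) (c : F) :
    ∃ w, ∃ hc : f.EichlerCond z w 0, (f.eichler z w 0 hc : V ≃ₗ[F] V) x = x + c • z :=
  ⟨k.σ (-c) • y, ⟨hz, by rw [map_smul, h2, smul_zero], by rw [map_zero, f.Q_smul_of_Q h.Q_y]⟩, by
    rw [f.eichler_apply_of_B _ _ _ _ h1, B_smul_left, k.σσ, h.B_yx, mul_left_comm, k.εε]; simp⟩

variable [Fact p.Prime] [CharP F p] [FiniteDimensional F V]

omit [FiniteDimensional F V] in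
theorem Tr.pc_QT (h : Tr f) (L : Subgroup f.Isom) (hX : f.TS X) (h0 : X ≠ ⊥) (hL : ∀ g ∈ QT f X, g ∈ f.Eich → g ∈ L) :
    PC p f.Eich (QT f X ⊓ L) := fun z hz hp hc => by
  have key : ∀ x ∈ X, ∀ w ∈ f.perp X, ∀ c (hc : f.EichlerCond x w c) v, (z : V ≃ₗ[F] V) v + f.B x (z.1 v) • w -
      (k.ε * (f.B w (z.1 v) + c * f.B x (z.1 v))) • x = z.1 v + f.B x v • z.1 w - (k.ε * (f.B w v + c * f.B x v)) • z.1 x :=
    fun x hx w hw c h1 v => by
      have := congrArg (fun g : f.Isom => (g : V ≃ₗ[F] V) v)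
        (hc _ ⟨eichler_mem_QT hX hx hw h1, hL _ (eichler_mem_QT hX hx hw h1) (f.eichler_mem_Eich _ _ _ _)⟩)
      simpa only [isom_mul_apply, eichler_apply, map_sub, map_add, map_smul] using this
  obtain ⟨c, hc0, hc⟩ := h.ex
  have h1 : ∀ x ∈ X, z.1 x = x := fun x hx => by
    by_cases e : x = 0
    · rw [e, map_zero]
    obtain ⟨y, hy⟩ := h.nd.exists_isHyp (hX.Q_eq x hx) e
    have := key x hx 0 (zero_mem _) c (f.eichlerCond_zero (hX.Q_eq x hx) hc) y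
    simp only [smul_zero, map_zero, add_zero, B_zero_left, zero_add, hy.B_xy, mul_one, sub_right_inj] at this
    refine pe_eigen' hp e (c := f.B x (z.1 y)) (smul_right_injective V (mul_ne_zero k.ε_ne_zero hc0) ?_)
    simp only [← this, smul_smul, mul_assoc]
  have h2 : z ∈ QT f X := ⟨h1, fun w hw => by
    obtain ⟨x, hx, hx0⟩ := Submodule.exists_mem_ne_zero_of_ne_bot h0
    obtain ⟨y, hy⟩ := h.nd.exists_isHyp (hX.Q_eq x hx) hx0
    obtain ⟨d, hd⟩ := f.exists_eichlerCond (hX.Q_eq x hx) (hw x hx)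
    have := key x hx w hw d hd y
    have e : f.B x (z.1 y) = 1 := by rw [← h1 x hx, B_coe_map, hy.B_xy]
    rw [e, hy.B_xy, one_smul, one_smul, h1 x hx] at this
    rw [show z.1 w - w = (k.ε * (f.B w y + d * 1)) • x - (k.ε * (f.B w (z.1 y) + d * 1)) • x by
      linear_combination (norm := module) -this]
    exact sub_mem (X.smul_mem _ hx) (X.smul_mem _ hx)⟩
  exact ⟨h2, hL z h2 hz⟩

omit [FiniteDimensional F V] in
theorem Tr.pc_Q (h : Tr f) (hx : f.Q x = 0) (hx0 : x ≠ 0) : PC p f.Eich (f.Qgrp x) := by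
  simpa [QT_span h.nd hx hx0] using h.pc_QT (p := p) ⊤ (ts_span_singleton hx) (by simpa using hx0) fun _ _ _ => trivial

omit [Fact p.Prime] [CharP F p] in
theorem Tr.exists_hyp (h : Tr f) (hy : f.IsHyp x y) :
    ∃ z z', f.IsHyp z z' ∧ f.B x z = 0 ∧ f.B y z = 0 ∧ f.B x z' = 0 ∧ f.B y z' = 0 := by
  obtain ⟨z, h0, h1, h2, h3⟩ := h.two hy
  obtain ⟨z', h4, h5⟩ := h.nd.exists_partner_perp h1 (not_mem_span hy h0 h2 h3) (f.mem_perp_span_pair.2 ⟨h2, h3⟩)
  exact ⟨z, z', ⟨h1, h5.1, h5.2⟩, h2, h3, f.mem_perp_span_pair.1 h4⟩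

omit [Fact p.Prime] [CharP F p] in
theorem Tr.mem_of_fix (h : Tr f) (hx : f.Q x = 0) (hx0 : x ≠ 0) {K : Subgroup f.Isom}
    (hK : ∀ z w c hc, (f.eichler z w c hc : V ≃ₗ[F] V) x = x → f.eichler z w c hc ∈ K) (hg : g ∈ f.Eich)
    (e : (g : V ≃ₗ[F] V) x = x) : g ∈ K := by
  obtain ⟨y, hy⟩ := h.nd.exists_isHyp hx hx0
  have e1 : f.B x (g.1 y) = 1 := by rw [← e, B_coe_map, hy.B_xy]
  obtain ⟨c, hc, h1⟩ := exists_eichler_move hx (v := g.1 y) (v' := y) (by simp [e1]) (by rw [e1, hy.B_xy])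
    (by rw [Q_coe_map])
  refine (mul_mem_cancel_left (hK _ _ _ hc (f.eichler_apply_self _ _ _ _))).1 ?_
  obtain ⟨a, ha⟩ := (f.range_extRight hy.isCompl).ge (f.mem_fix_span.2 (show ∀ w ∈ ({x, y} : Set V),
    ((f.eichler _ _ _ hc * g : f.Isom) : V ≃ₗ[F] V) w = w by
      rintro _ (rfl | rfl)
      · rw [isom_mul_apply, e, eichler_apply_self]
      · rw [isom_mul_apply, h1]))
  obtain ⟨z, z', hz, h2, h3, h4, h5⟩ := h.exists_hyp hy
  have hz' : (f.restrict (f.perp (Submodule.span F {x, y}))).IsHyp ⟨z, f.mem_perp_span_pair.2 ⟨h2, h3⟩⟩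
    ⟨z', f.mem_perp_span_pair.2 ⟨h4, h5⟩⟩ := ⟨hz.1, hz.2, hz.3⟩
  obtain ⟨b, hb, t, rfl⟩ := hz'.exists_Eich_mul_torus (hy.nondeg_perp h.nd) h.ex a
  have h6 : k.σ t = t := by
    have := f.detHom_extRight hy.isCompl (b * hz'.torus t)
    rw [ha, mem_SIsom.1 (f.Eich_le_SIsom (mul_mem (f.eichler_mem_Eich _ _ _ _) hg)), map_mul,
      mem_SIsom.1 (Eich_le_SIsom _ hb), one_mul] at this
    have h7 := hz'.detHom_torus t
    rw [← this, Units.val_one, eq_mul_inv_iff_mul_eq₀ (by simp), one_mul] at h7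
    exact h7
  obtain ⟨d, hd0, hd⟩ := h.ex
  rw [← ha]
  refine Eich_le _ (G := K.comap (f.extRight hy.isCompl)) (fun u w c hc => ?_)
    (mul_mem hb (hz'.torus_mem_Eich_of_π hd0 hd (h.fix _ _ h6 hd)))
  have e2 := f.extRight_apply_left hy.isCompl ((f.restrict _).eichler u w c hc) (Submodule.subset_span (.inl rfl))
  rw [mem_comap]
  rw [f.extRight_eichler _ u w c hc] at e2 ⊢
  exact hK _ _ _ _ e2

variable [Finite F]

theorem Tr.exists_sing (h : Tr f) (hg : ∃ n : ℕ, g ^ p ^ n = 1) (h1 : g ≠ 1) : ∃ x, x ≠ 0 ∧ f.Q x = 0 ∧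
    (g : V ≃ₗ[F] V) x = x ∧ ∀ u, (g : V ≃ₗ[F] V) u = u → f.B u x = 0 := by
  have := Module.finite_of_finite F (M := V)
  obtain ⟨n, hn⟩ := hg
  let X : Submodule F V := LinearMap.eqLocus (g.1 : V →ₗ[F] V) LinearMap.id
  obtain ⟨x, h2, h3, h4⟩ := exists_fixed' (isPGroup_zpowers hn) (f.perp X) (fun e => h1 (f.isom_ext fun v =>
    (h.nd.perp_eq_bot_iff.1 e).ge trivial)) fun a ha v => ((f.stab_le_stab_perp X (f.fix_le_stab X
      (zpowers_le.2 (show g ∈ f.fix X from fun _ hu => hu) ha))) v).1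
  have h5 := h4 g (mem_zpowers g)
  exact ⟨x, h3, h.sing x (h2 x h5), h5, h2⟩

theorem Tr.Tgrp_le (h : Tr f) (hD : PCl p f.Eich D) (hx0 : x ≠ 0) (hc0 : c ≠ 0) {hc : f.EichlerCond x 0 c}
    (he : f.eichler x 0 c hc ∈ D) {u : V} {d : F} (hd : f.EichlerCond u 0 d) : f.eichler u 0 d hd ∈ D := by
  have hx := hc.1
  obtain ⟨y, hy⟩ := h.nd.exists_isHyp hx hx0
  let K := hD.sub (Qgrp_isPGroup h.nd hx hx0) (f.Qgrp_le_Eich x)
  let Y : AddSubgroup F :=
    { carrier := {a | ∃ h : f.EichlerCond x 0 (a * c), f.eichler x 0 _ h ∈ K}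
      zero_mem' := ⟨f.eichlerCond_zero hx (by simp), by
        rw [f.eichler_congr _ (f.eichlerCond_zero hx (map_zero _)) rfl rfl (zero_mul c), eichler_zero]; exact one_mem K⟩
      add_mem' := fun ⟨h1, h2⟩ ⟨h3, h4⟩ => ⟨f.eichlerCond_zero hx (by rw [add_mul, map_add, h1.π_eq_zero, h3.π_eq_zero,
        add_zero]), by
          have := mul_mem h2 h4
          rw [f.eichler_mul] at this
          convert this using 1
          exact f.eichler_congr _ _ rfl (add_zero 0).symm (by simp [add_mul])⟩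
      neg_mem' := fun ⟨h1, h2⟩ => ⟨f.eichlerCond_zero hx (by rw [neg_mul, map_neg, h1.π_eq_zero, neg_zero]), by
        have := inv_mem h2
        rw [f.eichler_inv] at this
        convert this using 1
        exact f.eichler_congr _ _ rfl neg_zero.symm
          (by rw [σ_of_π h1.π_eq_zero, mul_neg, ← mul_assoc, k.εε, one_mul, neg_mul])⟩ }
  have h1 : ∀ b, k.σ b = b → b ^ 2 ∈ Y := fun b hb => by
    by_cases e : b = 0
    · simp [e]
    have h2 := h.fix _ _ hb hc.π_eq_zero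
    have h3 := f.eichlerCond_zero hx (c := b ^ 2 * c) (by rw [sq, mul_assoc]; exact h.fix _ _ hb h2)
    refine ⟨h3, f.eichler_mem_Qgrp _ _ _ _, ?_⟩
    have := hD.conj _ (hy.torus_mem_Eich_of_π (a := Units.mk0 b e) hc0 hc.π_eq_zero h2) _ he
    rwa [hy.torus_conj_eichler _ hc (map_zero _) (by simpa [hb, sq] using h3),
      f.eichler_congr _ h3 rfl (smul_zero _) (by simp [hb, sq])] at this
  have h2 : ∀ a, k.σ a = a → a ∈ Y := fun a ha => by
    by_cases h2 : ringChar F = 2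
    · obtain ⟨b, rfl⟩ := FiniteField.isSquare_of_char_two h2 a
      have : CharP F 2 := h2 ▸ ringChar.charP F
      rw [← sq]
      refine h1 b (pow_eq_zero_iff two_ne_zero |>.1 (show (k.σ b - b) ^ 2 = 0 by
        rw [sub_pow_char, sq, ← map_mul, ha, sq, sub_self]) |> sub_eq_zero.1)
    · have h3 : (2 : F) ≠ 0 := Ring.two_ne_zero h2
      rw [show a = ((a + 1) / 2) ^ 2 - ((a - 1) / 2) ^ 2 by field_simp; ring]
      exact sub_mem (h1 _ (by simp [ha, map_ofNat])) (h1 _ (by simp [ha, map_ofNat]))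
  have h3 : f.Tgrp x ≤ K := f.Tgrp_le fun d hd => by
    obtain ⟨h4, h5⟩ := h2 (d / c) (by
      rw [map_div₀, σ_of_π hd.π_eq_zero, σ_of_π hc.π_eq_zero, neg_div_neg_eq, mul_div_mul_left _ _ k.ε_ne_zero])
    rwa [f.eichler_congr h4 hd rfl rfl (div_mul_cancel₀ d hc0)] at h5
  by_cases hu : u = 0
  · subst hu; rw [eichler_zero_left]; exact hD.one
  obtain ⟨a, ha, b, -, e⟩ := h.nd.exists_Eich_smul (.inr h.ex) hd.1 hu hx hx0
  have := f.conj_mem_Tgrp a (f.eichler_mem_Tgrp u d hd)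
  rw [e] at this
  simpa [mul_assoc] using hD.conj _ (inv_mem ha) _ (h3 (f.Tgrp_smul_le b x this)).2

omit [Finite F] in
theorem Tr.Qgrp_le (h : Tr f) (hD : PCl p f.Eich D) (hT : ∀ u d hd, f.eichler u 0 d hd ∈ D) (hx : f.Q x = 0) (hx0 : x ≠ 0) :
    ∀ e ∈ f.Qgrp x, e ∈ D := by
  obtain ⟨y, hy⟩ := h.nd.exists_isHyp hx hx0
  have h1 : f.Tgrp x ≤ hD.sub (Qgrp_isPGroup h.nd hx hx0) (f.Qgrp_le_Eich x) :=
    f.Tgrp_le fun d hd => ⟨f.eichler_mem_Qgrp _ _ _ _, hT _ _ _⟩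
  obtain ⟨d, hd0, hd⟩ := h.ex
  have key : ∀ u, f.Q u = 0 → f.B x u = 0 → u ∈ eichSet hx h1 := fun u hu h2 => by
    obtain ⟨u, rfl⟩ : ∃ u', u = -(k.ε * d) • u' :=
      ⟨(-(k.ε * d))⁻¹ • u, by rw [smul_inv_smul₀ (neg_ne_zero.2 (mul_ne_zero k.ε_ne_zero hd0))]⟩
    have h0 := neg_ne_zero.2 (mul_ne_zero k.ε_ne_zero hd0)
    have h3 : f.Q u = 0 := by have := f.Q_smul_of_Q hu (-(k.ε * d))⁻¹; rwa [inv_smul_smul₀ h0] at this
    have h4 : f.B x u = 0 := by rwa [map_smul, smul_eq_mul, mul_eq_zero_iff_left h0] at h2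
    have h5 := (ts_span_singleton hx).sup_singleton h3 (f.mem_perp_span_singleton.2 h4)
    have h6 : x + u ∈ F ∙ x ⊔ F ∙ u :=
      Submodule.add_mem_sup (Submodule.mem_span_singleton_self x) (Submodule.mem_span_singleton_self u)
    have h7 := f.eichlerCond_zero (h5.Q_eq _ h6) hd
    have h8 := f.eichlerCond_zero h3 (c := -d) (by rw [map_neg, hd, neg_zero])
    refine ⟨d, ⟨hx, h2, by rw [hu, hd]⟩, f.eichler_mem_Qgrp _ _ _ _, ?_⟩
    convert hD.mul ((QT_isPGroup (F ∙ x ⊔ F ∙ u)).to_inf_left (K := f.Eich)) inf_le_right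
      ⟨eichler_mem_QT h5 h6 (zero_mem _) h7, f.eichler_mem_Eich _ _ _ _⟩ ⟨eichler_mem_QT h5 (Submodule.mem_sup_right
        (Submodule.mem_span_singleton_self u)) (zero_mem _) h8, f.eichler_mem_Eich _ _ _ _⟩ (hT _ _ _) (hT _ _ _) using 1
    refine f.isom_ext fun v => ?_
    simp only [isom_mul_apply, eichler_apply, B_zero_left, B_smul_left, map_sub, map_smul, map_add, B_add_left, h4,
      f.B_self_of_Q h3, map_neg, map_mul, k.σε, σ_of_π hd, smul_zero, smul_eq_mul, map_zero]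
    match_scalars
    · ring
    · ring
    · linear_combination (-(k.ε * d * f.B u v)) * k.εε
  obtain ⟨z, z', hz, h2, h3, h4, h5⟩ := h.exists_hyp hy
  have hz' : (f.restrict (f.perp (Submodule.span F {x, y}))).IsHyp ⟨z, f.mem_perp_span_pair.2 ⟨h2, h3⟩⟩
    ⟨z', f.mem_perp_span_pair.2 ⟨h4, h5⟩⟩ := ⟨hz.1, hz.2, hz.3⟩
  refine fun e he => (hy.Qgrp_le_of_eichSet h1 (fun w h6 h7 => ?_) he).2
  obtain ⟨a, b, c, ha, hb, hc, e⟩ := hz'.exists_eq_add_singular ⟨w, f.mem_perp_span_pair.2 ⟨h6, h7⟩⟩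
  rw [show w = a + b + c from congrArg Subtype.val e]
  exact add_mem (add_mem (key _ ha (f.mem_perp_span_pair.1 a.2).1) (key _ hb (f.mem_perp_span_pair.1 b.2).1))
    (key _ hc (f.mem_perp_span_pair.1 c.2).1)

theorem Tr.mem_D (h : Tr f) (hD : PCl p f.Eich D) (hT : ∀ u d hd, f.eichler u 0 d hd ∈ D) (hg : g ∈ f.Eich)
    (hp : ∃ n : ℕ, g ^ p ^ n = 1) : g ∈ D := by
  suffices ∀ X : Submodule F V, ∀ g ∈ f.Eich, (∃ n : ℕ, g ^ p ^ n = 1) → (∀ v ∈ X, g.1 v = v) → g ∈ D from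
    this ⊥ g hg hp (by simp)
  intro X
  induction X using WellFoundedGT.induction with
  | _ X ih =>
  rintro g hg ⟨n, hn⟩ hf
  by_cases h1 : g = 1
  · exact h1 ▸ hD.one
  obtain ⟨x, hx0, hx, e, h2⟩ := h.exists_sing ⟨n, hn⟩ h1
  obtain ⟨y, hy⟩ := h.nd.exists_isHyp hx hx0
  have e1 : f.B x (g.1 y) = 1 := by rw [← e, B_coe_map, hy.B_xy]
  obtain ⟨c, hc, h3⟩ := exists_eichler_move hx (v := g.1 y) (v' := y) (by simp [e1]) (by rw [e1, hy.B_xy])
    (by rw [Q_coe_map])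
  refine hD.of_mul (Qgrp_isPGroup h.nd hx hx0) (f.Qgrp_le_Eich x) hg hn (norm_Qgrp one_ne_zero (by rw [e, one_smul]))
    (f.eichler_mem_Qgrp _ _ _ hc) (h.Qgrp_le hD hT hx hx0 _ (f.eichler_mem_Qgrp _ _ _ hc)) fun h4 =>
      ih _ (lt_sup_span (x := y) fun h5 => ?_) _ (mul_mem (f.eichler_mem_Eich _ _ _ _) hg) h4
        (fix_sup (fun u hu => ?_) h3)
  · exact one_ne_zero (hy.B_xy.symm.trans (f.eq_zero_symm (h2 y (hf y h5))))
  · rw [isom_mul_apply, hf u hu, f.eichler_apply_of_B _ _ _ _ (f.eq_zero_symm (h2 u (hf u hu))), B_smul_left, B_sub_left,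
      ← hf u hu, B_coe_map, hf u hu, sub_self, mul_zero, mul_zero, zero_smul, sub_zero]

theorem Tr.simple (h : Tr f) (htr : ∀ D, PCl p f.Eich D → ∀ x y, f.IsHyp x y → ∀ w c hc, w ≠ 0 → f.B y w = 0 →
    f.eichler x w c hc ∈ D → ∃ d, d ≠ 0 ∧ ∃ hd, f.eichler x 0 d hd ∈ D) :
    ∃ S, ∃ hS : SylIn p S f.Eich, (fusionSystemOfSubgroup _ S hS.le).IsSimple p := by
  have := Module.finite_of_finite F (M := V)
  obtain ⟨x, hx0, hx⟩ := h.pt
  obtain ⟨y, hy⟩ := h.nd.exists_isHyp hx hx0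
  obtain ⟨z, z', hz, h2, h3, h4, h5⟩ := h.exists_hyp hy
  have hts := (ts_span_singleton hx).sup_singleton hz.1 (f.mem_perp_span_singleton.2 h2)
  have mx : x ∈ F ∙ x ⊔ F ∙ z := Submodule.mem_sup_left (Submodule.mem_span_singleton_self x)
  have mz : z ∈ F ∙ x ⊔ F ∙ z := Submodule.mem_sup_right (Submodule.mem_span_singleton_self z)
  generalize F ∙ x ⊔ F ∙ z = X at hts mx mz
  have hn : ∀ g ∈ f.Eich, (∀ v ∈ X, g.1 v ∈ X) → g ∈ normalizer ((QT f X ⊓ f.Eich : Subgroup _) : Set f.Isom) :=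
    fun g hg h1 => mem_normalizer_of_maps fun e he => mem_inf.2 ⟨conj_QT_le (f.mem_stab_of_le h1) (Amb.conj_mem_cj.2 he.1),
      mul_mem (mul_mem hg (mem_inf.1 he).2) (inv_mem hg)⟩
  obtain ⟨S, hS, hle⟩ := exists_sylIn_ge (isPGroup_sup_of_norm (Qgrp_isPGroup (p := p) h.nd hx hx0)
    ((QT_isPGroup X).to_inf_left (K := f.Eich)) fun g hg => hn g (f.Qgrp_le_Eich x hg) fun u hu => by
      simpa using X.add_mem ((Submodule.span_singleton_le_iff_mem _ _).2 mx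
        (((h.nd.mem_Qgrp_iff hx hx0).1 hg).2 u (hts.B_eq _ mx _ hu))) hu) (sup_le (f.Qgrp_le_Eich x) inf_le_right)
  have hsp : ∀ v, (∀ s ∈ S, s.1 v = v) → ∃ a : F, a • x = v := fun v hv => Submodule.mem_span_singleton.1
    (h.nd.mem_span_of_fixed (.inr h.ex) hx hx0 fun s hs => hv s (hle (mem_sup_left hs)))
  have hfix : ∀ s ∈ S, s.1 x = x := fun s hs => by
    obtain ⟨v, -, hv0, hv⟩ := exists_fixed' hS.pg ⊤ (fun e => hx0 (e.le (Submodule.mem_top (x := x)))) fun _ _ _ _ => trivial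
    obtain ⟨a, rfl⟩ := hsp v hv
    exact smul_right_injective V (left_ne_zero_of_smul hv0) (by simpa using hv s hs)
  have hpec : ∀ (Q : Subgroup f.Isom) u w c hc, f.eichler u w c hc ∈ normalizer (Q : Set f.Isom) →
      f.eichler u w c hc ∈ pElementClosure p (normalizerIn f.Eich Q) := fun Q u w c hc h' =>
    let ⟨_, hj⟩ := pe_eichler (p := p) h.nd hc
    le_pec (isPGroup_zpowers hj) (zpowers_le.2 (mem_normIn.2 ⟨f.eichler_mem_Eich _ _ _ _, h'⟩)) (mem_zpowers _)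
  have hsh : ∀ {x y z}, f.IsHyp x y → z ∈ X → x ∈ X → f.B z y = 0 → ∀ c : F,
      ∃ t ∈ pElementClosure p (normalizerIn f.Eich (QT f X ⊓ f.Eich)),
        f.Isom.subtype t x = x + c • z ∧ f.Isom.subtype t z = z := fun {x y z} hy h1 h2 h3 c => by
    obtain ⟨w, hc, e⟩ := exists_shear hy (hts.Q_eq _ h1) (hts.B_eq _ h1 _ h2) h3 c
    refine ⟨_, hpec _ _ _ _ hc (hn _ (f.eichler_mem_Eich _ _ _ _) fun v hv => ?_), e, f.eichler_apply_self _ _ _ hc⟩
    rw [f.eichler_apply_of_B _ _ _ _ (hts.B_eq _ h1 _ hv)]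
    exact sub_mem hv (X.smul_mem _ h1)
  refine ⟨S, hS, simple_two hS (fun e => h.nd.not_Qgrp_le_scalars (.inr h.ex) hx hx0
    ((le_sup_left.trans hle).trans (e.le.trans bot_le))) (fun D hD ⟨g, hg, hg'⟩ s hs => ?_) (le_sup_left.trans hle)
    (le_sup_right.trans hle) (h.pc_Q hx hx0) (h.pc_QT _ hts (fun e => hx0 (e.le mx)) fun _ _ h => h) fun g hg => ?_⟩
  · obtain ⟨u, hu0, hu, e, -⟩ := h.exists_sing (hD.le g hg).2 hg'
    obtain ⟨v, hv⟩ := h.nd.exists_isHyp hu hu0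
    obtain ⟨a, ha, ha', ha1⟩ := hD.exists_mem (h.pc_Q hu hu0) (Qgrp_isPGroup h.nd hu hu0) (f.Qgrp_le_Eich u) hg hg'
      (norm_Qgrp one_ne_zero (by rw [e, one_smul]))
    obtain ⟨w, c, hc, h6, rfl⟩ := exists_of_mem_Qgrp hv ha
    obtain ⟨d, hd0, hd, h7⟩ : ∃ d, d ≠ 0 ∧ ∃ hd, f.eichler u 0 d hd ∈ D := by
      by_cases hw : w = 0
      · subst hw
        exact ⟨c, by rintro rfl; exact ha1 (f.eichler_zero hc), hc, ha'⟩
      · exact htr D hD u v hv w c hc hw h6 ha'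
    exact h.mem_D hD (fun _ _ => h.Tgrp_le hD hu0 hd0 h7) (hS.le hs) (isPGroup_iff_mem.1 hS.pg s hs)
  obtain ⟨a, ha⟩ := hsp (g.1 x) fun s hs => by
    simpa [isom_mul_apply] using congrArg g.1 (hfix _ (conj_mem_of_norm' hg.2 hs))
  have ha0 : a ≠ 0 := by rintro rfl; exact hx0 (g.1.injective (by rw [← ha, zero_smul, map_zero]))
  obtain ⟨m, hm, e⟩ := exists_scale f.Isom.subtype (hsh hy mz mx (f.eq_zero_symm h3)) (hsh hz mx mz h4) ha0
  refine ⟨m, hm, norm_Qgrp ha0 e, h.mem_of_fix hx hx0 (fun u w c hc e' => hpec _ u w c hc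
    (norm_Qgrp one_ne_zero (by rw [e', one_smul]))) (mul_mem (inv_mem (pec_le _ _ hm).1) hg.1) ?_⟩
  rw [isom_mul_apply, ← ha, ← show m.1 x = a • x from e, isom_inv_apply_apply]

theorem Tr.simple_quot (h : Tr f) (htr : ∀ D, PCl p f.Eich D → ∀ x y, f.IsHyp x y → ∀ w c hc, w ≠ 0 → f.B y w = 0 →
    f.eichler x w c hc ∈ D → ∃ d, d ≠ 0 ∧ ∃ hd, f.eichler x 0 d hd ∈ D) {G : Type*} [Group G] (e : G ≃* f.Eich)
    (S : Sylow p (G ⧸ center G)) : (groupFusionSystem (S : Subgroup (G ⧸ center G))).IsSimple p := by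
  obtain ⟨T, hT, h1⟩ := h.simple htr
  obtain ⟨x, hx0, hx⟩ := h.pt
  exact CA.Fus.simple_quot hT h1 e (fun z _ h2 h3 => Subtype.ext (AutLin.pe_scal (AutCorr.PE.map f.Isom.subtype h3)
    (h.nd.mem_scalars_of_commute (.inr h.ex) hx hx0 h2))) S

omit [Finite F] in
theorem tr_of_ne (hf : f.Nondeg) {b : F} (hb : b ≠ k.ε * k.σ b) (hD : PCl p f.Eich D) (h : f.IsHyp x y)
    {hc : f.EichlerCond x w c} (hw : w ≠ 0) (h1 : f.B y w = 0) (he : f.eichler x w c hc ∈ D) :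
    ∃ d, d ≠ 0 ∧ ∃ hd, f.eichler x 0 d hd ∈ D := by
  obtain ⟨u, h2, h3⟩ := hf.exists_perp_B_eq' (not_mem_span h hw hc.2 h1) b
  obtain ⟨d, hd⟩ := f.exists_eichlerCond hc.1 (f.mem_perp_span_pair.1 h2).1
  refine ⟨_, ?_, _, f.commutator_eichler hc hd ▸ hD.comm (Qgrp_isPGroup hf hc.1 h.x_ne_zero) (f.Qgrp_le_Eich x)
    (f.eichler_mem_Qgrp _ _ _ _) (f.eichler_mem_Qgrp _ _ _ _) he⟩
  rw [f.symm w u, h3]; exact sub_ne_zero.2 hb

omit [Finite F] in
theorem tr_symp {f : Form (Kind.symp F) V} {D : Set f.Isom} (hf : f.Nondeg) (h2 : (2 : F) = 0)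
    (hex : 5 ≤ finrank F V ∨ ∃ a : F, a ≠ 0 ∧ a ≠ 1) (hD : PCl p f.Eich D) (h : f.IsHyp x y)
    {hc : f.EichlerCond x w c} (hw : w ≠ 0) (h1 : f.B y w = 0) (he : f.eichler x w c hc ∈ D) :
    ∃ d, d ≠ 0 ∧ ∃ hd, f.eichler x 0 d hd ∈ D := by
  classical
  by_contra! H
  let P : V → F → Prop := fun w c => f.B y w = 0 ∧ ∃ hc, f.eichler x w c hc ∈ D
  have hP := Qgrp_isPGroup (p := p) hf hc.1 h.x_ne_zero
  have add : ∀ {w c w' c'}, P w c → P w' c' → P (w + w') (c + c' + f.B w w') := fun ⟨a, b, d⟩ ⟨a', b', d'⟩ =>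
    ⟨by rw [map_add, a, a', add_zero], _, f.eichler_mul b b' ▸ hD.mul hP (f.Qgrp_le_Eich x)
      (f.eichler_mem_Qgrp _ _ _ _) (f.eichler_mem_Qgrp _ _ _ _) d d'⟩
  have hh : ∀ u : V, u + u = 0 := fun u => by rw [← two_smul F, h2, zero_smul]
  have eq : ∀ {w c c'}, P w c → P w c' → c = c' := fun {w c c'} a b => by
    have := add a b
    rw [hh, f.symp_B_self, add_zero] at this
    by_contra e
    exact H _ (fun e' => e (by linear_combination e' - c' * h2)) _ this.2.2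
  have mv : ∀ {w c u}, P w c → f.B x u = 0 → f.B y u = 0 → ∀ a, P (w + (a * f.B u w) • u) c := by
    rintro w c u ⟨h3, h4, h5⟩ h6 h7 a
    have h8 := hD.conj _ (f.eichler_mem_Eich u 0 a (symp_eichlerCond (map_zero _) a)) _ h5
    have e1 := f.eq_zero_symm h6
    refine ⟨by simp [h3, h7], symp_eichlerCond (by simp [h4.2, h6]) c, ?_⟩
    rwa [conj_eichler, f.eichler_congr _ _ (p' := x) (w' := w + (a * f.B u w) • u) (by simp [eichler_zero_apply, e1])
      (by simp [eichler_zero_apply]) rfl] at h8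
  have key : ∀ {w c}, P w c → w ≠ 0 → c = 1 ∧ ∃ u, f.B x u = 0 ∧ f.B y u = 0 ∧ f.B u w = 1 := by
    rintro w c h3 h4
    obtain ⟨u, h5, h6⟩ := hf.exists_perp_B_eq (not_mem_span h h4 h3.2.1.2 h3.1) 1
    obtain ⟨h7, h8⟩ := f.mem_perp_span_pair.1 h5
    refine ⟨?_, u, h7, h8, h6⟩
    have h9 := add (mv h3 h7 h8 1) h3
    have h10 := mv h3 (u := u + w) (by simp [h7, h3.2.1.2]) (by simp [h8, h3.1]) 1
    simp only [h6, B_add_left, f.symp_B_self, mul_one, one_smul, add_zero, zero_add] at h9 h10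
    rw [add_right_comm, hh, zero_add] at h9
    rw [add_comm u, ← add_assoc, hh, zero_add] at h10
    linear_combination eq h10 h9 + c * h2
  have h3 : P w c := ⟨h1, hc, he⟩
  obtain ⟨-, u, h4, h5, h6⟩ := key h3 hw
  have hu : u ≠ 0 := by rintro rfl; simp at h6
  have h7 : ∀ v, f.B x v = 0 → f.B y v = 0 → ∀ a, f.B v w = 1 → P (a • v) a := fun v h7 h8 a h9 => by
    have := add (mv h3 h7 h8 a) h3
    simp only [h9, B_add_left, f.symp_B_self, mul_one, zero_add, B_smul_left, Kind.symp_σ] at this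
    rwa [add_right_comm, hh, zero_add, ← two_mul, h2, zero_mul, zero_add] at this
  rcases hex with h8 | ⟨a, h8, h9⟩
  · have h9 := hf.finrank_perp (Submodule.span F (({x, y, u, w} : Finset V) : Set V))
    have h10 := finrank_span_finset_le_card (R := F) ({x, y, u, w} : Finset V)
    have h11 := Finset.card_le_four (a := x) (b := y) (c := u) (d := w)
    obtain ⟨z, h12, h13⟩ := Submodule.exists_mem_ne_zero_of_ne_bot (p := f.perp (Submodule.span F
      (({x, y, u, w} : Finset V) : Set V))) fun e => by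
        rw [e, finrank_bot] at h9
        change finrank F (Submodule.span F _) ≤ _ at h10
        omega
    simp only [mem_perp_span, Finset.coe_insert, Finset.coe_singleton, Set.mem_insert_iff, Set.mem_singleton_iff,
      forall_eq_or_imp, forall_eq] at h12
    have := add (h7 u h4 h5 1 h6) (h7 (u + z) (by simp [h4, h12]) (by simp [h5, h12]) 1
      (by simp [h6, f.eq_zero_symm h12.2.2.2]))
    simp only [one_smul, map_add, f.symp_B_self, h12, add_zero] at this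
    rw [← add_assoc, hh, zero_add, one_add_one_eq_two, h2] at this
    exact zero_ne_one (key this h13).1
  · exact h9 (key (h7 u h4 h5 a h6) (smul_ne_zero h8 hu)).1

theorem exists_perp_two (hf : f.Nondeg) (h4 : 4 ≤ finrank F V) (h : f.IsHyp x y)
    (h1 : ∀ W : Submodule F V, 2 ≤ finrank F W → ∃ z : W, z ≠ 0 ∧ f.Q z = 0) :
    ∃ z, z ≠ 0 ∧ f.Q z = 0 ∧ f.B x z = 0 ∧ f.B y z = 0 := by
  obtain ⟨z, h2, h3⟩ := h1 (f.perp (Submodule.span F {x, y})) (by have := h.finrank_perp; omega)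
  exact ⟨z, fun e => h2 (Subtype.ext e), h3, f.mem_perp_span_pair.1 z.2⟩

theorem simple_PSp {K : Type*} [Field K] [Fintype K] [CharP K p] {m : ℕ} (hm : 2 ≤ m) (hex : m = 2 → 3 ≤ Fintype.card K)
    (S : Sylow p (PSp m K)) : (groupFusionSystem (S : Subgroup (PSp m K))).IsSimple p := by
  have hf := sympStd_nondeg K m
  have hr : finrank K (Fin m ⊕ Fin m → K) = m + m := by simp
  have h1 : ∀ W : Submodule K (Fin m ⊕ Fin m → K), 2 ≤ finrank K W → ∃ z : W, z ≠ 0 ∧ (sympStd K m).Q z = 0 :=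
    fun W hW => by
      have := Module.nontrivial_of_finrank_pos (R := K) (M := W) (by omega)
      obtain ⟨z, hz⟩ := exists_ne (0 : W)
      exact ⟨z, hz, symp_Q _ _⟩
  refine Tr.simple_quot ⟨hf, fun v _ => symp_Q _ v, ⟨1, one_ne_zero, rfl⟩, fun _ _ _ _ => rfl, ?_,
    fun h => exists_perp_two hf (by omega) h h1⟩ (fun D hD x y h w c hc hw h2 he => ?_)
    ((spEquiv K m).trans (topEquiv.symm.trans (MulEquiv.subgroupCongr hf.symp_Eich_eq_top.symm))) S
  · obtain ⟨z, h2, h3⟩ := h1 ⊤ (by rw [finrank_top]; omega)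
    exact ⟨z, fun e => h2 (Subtype.ext e), h3⟩
  by_cases h3 : (2 : K) = 0
  · refine tr_symp hf h3 (or_iff_not_imp_left.2 fun e => exists_ne_zero_ne_one ?_) hD h hw h2 he
    have := hex (by omega)
    omega
  · exact tr_of_ne hf (b := 1) (fun e => h3 (by simp at e; linear_combination e)) hD h hw h2 he

theorem simple_PSU {K : Type*} [Field K] [Fintype K] [CharP K p] {q n : ℕ} (hK : Fintype.card K = q ^ 2) (hn : 4 ≤ n)
    (S : Sylow p (PSU n K q)) : (groupFusionSystem (S : Subgroup (PSU n K q))).IsSimple p := by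
  have hf := hermStd_nondeg hK n
  have hr : finrank K (Fin n → K) = n := by simp
  obtain ⟨b, hb⟩ : ∃ b, conj hK b ≠ b := by
    by_contra! e
    exact conj_ne_id hK (RingHom.ext e)
  exact Tr.simple_quot ⟨hf, fun v h => (herm_B_self _ v).symm.trans h, herm_exists_π_eq_zero _ (conj_ne_id hK),
    fun a c h1 h2 => by
      simp only [Kind.herm_π, Kind.herm_σ, map_mul] at h1 h2 ⊢
      rw [h1, ← mul_add, h2, mul_zero], herm_exists_singular' hK (by omega),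
    fun h => exists_perp_two hf (by omega) h fun W hW => herm_exists_singular' hK (f := (hermStd hK n).restrict W) hW⟩
    (fun D hD x y h w c hc hw h2 he => tr_of_ne hf (b := b) (by simpa using hb.symm) hD h hw h2 he)
    ((suEquiv hK n).trans (MulEquiv.subgroupCongr (herm_Eich_eq hK hf (by omega)).symm)) S

end CA.Fus
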