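import Cfsg.Agent.Lib.Fus.FusHar4
import Cfsg.Agent.Lib.Grp.CoprimeAct

/-!
Coprime action of an elementary abelian group of rank three: derived subgroups of fixed points.
-/

set_option autoImplicit false
set_option linter.unusedSectionVars false
set_option linter.style.haveILetI false

namespace CA.FusDer

open Subgroup Cfsg CA.OQuo CA.BG CA.FusHar CA.Coprime2 CA.SylIn
open scoped commutatorElement IsMulCommutative

universe u
variable {G : Type u} [Group G] [Finite G] {A K N P J : Subgroup G} {p : ℕ}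

theorem rel_mul {L : Subgroup G} (h : N ≤ L) (X : Subgroup G) :
    N.relIndex (L ⊓ X) * L.relIndex X = N.relIndex X := by
  have := relIndex_mul_relIndex (N ⊓ X) (L ⊓ X) X (inf_le_inf_right _ h) inf_le_right
  rwa [inf_relIndex_right, inf_relIndex_right, show N ⊓ X = N ⊓ (L ⊓ X) by rw [← inf_assoc, inf_of_le_left h],
    inf_relIndex_right] at this

/-- index inequality in a nilpotent group -/
theorem lem1 (hA : IsMulCommutative A) (hn : A ≤ 𝓝(P)) (hc : (♯A).Coprime ♯P) (hP : Group.IsNilpotent P)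
    (T : Finset (Subgroup G)) (hT : ∀ B, Cocyclic A B → B ∈ T) (N : Subgroup G) :
    N ≤ P → A ≤ 𝓝(N) → N.relIndex P ∣ ∏ B ∈ T, N.relIndex (P ⊓ 𝓒(B)) := by
  induction N using WellFoundedGT.induction with | _ N ih => ?_
  intro h1 h2
  rcases h1.eq_or_lt with rfl | h3
  · rw [relIndex_self]; exact one_dvd _
  obtain ⟨L, ⟨l1, l2, l3⟩, lm⟩ := wellFounded_lt.has_min {M : Subgroup G | N < M ∧ M ≤ P ∧ A ≤ 𝓝(M)} ⟨P, h3, le_rfl, hn⟩
  haveI := hP
  obtain ⟨B, b1, b2⟩ := exists_cocyclic_of_maximal hA l3 h2 l1 (nilpotent_of_mulEquiv (subgroupOfEquivOfLe l2))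
    fun M m1 m2 m3 => by
      rcases m1.eq_or_lt with e | e
      · exact .inl e.symm
      · exact .inr (m2.eq_or_lt.resolve_right (lm M ⟨e, m2.trans l2, m3⟩))
  have k : N.relIndex L = N.relIndex (L ⊓ (P ⊓ 𝓒(B))) := by
    refine le_antisymm ?_ (relIndex_le_of_le_right inf_le_left (relIndex_ne_zero' _ _))
    have ex : ∀ k ∈ L, ∃ n ∈ N, k * n ∈ 𝓒(B) := fun k hk =>
      Coprime.exists_mul_mem_centralizer' (b1.1.trans h2) ((hc.coprime_dvd_left (card_dvd_of_le b1.1)).coprime_dvd_right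
        (card_dvd_of_le h1)) (.inl (by
          haveI : IsMulCommutative B := ⟨⟨fun a b => Subtype.ext (mul_comm_of_mem hA (b1.1 a.2) (b1.1 b.2))⟩⟩
          exact isSolvable_of_comm B)) fun a ha => by
        have := b2 (commutator_mem_commutator (inv_mem hk) ha)
        rwa [show ⁅k⁻¹, a⁆ = k⁻¹ * (a * k * a⁻¹) by group] at this
    choose! f f1 f2 using ex
    refine FusPat.relIndex_le_of_fun (fun k => k * f k) (fun k hk => ⟨mul_mem hk (l1.le (f1 k hk)),
      l2 (mul_mem hk (l1.le (f1 k hk))), f2 k hk⟩) fun s hs t ht e => ?_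
    have := mul_mem (mul_mem (f1 s hs) e) (inv_mem (f1 t ht))
    rwa [show f s * ((s * f s)⁻¹ * (t * f t)) * (f t)⁻¹ = s⁻¹ * t by group] at this
  rw [← relIndex_mul_relIndex N L P l1.le l2, ← Finset.prod_congr rfl fun B _ => rel_mul l1.le (P ⊓ 𝓒(B)),
    Finset.prod_mul_distrib]
  exact mul_dvd_mul (k ▸ Finset.dvd_prod_of_mem (fun B => N.relIndex (L ⊓ (P ⊓ 𝓒(B)))) (hT B b1)) (ih L l1 l2 l3)

theorem lem2 (hA : IsMulCommutative A) (hn : A ≤ 𝓝(K)) (hc : (♯A).Coprime ♯K) (hJ : A ≤ 𝓝(J))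
    (T : Finset (Subgroup G)) (hT : ∀ B, Cocyclic A B → B ∈ T) {M : ℕ} (h : ∀ B ∈ T, J.relIndex (K ⊓ 𝓒(B)) ≤ M) :
    J.relIndex K ∣ M.factorial ^ T.card := by
  rw [Nat.dvd_iff_prime_pow_dvd_dvd]
  intro p k hp hk
  haveI := Fact.mk hp
  haveI := hA
  have n1 : A ≤ 𝓝(J ⊓ K) := norm_inf hJ hn
  obtain ⟨U, u1, u2⟩ := exists_isSylowIn n1 (hc.coprime_dvd_right (card_dvd_of_le inf_le_right))
    (.inl (isSolvable_of_comm A)) p
  obtain ⟨P, p1, p2, p3⟩ := exists_isSylowIn_ge hn hc (.inl (isSolvable_of_comm A)) (u1.le.trans inf_le_right)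
    u1.isPGroup u2
  have e : U = J ⊓ P := u1.eq_of_le (p1.isPGroup.to_inf_right) (le_inf (u1.le.trans inf_le_left) p3)
    (inf_le_inf_left _ p1.le) |>.symm
  have k1 := lem1 hA p2 (hc.coprime_dvd_right (card_dvd_of_le p1.le)) p1.isPGroup.isNilpotent T hT U p3 u2
  have k2 := relIndex_mul_relIndex U P K p3 p1.le
  have k3 := relIndex_mul_relIndex U (J ⊓ K) K u1.le inf_le_right
  rw [inf_relIndex_right] at k3
  have k4 : p ^ k ∣ U.relIndex P := (Nat.Coprime.pow_left k ((Nat.Prime.coprime_iff_not_dvd hp).2 p1.not_dvd)).dvd_of_dvd_mul_right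
    (k2 ▸ k3 ▸ hk.mul_left _)
  refine k4.trans (k1.trans ?_)
  rw [← Finset.prod_const]
  refine Finset.prod_dvd_prod_of_dvd _ _ fun B hB => Nat.dvd_factorial
    (Nat.pos_of_ne_zero (relIndex_ne_zero' _ _)) (le_trans ?_ (h B hB))
  rw [e, ← inf_relIndex_right, inf_assoc, inf_of_le_right (inf_le_left : P ⊓ 𝓒(B) ≤ P), inf_relIndex_right]
  exact relIndex_le_of_le_right (inf_le_inf_right _ p1.le) (relIndex_ne_zero' _ _)

theorem exists_common {q : ℕ} (hq : q.Prime) (hA : IsMulCommutative A) (h3 : ♯A = q ^ 3) (he : ∀ a ∈ A, a ^ q = 1)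
    {B B' : Subgroup G} (h : Cocyclic A B) (h' : Cocyclic A B') : ∃ a ∈ B ⊓ B', a ≠ 1 := by
  by_contra k
  push Not at k
  have e : B ⊓ B' = ⊥ := eq_bot_iff.2 fun a ha => k a ha
  have := relIndex_inf_le (H := B) (K := B') (L := A)
  rw [e, relIndex_bot_left, h3] at this
  have k1 := Nat.le_of_dvd hq.pos (h.relIndex_dvd hA he)
  have k2 := Nat.le_of_dvd hq.pos (h'.relIndex_dvd hA he)
  have := this.trans (Nat.mul_le_mul k1 k2)
  have := hq.two_le
  nlinarith

/-- bound for class sizes -/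
def nb (q m : ℕ) : ℕ := (m ^ q ^ 3).factorial ^ 2 ^ q ^ 3

theorem small {q m : ℕ} (hq : q.Prime) (hA : IsMulCommutative A) (h3 : ♯A = q ^ 3) (he : ∀ a ∈ A, a ^ q = 1)
    (hn : A ≤ 𝓝(K)) (hc : (♯A).Coprime ♯K) (h : ∀ a ∈ A, a ≠ 1 → ♯⁅K ⊓ 𝓒₁(a), K ⊓ 𝓒₁(a)⁆ ≤ m)
    {B : Subgroup G} (hB : Cocyclic A B) {x : G} (hx : x ∈ K ⊓ 𝓒(B)) : 𝓒₁(x).relIndex K ≤ nb q m := by
  classical
  haveI := Fintype.ofFinite A
  haveI := Fintype.ofFinite (Subgroup G)
  have k := lem2 (J := ⨅ a : A, 𝓒₁(a * x * (a : G)⁻¹)) hA hn hc (fun a ha => mem_norm fun y hy => mem_iInf.2 fun b => by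
      have := mem_cent1.1 (mem_iInf.1 hy ⟨a⁻¹ * b, mul_mem (inv_mem ha) b.2⟩)
      refine mem_cent1.2 ?_
      calc a * y * a⁻¹ * (b * x * (b : G)⁻¹) = a * (y * (a⁻¹ * b * x * (a⁻¹ * b)⁻¹)) * a⁻¹ := by group
        _ = _ := by rw [this]; group)
    (Finset.univ.filter (Cocyclic A)) (by simp) (M := m ^ q ^ 3) fun B' hB' => by
      refine (relIndex_iInf_le _).trans ((Finset.prod_le_pow_card _ _ m fun a _ => ?_).trans
        (by rw [Finset.card_univ, ← Nat.card_eq_fintype_card, h3]))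
      obtain ⟨c, c1, c2⟩ := exists_common hq hA h3 he hB (Finset.mem_filter.1 hB').2
      refine le_trans (rel_cm (X := ⁅K ⊓ 𝓒₁(c), K ⊓ 𝓒₁(c)⁆) (fun y hy => commutator_mem_commutator
        (mem_inf.2 ⟨hy.1, mem_cent1.2 (mem_cent.1 hy.2 c c1.2).symm⟩)
        (mem_inf.2 ⟨conj_mem_of_mem_normalizer (hn a.2) hx.1, mem_cent1.2 ?_⟩))
        fun y _ e => mem_cent1.2 e) (h c (hB.1 c1.1) c2)
      have e1 := mem_cent.1 hx.2 c c1.1
      have e2 := mul_comm_of_mem hA (inv_mem a.2) (hB.1 c1.1)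
      have e3 := mul_comm_of_mem hA a.2 (hB.1 c1.1)
      rw [mul_assoc, e2, ← mul_assoc, mul_assoc (a : G), ← e1, ← mul_assoc, e3]; group
  have k2 : (Finset.univ.filter (Cocyclic A)).card ≤ 2 ^ q ^ 3 := by
    rw [← h3, Nat.card_eq_fintype_card, ← Fintype.card_set, ← Finset.card_univ]
    refine Finset.card_le_card_of_injOn (fun B => {a : A | (a : G) ∈ B}) (by simp) fun B1 h1 B2 h2 e => ?_
    have l1 := (Finset.mem_filter.1 h1).2.1
    have l2 := (Finset.mem_filter.1 h2).2.1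
    ext y
    exact ⟨fun j => (Set.ext_iff.1 e ⟨y, l1 j⟩).1 j, fun j => (Set.ext_iff.1 e ⟨y, l2 j⟩).2 j⟩
  refine le_trans (relIndex_le_of_le_left ((iInf_le _ 1).trans (by simp)) (relIndex_ne_zero' _ _))
    ((Nat.le_of_dvd (Nat.pow_pos (Nat.factorial_pos _)) k).trans (Nat.pow_le_pow_right (Nat.factorial_pos _) k2))

/-- bound in Dietzmann's lemma -/
def db (t n e : ℕ) : ℕ := n ^ t * (n ^ t * e) ^ (n ^ t * t)

theorem dietz0 (Y : Set G) {t n e : ℕ} (ht : Nat.card Y ≤ t) (hn : 0 < n) (he : 0 < e)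
    (h1 : ∀ y ∈ Y, 𝓒₁(y).index ≤ n) (h2 : ∀ y ∈ Y, y ^ e = 1) : ♯(closure Y) ≤ db t n e := by
  haveI := Fintype.ofFinite Y
  set N := closure Y
  have i1 : (center N).index ≤ n ^ t := by
    have l : (⨅ y : Y, 𝓒₁((y : G))).subgroupOf N ≤ center N := fun x hx => mem_center_iff.2 fun g => Subtype.ext
      (mem_cent1.1 ((closure_le 𝓒₁((x : G))).2 (fun y hy => mem_cent1_symm.1 (mem_iInf.1 hx ⟨y, hy⟩)) g.2))
    refine (index_antitone l).trans ((relIndex_iInf_le _).trans ((Finset.prod_le_pow_card _ _ n fun y _ =>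
      le_trans (relIndex_le_of_le_right le_top (relIndex_ne_zero' _ _)) (by rw [relIndex_top_right]; exact h1 y y.2)).trans
        (Nat.pow_le_pow_right hn (by rwa [Finset.card_univ, ← Nat.card_eq_fintype_card]))))
  have i2 : ∀ g (hg : g ∈ N), MonoidHom.transferCenterPow N ⟨g, hg⟩ ^ e = 1 := fun g hg => by
    induction hg using closure_induction with
    | mem y hy => rw [← map_pow, show (⟨y, subset_closure hy⟩ : N) ^ e = 1 from Subtype.ext (h2 y hy), map_one]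
    | one => rw [show (⟨1, one_mem _⟩ : N) = 1 from rfl, map_one, one_pow]
    | mul a b ha hb i j => rw [show (⟨a * b, mul_mem ha hb⟩ : N) = ⟨a, ha⟩ * ⟨b, hb⟩ from rfl, map_mul, mul_pow, i, j,
        one_mul]
    | inv a ha i => rw [show (⟨a⁻¹, inv_mem ha⟩ : N) = ⟨a, ha⟩⁻¹ from rfl, map_inv, inv_pow, i, inv_one]
  have i3 := card_dvd_exponent_pow_rank' (center N) (n := (center N).index * e) fun z => Subtype.ext (by
    have := congrArg Subtype.val (i2 z.1.1 z.1.2)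
    rw [SubgroupClass.coe_pow, MonoidHom.transferCenterPow_apply] at this
    rw [SubgroupClass.coe_pow, pow_mul]; exact this)
  have i4 := (rank_le_index_mul_rank (center N)).trans (Nat.mul_le_mul i1 ((rank_closure_finite_le_nat_card Y).trans ht))
  have p1 : 0 < (center N).index * e := Nat.mul_pos (Nat.pos_of_ne_zero index_ne_zero_of_finite) he
  rw [← (center N).index_mul_card]
  exact Nat.mul_le_mul i1 ((Nat.le_of_dvd (Nat.pow_pos p1) i3).trans ((Nat.pow_le_pow_right p1 i4).trans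
    (Nat.pow_le_pow_left (Nat.mul_le_mul_right _ i1) _)))

theorem dietz (X : Set G) {t n e : ℕ} (ht : Nat.card X ≤ t) (hn : 0 < n) (he : 0 < e)
    (h1 : ∀ y ∈ X, 𝓒₁(y).index ≤ n) (h2 : ∀ y ∈ X, y ^ e = 1) : ♯(normalClosure X) ≤ db (t * n) n e := by
  refine dietz0 (Group.conjugatesOfSet X) ?_ hn he (fun y hy => ?_) fun y hy => ?_
  · haveI := Fintype.ofFinite X
    haveI := fun x : X => Fintype.ofFinite (G ⧸ 𝓒₁((x : G)))
    refine le_trans (Nat.card_le_card_of_surjective (fun z : Σ x : X, G ⧸ 𝓒₁((x : G)) =>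
      (⟨z.2.out * z.1 * z.2.out⁻¹, Group.mem_conjugatesOfSet_iff.2 ⟨_, z.1.2, isConj_iff.2 ⟨_, rfl⟩⟩⟩ :
        Group.conjugatesOfSet X)) fun ⟨y, hy⟩ => ?_) ?_
    · obtain ⟨x, hx, e⟩ := Group.mem_conjugatesOfSet_iff.1 hy
      obtain ⟨g, rfl⟩ := isConj_iff.1 e
      obtain ⟨c, hc⟩ := QuotientGroup.mk_out_eq_mul 𝓒₁(x) g
      refine ⟨⟨⟨x, hx⟩, g⟩, Subtype.ext ?_⟩
      simp only [hc]
      rw [mul_assoc g, mem_cent1.1 c.2]; group
    · rw [Nat.card_sigma]
      exact (Finset.sum_le_card_nsmul _ _ n fun (x : X) _ => h1 x x.2).trans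
        (Nat.mul_le_mul_right _ (by rwa [Finset.card_univ, ← Nat.card_eq_fintype_card]))
  · obtain ⟨x, hx, e⟩ := Group.mem_conjugatesOfSet_iff.1 hy
    obtain ⟨g, rfl⟩ := isConj_iff.1 e
    rw [← conj_centralizer_singleton, index_conj]; exact h1 x hx
  · obtain ⟨x, hx, e⟩ := Group.mem_conjugatesOfSet_iff.1 hy
    obtain ⟨g, rfl⟩ := isConj_iff.1 e
    rw [conj_pow, h2 x hx]; group

open CoprimeAct SemidirectProduct in
theorem main {q m : ℕ} {A : Type u} [Group A] [Finite A] [MulDistribMulAction A G] (hq : q.Prime)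
    (h3 : Nat.card A = q ^ 3) (hA : ∀ a b : A, a * b = b * a) (he : ∀ a : A, a ^ q = 1) (hc : ¬ q ∣ Nat.card G)
    (h : ∀ a : A, a ≠ 1 → ♯(commutator (FixedPoints.subgroup (zpowers a) G)) ≤ m) :
    ♯(commutator G) ≤ db (q ^ 3 * m * (nb q m * nb q m)) (nb q m * nb q m) m.factorial := by
  haveI cA : IsMulCommutative A := ⟨⟨hA⟩⟩
  have cop : (Nat.card A).Coprime (Nat.card G) := h3 ▸ Nat.Coprime.pow_left 3 ((Nat.Prime.coprime_iff_not_dvd hq).2 hc)
  have h' : ∀ a : A, a ≠ 1 → ♯⁅FixedPoints.subgroup (zpowers a) G, FixedPoints.subgroup (zpowers a) G⁆ ≤ m :=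
    fun a ha => by rw [← map_subtype_commutator, card_map_of_injective (subtype_injective _)]; exact h a ha
  have fx : ∀ (a : A) (x : G), a • x = x → x ∈ FixedPoints.subgroup (zpowers a) G := fun a x e b =>
    (zpowers_le.2 (show a ∈ MulAction.stabilizer A x from e) : zpowers a ≤ _) b.2
  let Co : G → Prop := fun x => ∃ (B : Subgroup A) (a : A), B ⊔ zpowers a = ⊤ ∧ ∀ b ∈ B, b • x = x
  have cc : ∀ {B : Subgroup A} {a : A}, B ⊔ zpowers a = ⊤ →
      Cocyclic ((⊤ : Subgroup A).map (inr : A →* SD A G)) (B.map inr) := fun {B a} e =>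
    ⟨map_mono le_top, inr a, mem_map_of_mem _ trivial, by rw [← e, Subgroup.map_sup, MonoidHom.map_zpowers]⟩
  have cA' : IsMulCommutative ((⊤ : Subgroup A).map (inr : A →* SD A G)) := inferInstance
  have he' : ∀ a ∈ (⊤ : Subgroup A).map (inr : A →* SD A G), a ^ q = 1 := by
    rintro _ ⟨a, -, rfl⟩; rw [← map_pow, he, map_one]
  have h3' : ♯((⊤ : Subgroup A).map (inr : A →* SD A G)) = q ^ 3 := by rw [card_map_inr, card_top, h3]
  have sm : ∀ x, Co x → 𝓒₁(x).index ≤ nb q m := by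
    rintro x ⟨B, a, e, hx⟩
    have := small (K := (⊤ : Subgroup G).map (inl : G →* SD A G)) (m := m) hq cA' h3' he' (le_normalizer_top ⊤)
      (cop_map (by rwa [card_top])) (by
        rintro _ ⟨a, -, rfl⟩ ha
        have e : (⊤ : Subgroup G).map (inl : G →* SD A G) ⊓ 𝓒₁(inr a) ≤
            (FixedPoints.subgroup (zpowers a) G).map inl := by
          rintro _ ⟨⟨x, -, rfl⟩, hx⟩
          exact mem_map_of_mem _ (fx a x (inl_mem_centralizer_singleton_iff.1 hx))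
        refine (card_le_of_le' (commutator_mono e e)).trans ?_
        rw [← map_commutator, card_map_inl]
        exact h' a fun j => ha (j ▸ map_one _)) (cc e) (x := inl x)
      ⟨mem_map_of_mem _ trivial, inl_mem_centralizer_iff.2 hx⟩
    rwa [← MonoidHom.range_eq_map, ← index_comap, show 𝓒₁((inl x : SD A G)).comap inl = 𝓒₁(x) from ?_] at this
    ext y
    rw [mem_comap, mem_cent1, mem_cent1, ← map_mul, ← map_mul, inl_injective.eq_iff]
  let X : Set G := {x | ∃ u v, Co u ∧ Co v ∧ ⁅u, v⁆ = x}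
  have hX : ∀ x ∈ X, ∃ a : A, a ≠ 1 ∧
      x ∈ ⁅FixedPoints.subgroup (zpowers a) G, FixedPoints.subgroup (zpowers a) G⁆ := by
    rintro _ ⟨u, v, ⟨B, a, e, hu⟩, ⟨B', a', e', hv⟩, rfl⟩
    obtain ⟨_, ⟨⟨c, c1, rfl⟩, c', c2, c3⟩, c4⟩ := exists_common hq cA' h3' he' (cc e) (cc e')
    obtain rfl := inr_injective c3
    exact ⟨c', fun j => c4 (j ▸ map_one _), commutator_mem_commutator (fx _ _ (hu _ c1)) (fx _ _ (hv _ c2))⟩
  have l : commutator G ≤ normalClosure X := by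
    let φ := QuotientGroup.mk' (normalClosure X)
    have k1 : ∀ u, Co u → ∀ v, v ∈ 𝓒₁(φ u).comap φ := fun u hu v => by
      rw [eq_top_of_forall_cocyclic cop (L := 𝓒₁(φ u).comap φ) fun B a e k hk => mem_cent1.2 (cm1.1 (by
        rw [← map_commutatorElement]
        exact (QuotientGroup.eq_one_iff _).2 (subset_normalClosure ⟨k, u, ⟨B, a, e, hk⟩, hu, rfl⟩)))]
      trivial
    have k2 : ∀ u v, v ∈ 𝓒₁(φ u).comap φ := fun u v => by
      rw [eq_top_of_forall_cocyclic cop (L := 𝓒₁(φ u).comap φ) fun B a e k hk =>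
        mem_cent1_symm.1 (k1 k ⟨B, a, e, hk⟩ u)]
      trivial
    exact commutator_le.2 fun u _ v _ => (QuotientGroup.eq_one_iff _).1 (by
      change φ ⁅u, v⁆ = 1
      rw [map_commutatorElement]; exact cm1.2 (mem_cent1.1 (k2 v u)))
  have np : 0 < nb q m := Nat.pow_pos (Nat.factorial_pos _)
  refine (card_le_of_le' l).trans (dietz X ?_ (Nat.mul_pos np np) (Nat.factorial_pos _) ?_ fun y hy => ?_)
  · choose f f1 f2 using hX
    haveI := Fintype.ofFinite A
    haveI := fun a : A => Fintype.ofFinite (⁅FixedPoints.subgroup (zpowers a) G, FixedPoints.subgroup (zpowers a) G⁆ :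
      Subgroup G)
    haveI := Fintype.ofFinite {a : A // a ≠ 1}
    refine (Nat.card_le_card_of_injective (fun x : X => (⟨⟨f x x.2, f1 x x.2⟩, x, f2 x x.2⟩ : Σ a : {a : A // a ≠ 1},
      (⁅FixedPoints.subgroup (zpowers a.1) G, FixedPoints.subgroup (zpowers a.1) G⁆ : Subgroup G)))
      fun x y e => Subtype.ext (congrArg (fun z : Σ a : {a : A // a ≠ 1},
      (⁅FixedPoints.subgroup (zpowers a.1) G, FixedPoints.subgroup (zpowers a.1) G⁆ : Subgroup G) => (z.2 : G)) e)).trans ?_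
    rw [Nat.card_sigma]
    exact (Finset.sum_le_card_nsmul _ _ m fun (a : {a : A // a ≠ 1}) _ => h' a a.2).trans (Nat.mul_le_mul_right _ (by
      rw [Finset.card_univ, ← Nat.card_eq_fintype_card, ← h3]; exact Finite.card_subtype_le _))
  · rintro _ ⟨u, v, hu, hv, rfl⟩
    refine le_trans (index_antitone (show 𝓒₁(u) ⊓ 𝓒₁(v) ≤ _ from fun y hy => mem_cent1_symm.1 ?_))
      (index_inf_le.trans (Nat.mul_le_mul (sm u hu) (sm v hv)))
    have k1 := mem_cent1_symm.1 hy.1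
    have k2 := mem_cent1_symm.1 hy.2
    exact mul_mem (mul_mem (mul_mem k1 k2) (inv_mem k1)) (inv_mem k2)
  · obtain ⟨a, a1, a2⟩ := hX y hy
    exact orderOf_dvd_iff_pow_eq_one.1 ((orderOf_dvd_natCard _ a2).trans (Nat.dvd_factorial Nat.card_pos (h' a a1)))

end CA.FusDer
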