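import Cfsg.Agent.Lib.Fus.FusMw3
import Cfsg.Agent.Lib.Grp.H7Max

/-!
`2`-groups with a self-centralizing elementary abelian subgroup of order eight, part 1: general lemmas.
-/

set_option autoImplicit false
set_option linter.unusedSectionVars false
set_option linter.style.haveILetI false

namespace CA.FusHar

open Subgroup Cfsg CA.OQuo CA.BG CA.BG4 CA.FusPat CA.FusMw
open scoped commutatorElement

variable {G : Type*} [Group G] [Finite G] {A B C D F H K N T X : Subgroup G} {a b c g h r s t v w x y : G}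

theorem pT (hG : IsPGroup 2 G) (K : Subgroup G) : IsPi {2} K := isPi_of_isPGroup Nat.prime_two (hG.to_subgroup K)

theorem two (h : T.relIndex H ≤ 2) (hx : x ∈ H) (hy : y ∈ H) (x1 : x ∉ T) (y1 : y ∉ T) : x * y ∈ T := by
  have h0 := relIndex_ne_zero' T H
  have h1 : T.relIndex H ≠ 1 := fun e => x1 (relIndex_eq_one.1 e hx)
  have h2 : (T.subgroupOf H).index = 2 := by change T.relIndex H = 2; omega
  exact (mul_mem_iff_of_index_two h2 (a := ⟨x, hx⟩) (b := ⟨y, hy⟩)).2 ⟨fun k => absurd k x1, fun k => absurd k y1⟩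

theorem twoc (h1 : T ≤ H) (h : ♯H ≤ 2 * ♯T) : T.relIndex H ≤ 2 := by
  have := card_mul_relIndex h1
  have := Nat.card_pos (α := T)
  nlinarith

theorem two' (h : ∀ x ∈ H, ∀ y ∈ H, x ∉ T → y ∉ T → x * y ∈ T) : T.relIndex H ≤ 2 := by
  by_cases k : H ≤ T
  · rw [relIndex_eq_one.2 k]; omega
  obtain ⟨s, s1, s2⟩ := SetLike.not_le_iff_exists.1 k
  refine le_of_eq (index_eq_two_iff.2 ⟨⟨s, s1⟩, fun b => ?_⟩)
  by_cases hb : (b : G) ∈ T
  · exact .inr ⟨hb, fun k => s2 ((mul_mem_cancel_left hb).1 k)⟩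
  · exact .inl ⟨h _ b.2 _ s1 hb s2, hb⟩

theorem mem4 (hX : ♯X ≤ 4) (ha : a ∈ X) (hb : b ∈ X) (a1 : a ≠ 1) (b1 : b ≠ 1) (ab : a ≠ b) (ab1 : a * b ≠ 1)
    (hx : x ∈ X) : x = 1 ∨ x = a ∨ x = b ∨ x = a * b := by
  classical
  by_contra k
  push Not at k
  obtain ⟨k1, k2, k3, k4⟩ := k
  have e : ({x, 1, a, b, a * b} : Finset G).card = 5 := by
    rw [Finset.card_insert_of_notMem (by simp [k1, k2, k3, k4]),
      Finset.card_insert_of_notMem (by simp [a1.symm, b1.symm, ab1.symm]),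
      Finset.card_insert_of_notMem (by simp [ab, b1]), Finset.card_pair (by simpa using a1)]
  have := Set.ncard_le_ncard (s := (({x, 1, a, b, a * b} : Finset G) : Set G)) (t := X) (by
    intro y hy
    simp only [Finset.coe_insert, Finset.coe_singleton, Set.mem_insert_iff, Set.mem_singleton_iff] at hy
    rcases hy with rfl | rfl | rfl | rfl | rfl
    exacts [hx, one_mem _, ha, hb, mul_mem ha hb])
  rw [Set.ncard_coe_finset, e, ← Nat.card_coe_set_eq] at this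
  exact absurd (this.trans hX) (by omega)

theorem mem2 (hX : ♯X ≤ 2) (ha : a ∈ X) (a1 : a ≠ 1) (hx : x ∈ X) : x = 1 ∨ x = a := by
  by_cases x1 : x = 1
  · exact .inl x1
  have := two (T := ⊥) (H := X) (by rwa [relIndex_bot_left]) (inv_mem ha) hx (by simpa) (by simpa)
  exact .inr (inv_mul_eq_one.1 this).symm

theorem card_le4 {u : G} (h : ∀ x ∈ X, x = 1 ∨ x = u ∨ x = v ∨ x = w) : ♯X ≤ 4 := by
  classical
  have := Set.ncard_le_ncard (s := X) (t := (({1, u, v, w} : Finset G) : Set G)) (fun y hy => by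
    simpa using h y hy)
  rw [Set.ncard_coe_finset, ← Nat.card_coe_set_eq] at this
  exact this.trans Finset.card_le_four

theorem card_le2 (h : ∀ x ∈ X, x = 1 ∨ x = v) : ♯X ≤ 2 := by
  rw [← relIndex_bot_left]
  refine two' fun x a y b x1 y1 => ?_
  have hv : v⁻¹ = 1 ∨ v⁻¹ = v := h _ (inv_mem ((h x a).resolve_left x1 ▸ a))
  rw [(h x a).resolve_left x1, (h y b).resolve_left y1]
  rcases hv with e | e
  · rw [inv_eq_one.1 e, mul_one]; exact one_mem _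
  · exact mem_bot.2 (by nth_rw 1 [← e]; exact inv_mul_cancel v)

theorem mc (hG : IsPGroup 2 G) (ha : a ∈ K) (hc : ♯(𝓒₁(a) ⊓ K) ≤ 4) :
    ∃ r ∈ K, ∀ x ∈ K, ∀ y ∈ K, x ∉ zpowers r → y ∉ zpowers r → x * y ∈ zpowers r := by
  obtain ⟨k, hk⟩ := (pT hG K).exists_card Nat.prime_two
  suffices h : ∃ r ∈ K, (zpowers r).relIndex K ≤ 2 by
    obtain ⟨r, r1, r2⟩ := h
    exact ⟨r, r1, fun x a y b => two r2 a b⟩
  rcases le_or_gt k 2 with h | h
  · by_cases e : K = ⊥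
    · exact ⟨1, one_mem _, by rw [e, relIndex_bot_right]; omega⟩
    obtain ⟨⟨r, r1⟩, r2⟩ := ne_bot_iff_exists_ne_one.1 e
    have : 2 ^ k ≤ 2 ^ 2 := Nat.pow_le_pow_right two_pos h
    have : 1 < ♯(zpowers r) := (one_lt_card_iff_ne_bot _).2 (by simpa using r2)
    exact ⟨r, r1, twoc (zpowers_le.2 r1) (by omega)⟩
  obtain ⟨n, rfl⟩ : ∃ n, k = n + 3 := ⟨k - 3, by omega⟩
  have h1 := CA.H7Max.lcs_ne_bot_of_cent (G := K) (H := ⊤) Nat.prime_two (by rw [card_top, hk])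
    (a := ⟨a, ha⟩) trivial (by
      rw [inf_top_eq, ← card_map_of_injective K.subtype_injective]
      refine le_trans (card_le_of_le' fun _ ⟨x, hx, e⟩ => e ▸ ⟨?_, x.2⟩) hc
      exact mem_cent1.2 (congrArg Subtype.val (mem_cent1.1 hx)))
  obtain ⟨r, hr⟩ := CA.H7Max.taussky_aux _ K rfl (hG.to_subgroup K)
    (CA.H7Max.index_der_of_class Nat.prime_two hk h1).1
  refine ⟨r, r.2, le_of_eq ?_⟩
  rw [← hr, relIndex]
  congr 1
  ext x
  simp only [mem_subgroupOf, mem_zpowers_iff, Subtype.ext_iff, SubgroupClass.coe_zpow]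

theorem zp_inv (hx : x ∈ zpowers r) (hy : y ∈ zpowers r) (x1 : x ≠ 1) (y1 : y ≠ 1) (x2 : x ^ 2 = 1) (y2 : y ^ 2 = 1) :
    x = y := by
  classical
  haveI := Fintype.ofFinite (zpowers r)
  by_contra k
  have h1 := IsCyclic.card_pow_eq_one_le (α := zpowers r) (n := 2) two_pos
  have h2 : ({1, ⟨x, hx⟩, ⟨y, hy⟩} : Finset (zpowers r)) ⊆ Finset.univ.filter fun a => a ^ 2 = 1 := by
    intro z hz
    simp only [Finset.mem_insert, Finset.mem_singleton] at hz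
    rcases hz with rfl | rfl | rfl <;> simp [Subtype.ext_iff, x2, y2]
  have h3 := Finset.card_le_card h2
  rw [Finset.card_insert_of_notMem (by simp [Subtype.ext_iff, x1.symm, y1.symm]),
    Finset.card_pair (by simpa using k)] at h3
  omega

theorem zp_gen (h : H ≤ zpowers r) : ∃ g ∈ H, H ≤ zpowers g := by
  haveI : IsCyclic H := isCyclic_of_le h
  obtain ⟨g, hg⟩ := IsCyclic.exists_generator (α := H)
  exact ⟨g, g.2, fun x hx => by obtain ⟨k, e⟩ := hg ⟨x, hx⟩; exact ⟨k, congrArg Subtype.val e⟩⟩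

theorem zp_par (hx : x ∈ zpowers r) : x ∈ zpowers (r ^ 2) ∨ x * r⁻¹ ∈ zpowers (r ^ 2) := by
  obtain ⟨k, rfl⟩ := hx
  rcases Int.even_or_odd' k with ⟨m, rfl | rfl⟩
  · exact .inl ⟨m, by simp only [zpow_mul, zpow_ofNat]⟩
  · exact .inr ⟨m, by simp only [zpow_add, zpow_mul, zpow_ofNat, pow_one, mul_inv_cancel_right]⟩

theorem zp_odd (hG : IsPGroup 2 G) (hx : x ∈ zpowers r) (h : x ∉ zpowers (r ^ 2)) : r ∈ zpowers x := by
  haveI := Fact.mk Nat.prime_two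
  obtain ⟨k, rfl⟩ := hx
  rcases Int.even_or_odd' k with ⟨m, rfl | rfl⟩
  · exact absurd ⟨m, by simp only [zpow_mul, zpow_ofNat]⟩ h
  · obtain ⟨n, hn⟩ := IsPGroup.iff_orderOf.1 hG r
    rw [mem_zpowers_zpow_iff, hn, ← Int.isCoprime_iff_gcd_eq_one]
    push_cast
    exact IsCoprime.pow_right ⟨1, -m, by ring⟩

theorem exists_pow (hG : IsPGroup 2 G) (hh : h ∉ B) : ∃ t ∈ zpowers h, t ∉ B ∧ t ^ 2 ∈ B := by
  classical
  obtain ⟨k, hk⟩ := hG h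
  have ex : ∃ k, h ^ 2 ^ k ∈ B := ⟨k, hk ▸ one_mem _⟩
  obtain ⟨m, hm⟩ := Nat.exists_eq_succ_of_ne_zero (n := Nat.find ex) fun e => hh (by simpa [e] using Nat.find_spec ex)
  exact ⟨h ^ 2 ^ m, npow_mem_zpowers _ _, Nat.find_min ex (by omega), by
    rw [← pow_mul, ← pow_succ, ← Nat.succ_eq_add_one, ← hm]; exact Nat.find_spec ex⟩

theorem nF (h1 : F ≤ H) (h2 : ∀ x ∈ H, x ^ 2 ∈ F) : H ≤ 𝓝(F) :=
  norm_of_comm_le_right ((commutator_mono le_rfl h1).trans (cm' h2))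

theorem split (h1 : F ≤ H) (h2 : ∀ x ∈ H, x ^ 2 ∈ F) (T : Subgroup G) :
    F.relIndex H = F.relIndex (H ⊓ T) * (F ⊔ H ⊓ T).relIndex H := by
  have k3 := relIndex_mul_relIndex F (F ⊔ H ⊓ T) H le_sup_left (sup_le h1 inf_le_left)
  rw [sup_comm, relIndex_sup_norm (inf_le_left.trans (nF h1 h2)), sup_comm] at k3
  exact k3.symm

theorem rel_le (N T H : Subgroup G) : N.relIndex H ≤ N.relIndex (H ⊓ T) * T.relIndex H := by
  have := relIndex_mul_relIndex (N ⊓ (H ⊓ T)) (H ⊓ T) H inf_le_right inf_le_left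
  rw [inf_relIndex_right, inf_relIndex_left] at this
  rw [this]
  exact relIndex_le_of_le_left inf_le_left (relIndex_ne_zero' _ _)

theorem rel_card (F H : Subgroup G) : F.relIndex H ≤ ♯H :=
  Nat.le_of_dvd Nat.card_pos (Dvd.intro_left _ (card_inf_mul_relIndex F H))

theorem big [B.Normal] (h2 : ∀ x ∈ H, x ^ 2 ∈ F) (h : ♯B < 2 * F.relIndex (H ⊓ B)) :
    B ≤ H ∧ F ⊓ B = ⊥ ∧ H ≤ 𝓒(B) := by
  have k1 := card_inf_mul_relIndex F (H ⊓ B)
  have k2 := card_inf_mul_relIndex H B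
  have p1 := Nat.card_pos (α := ↥(F ⊓ (H ⊓ B)))
  have p2 := Nat.pos_of_ne_zero (relIndex_ne_zero' H B)
  have e1 : H.relIndex B = 1 := by nlinarith
  have l := relIndex_eq_one.1 e1
  rw [inf_of_le_right l] at k1 p1 h
  have e2 : F ⊓ B = ⊥ := card_eq_one.1 (by nlinarith)
  refine ⟨l, e2, fun x hx => mem_cent.2 fun b hb => ?_⟩
  have : x * b * x⁻¹ * b⁻¹ ∈ F ⊓ B :=
    mem_inf.2 ⟨cm h2 hx (l hb), B.mul_mem (Normal.conj_mem inferInstance _ hb x) (B.inv_mem hb)⟩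
  rw [e2, mem_bot, mul_inv_eq_one, mul_inv_eq_iff_eq_mul] at this
  exact this.symm

theorem ea_comm (hB : ∀ x ∈ B, x ^ 2 = 1) (hx : x ∈ B) (hy : y ∈ B) : x * y = y * x := by
  have := cm (N := ⊥) (fun x hx => mem_bot.2 (hB x hx)) hx hy
  rwa [mem_bot, mul_inv_eq_one, mul_inv_eq_iff_eq_mul] at this

theorem ea_mc (hB : ∀ x ∈ B, x ^ 2 = 1) : IsMulCommutative B := ⟨⟨fun a b => Subtype.ext (ea_comm hB a.2 b.2)⟩⟩

theorem lin8 (hG : IsPGroup 2 G) [B.Normal] (hB : ∀ x ∈ B, x ^ 2 = 1) (h8 : ♯B = 8) (h1 : F ≤ H)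
    (h2 : ∀ x ∈ H, x ^ 2 ∈ F) : (F ⊔ H ⊓ 𝓒(B)).relIndex H ≤ 4 :=
  linear (a := 3) Nat.prime_two (pT hG H) (ea_mc hB) le_normalizer_of_normal (cm' h2) h1 h8

theorem sc (hG : IsPGroup 2 G) [B.Normal] (hB : ∀ x ∈ B, x ^ 2 = 1) (h8 : ♯B = 8) (hc : 𝓒(B) ≤ B) :
    H7SR.SR 4 G := fun H F h1 h2 => by
  by_contra hlt
  have k1 := lin8 hG hB h8 h1 h2
  have k2 := split h1 h2 𝓒(B)
  haveI := ea_mc hB
  rw [le_antisymm hc (le_centralizer B)] at k1 k2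
  have k3 := (big (B := B) h2 (by nlinarith)).2.2.trans hc
  have := (rel_card F H).trans (card_le_of_le' k3)
  omega

section quo
variable [B.Normal]

/-- the preimage of a cyclic subgroup of the quotient -/
def R (B : Subgroup G) [B.Normal] (r : G) : Subgroup G := (zpowers (r : G ⧸ B)).comap (QuotientGroup.mk' B)

theorem mem_R : x ∈ R B r ↔ (x : G ⧸ B) ∈ zpowers (r : G ⧸ B) := Iff.rfl

theorem mem_R' : x ∈ R B r ↔ ∃ k : ℤ, ∃ b ∈ B, x = r ^ k * b := by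
  refine ⟨fun ⟨k, e⟩ => ⟨k, (r ^ k)⁻¹ * x, QuotientGroup.eq.1 e, by group⟩, ?_⟩
  rintro ⟨k, b, hb, rfl⟩
  exact ⟨k, QuotientGroup.eq.2 (by simpa using hb)⟩

theorem B_le_R : B ≤ R B r := fun b hb => mem_R'.2 ⟨0, b, hb, by simp⟩

theorem self_R : r ∈ R B r := mem_zpowers _

theorem R_le (h1 : B ≤ C) (h2 : r ∈ C) : R B r ≤ C := fun x hx => by
  obtain ⟨k, b, hb, rfl⟩ := mem_R'.1 hx
  exact mul_mem (zpow_mem h2 k) (h1 hb)

theorem R_par (hx : x ∈ R B r) : x ∈ R B (r ^ 2) ∨ x * r⁻¹ ∈ R B (r ^ 2) := zp_par hx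

theorem R_odd (hG : IsPGroup 2 G) (hx : x ∈ R B r) (h : x ∉ R B (r ^ 2)) : r ∈ R B x :=
  zp_odd (hG.to_quotient B) hx h

theorem R_inv (hx : x ∈ R B r) (hy : y ∈ R B r) (x1 : x ∉ B) (y1 : y ∉ B) (x2 : x ^ 2 ∈ B) (y2 : y ^ 2 ∈ B) :
    x⁻¹ * y ∈ B :=
  QuotientGroup.eq.1 (zp_inv hx hy (mt (QuotientGroup.eq_one_iff _).1 x1) (mt (QuotientGroup.eq_one_iff _).1 y1)
    ((QuotientGroup.eq_one_iff (x ^ 2)).2 x2) ((QuotientGroup.eq_one_iff (y ^ 2)).2 y2))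

theorem R_gen (h : H ≤ R B r) : ∃ g ∈ H, H ≤ R B g := by
  obtain ⟨_, ⟨g, hg, rfl⟩, e⟩ := zp_gen (H := H.map (QuotientGroup.mk' B)) (r := r) (map_le_iff_le_comap.2 h)
  exact ⟨g, hg, map_le_iff_le_comap.1 e⟩

theorem R_two (y2 : y ^ 2 ∈ B) (hx : x ∈ R B y) : x ∈ B ∨ x * y⁻¹ ∈ B :=
  (R_par hx).imp (fun k => R_le le_rfl y2 k) fun k => R_le le_rfl y2 k

theorem R_comm (hx : x ∈ R B r) (hy : y ∈ R B r) : x * y * x⁻¹ * y⁻¹ ∈ B := by
  obtain ⟨k, e⟩ := hx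
  obtain ⟨l, f⟩ := hy
  refine (QuotientGroup.eq_one_iff _).1 ?_
  change (x : G ⧸ B) * y * (x : G ⧸ B)⁻¹ * (y : G ⧸ B)⁻¹ = 1
  rw [← show _ = (x : G ⧸ B) from e, ← show _ = (y : G ⧸ B) from f]
  group

theorem gen_odd (hG : IsPGroup 2 G) (h1 : B ≤ C) (h2 : C ≤ R B r) (r2 : r ^ 2 ∈ C) (ht : t ∈ R B r) (tc : t ∉ C)
    (t2 : t ^ 2 ∈ C) : C ≤ R B (t ^ 2) := fun x hx => by
  have k := R_le B_le_R (R_odd hG ht fun k => tc (R_le h1 r2 k)) (h2 hx)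
  exact (R_par k).resolve_right fun k => tc (inv_mem_iff.1 ((mul_mem_cancel_left hx).1 (R_le h1 t2 k)))

theorem cyc2 (h : H ≤ R B r) (h1 : H ⊓ B ≤ N) (h2 : ∀ x ∈ H, x ^ 2 ∈ N) : N.relIndex H ≤ 2 := by
  obtain ⟨g, hg, e⟩ := R_gen h
  have k : ∀ x ∈ H, x ∈ R B (g ^ 2) → x ∈ N := fun x hx j => by
    obtain ⟨k, b, hb, rfl⟩ := mem_R'.1 j
    exact mul_mem (zpow_mem (h2 g hg) k) (h1 ⟨(mul_mem_cancel_left (zpow_mem (pow_mem hg 2) k)).1 hx, hb⟩)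
  refine two' fun x a y b x1 y1 => ?_
  have x2 := k _ (mul_mem a (inv_mem hg)) ((R_par (e a)).resolve_left fun j => x1 (k x a j))
  have y2 := k _ (mul_mem (inv_mem b) (inv_mem hg))
    ((R_par (e (inv_mem b))).resolve_left fun j => y1 (inv_mem_iff.1 (k _ (inv_mem b) j)))
  have := mul_mem x2 (inv_mem y2)
  rwa [show x * g⁻¹ * (y⁻¹ * g⁻¹)⁻¹ = x * y by group] at this

/-- `K / B` has a cyclic subgroup of index at most two -/
def MCB (B K : Subgroup G) [B.Normal] (r : G) : Prop :=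
  ∀ x ∈ K, ∀ y ∈ K, x ∉ R B r → y ∉ R B r → x * y ∈ R B r

theorem mcb (hG : IsPGroup 2 G) (ha : a ∈ K) {u : G} (h : ∀ k ∈ K, k * a * k⁻¹ * a⁻¹ ∈ B →
    k ∈ B ∨ u⁻¹ * k ∈ B ∨ v⁻¹ * k ∈ B ∨ w⁻¹ * k ∈ B) : ∃ r ∈ K, MCB B K r := by
  obtain ⟨_, ⟨r, hr, rfl⟩, e⟩ := mc (hG.to_quotient B) (K := K.map (QuotientGroup.mk' B)) (a := a)
    (mem_map_of_mem _ ha) (card_le4 (u := u) (v := v) (w := w) (by
      rintro _ ⟨j, k, hk, rfl⟩
      have j' : ((k * a * k⁻¹ * a⁻¹ : G) : G ⧸ B) = 1 := by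
        change (k : G ⧸ B) * a * (k : G ⧸ B)⁻¹ * (a : G ⧸ B)⁻¹ = 1
        rw [show (k : G ⧸ B) * a = a * k from mem_cent1.1 j]; group
      exact (h k hk ((QuotientGroup.eq_one_iff _).1 j')).imp (QuotientGroup.eq_one_iff _).2
        (Or.imp (fun e => (QuotientGroup.eq.2 e).symm)
          (Or.imp (fun e => (QuotientGroup.eq.2 e).symm) fun e => (QuotientGroup.eq.2 e).symm))))
  exact ⟨r, hr, fun x a y b => e _ (mem_map_of_mem _ a) _ (mem_map_of_mem _ b)⟩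

theorem MCB.conj (m : MCB B K r) (hr : r ∈ K) (hB : B ≤ K) (hg : g ∈ K) (hx : x ∈ R B r) : g * x * g⁻¹ ∈ R B r := by
  by_cases k : g ∈ R B r
  · exact mul_mem (mul_mem k hx) (inv_mem k)
  · exact m _ (mul_mem hg (R_le hB hr hx)) _ (inv_mem hg) (fun j => k ((mul_mem_cancel_right hx).1 j))
      fun j => k (inv_mem_iff.1 j)

theorem MCB.four (m : MCB B K r) (hH : H ≤ K) (h1 : H ⊓ B ≤ N) (h2 : ∀ x ∈ H, x ^ 2 ∈ N) : N.relIndex H ≤ 4 :=
  (rel_le N (R B r) H).trans (Nat.mul_le_mul (cyc2 inf_le_right ((inf_le_inf_right _ inf_le_left).trans h1)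
    fun x hx => h2 x hx.1) (two' fun x a y b => m x (hH a) y (hH b)))

theorem MCB.inv (hG : IsPGroup 2 G) (m : MCB B K r) (hH : H ≤ K) (h1 : H ⊓ B ≤ N) (h3 : 2 < N.relIndex H) :
    ∃ t ∈ H, t ∈ R B r ∧ t ∉ B ∧ t ^ 2 ∈ B := by
  have k : ¬ H ⊓ R B r ≤ B := fun k => by
    have := rel_le N (R B r) H
    rw [relIndex_eq_one.2 ((le_inf inf_le_left k).trans h1), one_mul] at this
    exact absurd (this.trans (two' fun x a y b => m x (hH a) y (hH b))) (by omega)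
  obtain ⟨h, h1, h2⟩ := SetLike.not_le_iff_exists.1 k
  obtain ⟨t, t1, t2, t3⟩ := exists_pow hG h2
  have := zpowers_le.2 h1 t1
  exact ⟨t, this.1, this.2, t2, t3⟩

end quo

end CA.FusHar
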