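import Cfsg.Agent.Lib.Fus.FusHar

/-!
`2`-groups with a self-centralizing elementary abelian subgroup of order eight, part 2: a normal subgroup of
order sixteen.
-/

set_option autoImplicit false
set_option linter.unusedSectionVars false
set_option linter.style.haveILetI false

namespace CA.FusHar

open Subgroup Cfsg CA.OQuo CA.BG CA.BG4 CA.FusPat CA.FusMw
open scoped commutatorElement

variable {G : Type*} [Group G] [Finite G] {A B C D F H K N T X : Subgroup G} {a b c g k k' r s t v w x y : G}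

theorem inv_of_sq (h : x ^ 2 = 1) : x⁻¹ = x := inv_eq_of_mul_eq_one_left (by rw [← sq, h])

theorem cm1 : ⁅x, y⁆ = 1 ↔ x * y = y * x := commutatorElement_eq_one_iff_mul_comm

theorem cmB [B.Normal] (hb : b ∈ B) (g : G) : ⁅g, b⁆ ∈ B :=
  B.mul_mem (Normal.conj_mem inferInstance _ hb g) (B.inv_mem hb)

theorem cmB' [B.Normal] (hb : b ∈ B) (g : G) : ⁅b, g⁆ ∈ B := by
  rw [← commutatorElement_inv]; exact inv_mem (cmB hb g)

theorem of_conj [B.Normal] (h : g * x * g⁻¹ ∈ B) : x ∈ B := by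
  have := Normal.conj_mem inferInstance _ h g⁻¹
  rwa [show g⁻¹ * (g * x * g⁻¹) * g⁻¹⁻¹ = x by group] at this

/-- the commutator with an involution is inverted by it -/
theorem cm_inv (a2 : a ^ 2 = 1) (k : G) : a * ⁅k, a⁆ = ⁅k, a⁆⁻¹ * a := by
  have e := inv_of_sq a2
  calc a * ⁅k, a⁆ = a * k * a * k⁻¹ * a⁻¹ := by group
    _ = a * k * a⁻¹ * k⁻¹ * a := by rw [e]
    _ = _ := by group

/-- the hypotheses: `⟨a⟩ X` is self-centralizing and meets `B` in `X` -/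
structure Hy (B X : Subgroup G) (a : G) : Prop where
  pG : IsPGroup 2 G
  nB : B.Normal
  eB : ∀ x ∈ B, x ^ 2 = 1
  mx : ∀ Y : Subgroup G, Y.Normal → (∀ x ∈ Y, x ^ 2 = 1) → ♯Y ≤ ♯B
  a2 : a ^ 2 = 1
  mX : ∀ x, x ∈ X ↔ x ∈ B ∧ x * a = a * x
  X4 : ♯X = 4
  b8 : 8 ≤ ♯B
  sc : ∀ t ∈ 𝓒(X), t * a = a * t → t ∈ B ∨ t * a ∈ B

namespace Hy
variable (h : Hy B X a)
include h

theorem co (hx : x ∈ B) (hy : y ∈ B) : x * y = y * x := ea_comm h.eB hx hy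
theorem iv (hx : x ∈ B) : x⁻¹ = x := inv_of_sq (h.eB x hx)
theorem mm (hx : x ∈ B) : x * x = 1 := by rw [← sq, h.eB x hx]
theorem XB : X ≤ B := fun x hx => ((h.mX x).1 hx).1
theorem BC : B ≤ 𝓒(B) := fun _ hx => mem_cent.2 fun _ hy => h.co hy hx
theorem CK : 𝓒(B) ≤ 𝓒(X) := centralizer_le h.XB
theorem BK : B ≤ 𝓒(X) := h.BC.trans h.CK
theorem aK : a ∈ 𝓒(X) := mem_cent.2 fun x hx => ((h.mX x).1 hx).2
theorem aC : a ∉ 𝓒(B) := fun k => by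
  have := card_le_of_le' (show B ≤ X from fun x hx => (h.mX x).2 ⟨hx, mem_cent.1 k x hx⟩)
  have := h.X4
  have := h.b8
  omega

theorem cX (hk : ⁅k, a⁆ ∈ B) : ⁅k, a⁆ ∈ X := (h.mX _).2 ⟨hk, by rw [cm_inv h.a2, h.iv hk]⟩

theorem cb (hb : b ∈ B) : ⁅b, a⁆ ∈ X := haveI := h.nB; h.cX (cmB' hb a)

theorem adj (h1 : k ∈ 𝓒(X)) (h2 : k' ∈ 𝓒(X)) (e : ⁅k, a⁆ = ⁅k', a⁆) : k'⁻¹ * k ∈ B ∨ k'⁻¹ * k * a ∈ B :=
  h.sc _ (mul_mem (inv_mem h2) h1) (by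
    calc k'⁻¹ * k * a = k'⁻¹ * ⁅k, a⁆ * a * k := by group
      _ = _ := by rw [e]; group)

theorem cmul (h1 : k ∈ 𝓒(X)) (h2 : ⁅k', a⁆ ∈ X) : ⁅k * k', a⁆ = ⁅k', a⁆ * ⁅k, a⁆ := by
  calc ⁅k * k', a⁆ = k * ⁅k', a⁆ * k⁻¹ * ⁅k, a⁆ := by group
    _ = _ := by rw [← mem_cent.1 h1 _ h2, mul_inv_cancel_right]

/-- the commutators of `B` with `a` -/
def W : Subgroup G where
  carrier := {x | ∃ b ∈ B, ⁅b, a⁆ = x}
  mul_mem' := by
    rintro _ _ ⟨b, hb, rfl⟩ ⟨c, hc, rfl⟩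
    exact ⟨c * b, mul_mem hc hb, h.cmul (h.BK hc) (h.cb hb)⟩
  one_mem' := ⟨1, one_mem _, by group⟩
  inv_mem' := by
    rintro _ ⟨b, hb, rfl⟩
    exact ⟨b, hb, (h.iv (h.XB (h.cb hb))).symm⟩

theorem WX : h.W ≤ X := by rintro _ ⟨b, hb, rfl⟩; exact h.cb hb

theorem cardW : ♯B ≤ 4 * ♯h.W := by
  have k := relIndex_le_of_fun (S := B) (K := X) (W0 := ⊥) (W1 := h.W) (fun b => ⁅b, a⁆) (fun b hb => ⟨b, hb, rfl⟩)
    fun b hb c hc e => (h.mX _).2 ⟨mul_mem (inv_mem hb) hc, by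
      have e' : ⁅b, a⁆ = ⁅c, a⁆ := inv_mul_eq_one.1 e
      calc b⁻¹ * c * a = b⁻¹ * ⁅c, a⁆ * a * c := by group
        _ = _ := by rw [← e']; group⟩
  rw [relIndex_bot_left] at k
  rw [← card_mul_relIndex h.XB, h.X4]
  omega

theorem exz : ∃ z ∈ X, z ≠ 1 ∧ z ∈ center G := by
  haveI := h.nB
  haveI := Fact.mk Nat.prime_two
  obtain ⟨z, z1, z2, z3⟩ := PGBasic.exists_mem_center_orderOf h.pG (M := B) (by
    rintro rfl; have := h.b8; rw [card_bot] at this; omega)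
  exact ⟨z, (h.mX z).2 ⟨z1, (mem_center_iff.1 z2 a).symm⟩, by rintro rfl; simp at z3, z2⟩

theorem X4' (hx : x ∈ X) (hy : y ∈ X) (x1 : x ≠ 1) (y1 : y ≠ 1) (e : x ≠ y) (hv : v ∈ X) :
    v = 1 ∨ v = x ∨ v = y ∨ v = x * y :=
  mem4 h.X4.le hx hy x1 y1 e (fun k => e (by rw [← h.iv (h.XB hx)]; exact (eq_inv_of_mul_eq_one_right k).symm)) hv

theorem memK (hx : x ∈ X) (hy : y ∈ X) (x1 : x ≠ 1) (y1 : y ≠ 1) (e : x ≠ y) (g1 : g * x * g⁻¹ = x)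
    (g2 : g * y * g⁻¹ = y) : g ∈ 𝓒(X) := mem_cent.2 fun v hv => by
  rw [mul_inv_eq_iff_eq_mul] at g1 g2
  rcases h.X4' hx hy x1 y1 e hv with rfl | rfl | rfl | rfl
  · simp
  · exact g1.symm
  · exact g2.symm
  · rw [mul_assoc, ← g2, ← mul_assoc, ← g1, mul_assoc]

theorem exx (hz : w ∈ X) : ∃ x ∈ X, x ≠ 1 ∧ x ≠ w := by
  by_contra k
  push Not at k
  have := card_le2 (X := X) (v := w) fun x hx => or_iff_not_imp_left.2 (k x hx)
  have := h.X4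
  omega

/-- elements acting on `X` modulo a central element -/
theorem Kidx (hw : w ∈ X) (w1 : w ≠ 1) (wc : w ∈ center G) (hH : ∀ g ∈ H, ∀ x ∈ X, g * x * g⁻¹ ∈ X) :
    𝓒(X).relIndex H ≤ 2 := by
  obtain ⟨x, hx, x1, xw⟩ := h.exx hw
  have cw : ∀ g, g * w * g⁻¹ = w := fun g => by rw [mem_center_iff.1 wc g, mul_inv_cancel_right]
  have k : ∀ g ∈ H, g ∉ 𝓒(X) → g * x * g⁻¹ = x * w := fun g hg j => by
    rcases h.X4' hx hw x1 w1 xw (hH g hg x hx) with e | e | e | e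
    · exact absurd (conj_eq_one_iff.1 e) x1
    · exact absurd (h.memK hx hw x1 w1 xw e (cw g)) j
    · rw [← cw g] at e; exact absurd (by simpa using e) xw
    · exact e
  refine two' fun g g1 s s1 g2 s2 => h.memK hx hw x1 w1 xw ?_ (cw _)
  calc g * s * x * (g * s)⁻¹ = g * (s * x * s⁻¹) * g⁻¹ := by group
    _ = (g * x * g⁻¹) * (g * w * g⁻¹) := by rw [k s s1 s2]; group
    _ = x := by rw [k g g1 g2, cw, mul_assoc, h.mm (h.XB hw), mul_one]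

theorem nX (hg : ⁅g, a⁆ ∈ B) (hx : x ∈ X) : g * x * g⁻¹ ∈ X := by
  have b1 := h.nB.conj_mem _ (h.XB hx) g
  refine (h.mX _).2 ⟨b1, ?_⟩
  have e := ((h.mX x).1 hx).2
  have e2 := h.co b1 (inv_mem hg)
  calc g * x * g⁻¹ * a = (g * x * g⁻¹ * ⁅g, a⁆⁻¹) * (g * a * g⁻¹) := by group
    _ = ⁅g, a⁆⁻¹ * g * (x * a) * g⁻¹ := by rw [e2]; group
    _ = _ := by rw [e]; group

/-- the preimage of the centralizer of `a` modulo `B` -/
def Y : Subgroup G where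
  carrier := {g | ⁅g, a⁆ ∈ B}
  mul_mem' := fun {x y} hx hy => by
    change ⁅x * y, a⁆ ∈ B
    rw [show ⁅x * y, a⁆ = x * ⁅y, a⁆ * x⁻¹ * ⁅x, a⁆ by group]
    exact mul_mem (h.nB.conj_mem _ hy x) hx
  one_mem' := by change ⁅1, a⁆ ∈ B; rw [commutatorElement_one_left]; exact one_mem _
  inv_mem' := fun {x} hx => by
    change ⁅x⁻¹, a⁆ ∈ B
    rw [show ⁅x⁻¹, a⁆ = x⁻¹ * ⁅x, a⁆⁻¹ * x⁻¹⁻¹ by group]
    exact h.nB.conj_mem _ (inv_mem hx) _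

theorem swap (hk : k * a ∈ B) : a⁻¹ * k ∈ B := by
  have := h.nB.conj_mem _ hk a
  rwa [show a * (k * a) * a⁻¹ = a * k by group, ← inv_of_sq h.a2] at this

theorem s16 (h16 : ♯B = 16) : H7SR.SR 4 G := fun H F h1 h2 => by
  by_contra hlt
  haveI := h.nB
  haveI := Fact.mk Nat.prime_two
  have eW : h.W = X := eq_of_le_of_card_ge h.WX (by have := h.cardW; have := h.X4; omega)
  have yk : ∀ k ∈ 𝓒(X), ⁅k, a⁆ ∈ B → k ∈ B ∨ k * a ∈ B := fun k hk j => by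
    obtain ⟨b, hb, e⟩ : ⁅k, a⁆ ∈ h.W := eW.ge (h.cX j)
    refine (h.adj hk (h.BK hb) e.symm).imp (mul_mem_cancel_left (inv_mem hb)).1 fun j => ?_
    rw [mul_assoc] at j
    exact (mul_mem_cancel_left (inv_mem hb)).1 j
  have cb : 𝓒(B) ≤ B := by
    by_contra k
    obtain ⟨y, y1, y2, -, y4⟩ := PGBasic.exists_layer_pow_top h.pG k
    exact h.aC ((mul_mem_cancel_left y1).1 (h.BC ((yk y (h.CK y1) (y4 a)).resolve_left y2)))
  obtain ⟨z, z1, z2, z3⟩ := h.exz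
  have i2 := h.Kidx (H := h.Y) z1 z2 z3 fun g hg x hx => h.nX hg hx
  obtain ⟨s, s1, s2⟩ : ∃ s ∈ h.Y, ∀ k ∈ h.Y, k ∈ 𝓒(X) ∨ s⁻¹ * k ∈ 𝓒(X) := by
    by_cases k : h.Y ≤ 𝓒(X)
    · exact ⟨1, one_mem _, fun x hx => .inl (k hx)⟩
    obtain ⟨s, s1, s2⟩ := SetLike.not_le_iff_exists.1 k
    exact ⟨s, s1, fun x hx => or_iff_not_imp_left.2 (two i2 (inv_mem s1) hx (by simpa))⟩
  obtain ⟨r, -, m⟩ := mcb (B := B) (K := ⊤) (a := a) (u := a) (v := s) (w := s * a) h.pG trivial fun k _ j => by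
    rcases s2 k j with e | e
    · exact (yk k e j).imp_right fun e => .inl (h.swap e)
    · refine .inr (.inr ((yk _ e (h.Y.mul_mem (h.Y.inv_mem s1) j)).imp_right fun e => ?_))
      rw [mul_inv_rev, mul_assoc]; exact h.swap e
  have k1 := split h1 h2 B
  have k2 := m.four (H := H) (N := F ⊔ H ⊓ B) le_top le_sup_right fun x hx => mem_sup_left (h2 x hx)
  have k3 : F.relIndex (H ⊓ B) ≤ 8 := by
    by_contra k
    have := (rel_card F H).trans (card_le_of_le' ((big (B := B) h2 (by omega)).2.2.trans cb))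
    omega
  obtain ⟨t, t1, t2, t3, t4⟩ := m.inv h.pG (H := H) (N := F ⊔ H ⊓ B) le_top le_sup_right (by nlinarith)
  have k4 := card_inf_mul_relIndex F (H ⊓ B)
  have k5 := card_inf_mul_relIndex H B
  have cF : ∀ b ∈ H ⊓ B, ⁅t, b⁆ ∈ F ⊓ (H ⊓ B) := fun b hb => ⟨cm h2 t1 hb.1, h1 (cm h2 t1 hb.1), cmB hb.2 t⟩
  obtain ⟨w, hw⟩ : ∃ w, ∀ b ∈ B, ⁅t, b⁆ = 1 ∨ ⁅t, b⁆ = w := by
    have p4 : 5 ≤ F.relIndex (H ⊓ B) := by nlinarith
    by_cases k : B ≤ H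
    · rw [inf_of_le_right k] at p4 k4 cF
      have l : ♯(F ⊓ B) ≤ 2 := by
        by_contra l
        have : ♯(F ⊓ B) ≠ 3 := fun e => by rw [e] at k4; omega
        have : 4 ≤ ♯(F ⊓ B) := by omega
        nlinarith
      by_cases j : ∀ b ∈ B, ⁅t, b⁆ = 1
      · exact ⟨1, fun b hb => .inl (j b hb)⟩
      push Not at j
      obtain ⟨b, hb, j⟩ := j
      exact ⟨_, fun c hc => mem2 l (cF b hb) j (cF c hc)⟩
    · have p1 : H.relIndex B ≠ 1 := fun e => k (relIndex_eq_one.1 e)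
      have p2 := relIndex_ne_zero' H B
      have p3 := Nat.card_pos (α := ↥(F ⊓ (H ⊓ B)))
      have p5 : ♯(H ⊓ B) ≤ 8 := by
        have : 2 ≤ H.relIndex B := by omega
        nlinarith
      have p6 : F ⊓ (H ⊓ B) = ⊥ := card_eq_one.1 (by nlinarith)
      have p7 : H.relIndex B ≤ 2 := by
        by_contra j
        have : H.relIndex B ≠ 3 := fun e => by rw [e] at k5; omega
        have : 4 ≤ H.relIndex B := by omega
        nlinarith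
      obtain ⟨b, b1, b2⟩ := SetLike.not_le_iff_exists.1 k
      refine ⟨⁅t, b⁆, fun c hc => ?_⟩
      by_cases j : c ∈ H
      · exact .inl (mem_bot.1 (p6 ▸ cF c ⟨j, hc⟩))
      have := cm1.1 (mem_bot.1 (p6 ▸ cF _ ⟨two p7 (inv_mem b1) hc (by simpa) j, B.mul_mem (B.inv_mem b1) hc⟩))
      right
      calc ⁅t, c⁆ = t * b * t⁻¹ * (t * (b⁻¹ * c)) * t⁻¹ * c⁻¹ := by group
        _ = t * b * t⁻¹ * (b⁻¹ * c * c⁻¹) := by rw [this]; group
        _ = _ := by group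
  have ta : ⁅t, a⁆ ∈ B := by
    have := R_inv (m.conj trivial le_top (mem_top a) t2) t2 (fun j => t3 (of_conj j)) t3
      (by rw [conj_pow]; exact h.nB.conj_mem _ t4 a) t4
    have := h.nB.conj_mem _ (inv_mem this) t
    rwa [show t * ((a * t * a⁻¹)⁻¹ * t)⁻¹ * t⁻¹ = a * t * a⁻¹ * t⁻¹ by group, ← commutatorElement_def,
      ← commutatorElement_inv, inv_mem_iff] at this
  have cj : ∀ b ∈ B, ⁅t, a * b * a⁻¹⁆ = a * ⁅t, b⁆ * a⁻¹ := fun b hb => by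
    have e := h.co ta (h.nB.conj_mem _ (h.nB.conj_mem _ hb t) a)
    calc ⁅t, a * b * a⁻¹⁆ = (⁅t, a⁆ * (a * (t * b * t⁻¹) * a⁻¹)) * ⁅t, a⁆⁻¹ * (a * b⁻¹ * a⁻¹) := by group
      _ = _ := by rw [e]; group
  have fx : ∀ b ∈ B, a * ⁅t, b⁆ * a⁻¹ = ⁅t, b⁆ := fun b hb => by
    rcases hw b hb with e | e
    · rw [e]; group
    rcases hw _ (h.nB.conj_mem _ hb a) with f | f
    · rw [cj b hb] at f; rw [conj_eq_one_iff.1 f]; group
    · rw [← cj b hb, f, e]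
  have tK : t ∈ 𝓒(X) := mem_cent.2 fun x hx => by
    obtain ⟨b, hb, rfl⟩ : x ∈ h.W := eW.ge hx
    have e1 := (cj _ hb).trans (fx b hb)
    have e2 := h.co (cmB hb t) (h.XB (h.cb hb))
    refine (cm1.1 ?_).symm
    calc ⁅t, ⁅b, a⁆⁆ = ⁅t, b⁆ * ⁅b, a⁆ * ⁅t, a * b * a⁻¹⁆⁻¹ * ⁅b, a⁆⁻¹ := by group
      _ = 1 := by rw [e1, e2]; group
  have ta' := h.swap ((yk t tK ta).resolve_left t3)
  have := card_le2 (X := X) (v := w⁻¹) fun x hx => by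
    obtain ⟨b, hb, rfl⟩ : x ∈ h.W := eW.ge hx
    have e : ⁅b, a⁆ = ⁅t, b⁆⁻¹ := by
      have e := h.co ta' (inv_mem hb)
      calc ⁅b, a⁆ = b * a * (b⁻¹ * (a⁻¹ * t)) * t⁻¹ := by group
        _ = _ := by rw [← e]; group
    rw [e]
    exact (hw b hb).imp (fun j => by rw [j, inv_one]) fun j => by rw [j]
  have := h.X4
  omega

end Hy

end CA.FusHar
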