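import Cfsg.Agent.Lib.Fus.FusHar2

/-!
`2`-groups with a self-centralizing elementary abelian subgroup of order eight, part 3: a normal subgroup of
order eight.
-/

set_option autoImplicit false
set_option linter.unusedSectionVars false
set_option linter.style.haveILetI false

namespace CA.FusHar

open Subgroup Cfsg CA.OQuo CA.BG CA.BG4 CA.FusPat CA.FusMw
open scoped commutatorElement

variable {G : Type*} [Group G] [Finite G] {A B C D F H K N T X : Subgroup G} {a b c g k k' r s t v w x y : G}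

/-- the case of a normal subgroup of order eight that is not self-centralizing -/
structure H8 (B X : Subgroup G) (a y b : G) : Prop extends Hy B X a where
  c8 : ♯B = 8
  yC : y ∈ 𝓒(B)
  yB : y ∉ B
  y2 : y ^ 2 ∈ B
  yc : ∀ g, ⁅y, g⁆ ∈ B
  bB : b ∈ B
  bX : b ∉ X

namespace H8
variable (h : H8 B X a y b)
include h

theorem i2 : X.relIndex B ≤ 2 := twoc h.XB (by rw [h.c8, h.X4])

theorem dX (hk : k ∈ 𝓒(X)) : ⁅k, b⁆ ∈ X :=
  two h.i2 (h.nB.conj_mem _ h.bB k) (inv_mem h.bB) (fun j => h.bX (by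
    have e := mem_cent.1 hk _ j
    rwa [show k * b * k⁻¹ = b by
      have : k * b = k * (k * b * k⁻¹) := by rw [← e]; group
      exact (mul_left_cancel this).symm] at j)) (fun j => h.bX (inv_mem_iff.1 j))

theorem dmul (h1 : k ∈ 𝓒(X)) (h2 : k' ∈ 𝓒(X)) : ⁅k * k', b⁆ = ⁅k', b⁆ * ⁅k, b⁆ := by
  calc ⁅k * k', b⁆ = k * ⁅k', b⁆ * k⁻¹ * ⁅k, b⁆ := by group
    _ = _ := by rw [← mem_cent.1 h1 _ (h.dX h2), mul_inv_cancel_right]

theorem dout (hk : k ∈ 𝓒(X)) (hc : c ∈ B) (j : c ∉ X) : ⁅k, c⁆ = ⁅k, b⁆ := by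
  have e := mem_cent.1 hk _ (two h.i2 (inv_mem h.bB) hc (fun j => h.bX (inv_mem_iff.1 j)) j)
  calc ⁅k, c⁆ = k * b * k⁻¹ * (k * (b⁻¹ * c)) * k⁻¹ * c⁻¹ := by group
    _ = _ := by rw [← e]; group

theorem dor (hk : k ∈ 𝓒(X)) (hc : c ∈ B) : ⁅k, c⁆ = 1 ∨ ⁅k, c⁆ = ⁅k, b⁆ := by
  by_cases j : c ∈ X
  · exact .inl (cm1.2 (mem_cent.1 hk _ j).symm)
  · exact .inr (h.dout hk hc j)

theorem dC (hk : k ∈ 𝓒(X)) : ⁅k, b⁆ = 1 ↔ k ∈ 𝓒(B) :=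
  ⟨fun e => mem_cent.2 fun c hc => (cm1.1 ((h.dor hk hc).elim id fun j => j.trans e)).symm,
    fun e => cm1.2 (mem_cent.1 e _ h.bB).symm⟩

theorem x0 : ⁅a, b⁆ ≠ 1 := fun e => h.aC ((h.dC h.aK).1 e)

theorem sqC (hk : k ∈ 𝓒(X)) : k ^ 2 ∈ 𝓒(B) :=
  (h.dC (pow_mem hk 2)).1 (by rw [sq, h.dmul hk hk, h.mm (h.XB (h.dX hk))])

theorem sy (hc : c ∈ B) : (y * c) ^ 2 = y ^ 2 := by
  rw [(show Commute y c from (mem_cent.1 h.yC c hc).symm).mul_pow, h.eB c hc, mul_one]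

theorem sy' (ht : y⁻¹ * t ∈ B) : t ^ 2 = y ^ 2 := by rw [← h.sy ht, mul_inv_cancel_left]

theorem w1 : y ^ 2 ≠ 1 := fun e => by
  haveI := h.nB
  have k := h.mx (R B y) ⟨fun x hx g => by
    obtain ⟨k, c, hc, rfl⟩ := mem_R'.1 hx
    rw [show g * (y ^ k * c) * g⁻¹ = (⁅y, g⁆⁻¹ * y) ^ k * (g * c * g⁻¹) by
      rw [show ⁅y, g⁆⁻¹ * y = g * y * g⁻¹ by group, conj_zpow]; group]
    exact mul_mem (zpow_mem (mul_mem (B_le_R (inv_mem (h.yc g))) self_R) k) (B_le_R (h.nB.conj_mem _ hc g))⟩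
    fun x hx => (R_two h.y2 hx).elim (h.eB x) fun j => (h.sy' (h.nB.mem_comm j)).trans e
  have := card_lt_of_lt (lt_of_le_of_ne (B_le_R (B := B) (r := y)) fun j => h.yB (j ▸ self_R))
  omega

theorem wc : y ^ 2 ∈ center G := mem_center_iff.2 fun g => by
  have := h.sy' (t := g * y * g⁻¹) (h.nB.mem_comm (by
    rw [show g * y * g⁻¹ * y⁻¹ = ⁅y, g⁆⁻¹ by group]; exact inv_mem (h.yc g)))
  rw [conj_pow, mul_inv_eq_iff_eq_mul] at this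
  exact this

theorem wX : y ^ 2 ∈ X := (h.mX _).2 ⟨h.y2, (mem_center_iff.1 h.wc a).symm⟩

theorem ab (hc : c ∈ B) : ⁅c, a⁆ = ⁅a, c⁆ := by rw [← h.iv (h.XB (h.cb hc)), commutatorElement_inv]

theorem Wor (hx : x ∈ h.W) : x = 1 ∨ x = ⁅a, b⁆ := by
  obtain ⟨c, hc, rfl⟩ := hx
  rw [h.ab hc]; exact h.dor h.aK hc

theorem x0W : ⁅a, b⁆ ∈ h.W := ⟨b, h.bB, h.ab h.bB⟩

theorem x1W : ⁅y, a⁆ ∉ h.W := fun ⟨c, hc, e⟩ => by
  rcases h.adj (h.CK h.yC) (h.BK hc) e.symm with j | j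
  · exact h.yB ((mul_mem_cancel_left (inv_mem hc)).1 j)
  · exact h.aC ((mul_mem_cancel_left (mul_mem (inv_mem (h.BC hc)) h.yC)).1 (h.BC j))

theorem yk (hk : k ∈ 𝓒(X)) (j : ⁅k, a⁆ ∈ B) : k ∈ B ∨ a⁻¹ * k ∈ B ∨ y⁻¹ * k ∈ B ∨ (y * a)⁻¹ * k ∈ B := by
  obtain ⟨c, hc, e⟩ : ∃ c ∈ B, ⁅k, a⁆ = ⁅c, a⁆ ∨ ⁅k, a⁆ = ⁅y * c, a⁆ := by
    rcases h.X4' (h.dX h.aK) (h.cX (h.yc a)) h.x0 (fun e => h.x1W (e ▸ one_mem _)) (fun e => h.x1W (e ▸ h.x0W))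
      (h.cX j) with e | e | e | e
    · exact ⟨1, one_mem _, .inl (by rw [e, commutatorElement_one_left])⟩
    · exact ⟨b, h.bB, .inl (by rw [e, h.ab h.bB])⟩
    · exact ⟨1, one_mem _, .inr (by rw [e, mul_one])⟩
    · exact ⟨b, h.bB, .inr (by rw [e, h.cmul (h.CK h.yC) (h.cb h.bB), h.ab h.bB])⟩
  have ca : ∀ x, c⁻¹ * x ∈ B → x ∈ B := fun x => (mul_mem_cancel_left (inv_mem hc)).1
  rcases e with e | e
  · rcases h.adj hk (h.BK hc) e with j | j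
    · exact .inl (ca _ j)
    · exact .inr (.inl (h.swap (ca _ (by rwa [← mul_assoc]))))
  · rcases h.adj hk (mul_mem (h.CK h.yC) (h.BK hc)) e with j | j
    · exact .inr (.inr (.inl (ca _ (by rwa [← mul_assoc, ← mul_inv_rev]))))
    · refine .inr (.inr (.inr ?_))
      rw [mul_inv_rev, mul_assoc]
      exact h.swap (ca _ (by rwa [← mul_assoc, ← mul_assoc, ← mul_inv_rev]))

theorem yk' (hk : k ∈ 𝓒(B)) (j : ⁅k, a⁆ ∈ B) : k ∈ B ∨ y⁻¹ * k ∈ B := by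
  rcases h.yk (h.CK hk) j with e | e | e | e
  · exact .inl e
  · exact absurd (inv_mem_iff.1 ((mul_mem_cancel_right hk).1 (h.BC e))) h.aC
  · exact .inr e
  · exact absurd ((mul_mem_cancel_left h.yC).1 (inv_mem_iff.1 ((mul_mem_cancel_right hk).1 (h.BC e)))) h.aC

variable [B.Normal]

theorem idx (hr : r ∈ 𝓒(X)) (m : MCB B 𝓒(X) r) (nc : ¬ 𝓒(B) ≤ R B r) : 𝓒(B).relIndex 𝓒(X) ≤ 2 := by
  obtain ⟨c, c1, c2⟩ := SetLike.not_le_iff_exists.1 nc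
  have l := R_le h.BC (h.sqC hr)
  have nC : 𝓒(B).Normal := inferInstance
  have k : ∀ k ∈ 𝓒(X), k ∉ 𝓒(B) → k * r⁻¹ ∈ 𝓒(B) := fun k hk j => by
    by_cases e : k ∈ R B r
    · exact l ((R_par e).resolve_left fun e => j (l e))
    have := l ((R_par (m _ hk _ (h.CK c1) e c2)).resolve_left fun e => j ((mul_mem_cancel_right c1).1 (l e)))
    rwa [show k * c * r⁻¹ = k * r⁻¹ * (r * c * r⁻¹) by group, mul_mem_cancel_right (nC.conj_mem _ c1 r)] at this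
  refine two' fun x a y b x1 y1 => ?_
  rw [show x * y = x * r⁻¹ * (r * (y * r⁻¹) * r⁻¹) * r ^ 2 by group]
  exact mul_mem (mul_mem (k x a x1) (nC.conj_mem _ (k y b y1) r)) (h.sqC hr)

theorem dtwo (i : 𝓒(B).relIndex 𝓒(X) ≤ 2) (hk : k ∈ 𝓒(X)) : ⁅k, b⁆ = 1 ∨ ⁅k, b⁆ = ⁅a, b⁆ := by
  by_cases j : k ∈ 𝓒(B)
  · exact .inl ((h.dC hk).2 j)
  have := (h.dC (mul_mem hk h.aK)).2 (two i hk h.aK j h.aC)
  rw [h.dmul hk h.aK] at this
  exact .inr ((eq_inv_of_mul_eq_one_right this).trans (h.iv (h.XB (h.dX h.aK))))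

theorem wW (hr : r ∈ 𝓒(X)) (m : MCB B 𝓒(X) r) (nc : ¬ 𝓒(B) ≤ R B r) (hy : y ∈ R B r) : y ^ 2 ∉ h.W := by
  have rC : r ∉ 𝓒(B) := fun j => by
    obtain ⟨c, c1, c2⟩ := SetLike.not_le_iff_exists.1 nc
    have l := R_le h.BC j
    exact h.aC ((mul_mem_cancel_right c1).1 (l (m _ h.aK _ (h.CK c1) (fun e => h.aC (l e)) c2)))
  have uC := two (h.idx hr m nc) hr h.aK rC h.aC
  have ia := inv_of_sq h.a2
  have aa : a * a = 1 := by rw [← sq, h.a2]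
  have aa' : ∀ x, a * (a * x) = x := fun x => by rw [← mul_assoc, aa, one_mul]
  obtain ⟨u, rfl⟩ : ∃ u, r = u * a := ⟨r * a, by rw [mul_assoc, aa, mul_one]⟩
  rw [mul_assoc, aa, mul_one] at uC
  have sC := h.sqC hr
  set s := (u * a) ^ 2 with hs
  have l := R_le h.BC sC
  have ys : y ∈ R B s := (R_par hy).resolve_right fun j => rC (inv_mem_iff.1 ((mul_mem_cancel_left h.yC).1 (l j)))
  have u2 : ⁅u ^ 2, a⁆ ∈ B := by
    have := R_comm self_R (m.conj hr h.BK h.aK self_R)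
    convert this using 1
    simp only [commutatorElement_def, mul_inv_rev, inv_inv, mul_assoc, ia, aa', aa, sq, mul_one]
  have u3 := h.yk' (pow_mem uC 2) u2
  have u4 : (u ^ 2) ^ 2 ∈ B := u3.elim (fun j => pow_mem j 2) fun j => h.sy' j ▸ h.y2
  set e := ⁅u ^ 2, a⁆⁻¹ * (u ^ 2) ^ 2 with he
  have eB : e ∈ B := mul_mem (inv_mem u2) u4
  have se : a * s * a⁻¹ = s⁻¹ * e := by
    have k := mem_cent.1 uC _ (inv_mem u2)
    rw [eq_inv_mul_iff_mul_eq, he, show ⁅u ^ 2, a⁆⁻¹ * (u ^ 2) ^ 2 = ⁅u ^ 2, a⁆⁻¹ * u * u ^ 3 by group, k, hs]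
    simp only [commutatorElement_def, mul_inv_rev, inv_inv, mul_assoc, ia, aa', aa, pow_succ, pow_zero, one_mul,
      mul_one, inv_mul_cancel_left]
  obtain ⟨n, c, hc, e1, e2⟩ : ∃ n : ℤ, ∃ c ∈ B, y = s ^ n * c ∧ e ^ n ∈ h.W := by
    rcases u3 with j | j
    · obtain ⟨n, c, hc, e1⟩ := mem_R'.1 ys
      exact ⟨n, c, hc, e1, zpow_mem (by rw [he, h.eB _ j, mul_one]; exact inv_mem ⟨_, j, rfl⟩) n⟩
    by_cases k : y ∈ R B (s ^ 2)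
    · obtain ⟨n, c, hc, e1⟩ := mem_R'.1 k
      exact ⟨2 * n, c, hc, by rw [e1, zpow_mul, zpow_ofNat], by
        rw [zpow_mul, zpow_ofNat, h.eB _ eB, one_zpow]; exact one_mem _⟩
    exfalso
    have k1 := (R_two h.y2 (R_odd h.pG ys k)).resolve_left fun i => h.yB (R_le le_rfl i ys)
    have k2 : ⁅u, a⁆ ∈ B := by
      have := h.nB.conj_mem _ (mul_mem (h.nB.mem_comm j) (inv_mem k1)) u⁻¹
      convert this using 1
      simp only [hs, commutatorElement_def, mul_inv_rev, inv_inv, mul_assoc, ia, aa', aa, sq, mul_one,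
        inv_mul_cancel_left, inv_mul_cancel]
    have k3 : u ^ 2 ∈ B := (h.yk' uC k2).elim (fun i => pow_mem i 2) fun i => h.sy' i ▸ h.y2
    exact h.yB (inv_mem_iff.1 ((mul_mem_cancel_right k3).1 j))
  intro wW
  have c1 : Commute s⁻¹ e := (mem_cent.1 (inv_mem sC) _ eB).symm
  have c2 := mem_cent.1 (zpow_mem sC n) _ hc
  have c3 := h.co hc (zpow_mem eB n)
  have c4 := mem_cent.1 h.yC _ (h.yc a)
  have f : ⁅y, a⁆ * y ^ 2 = e ^ n * ⁅c, a⁆ := by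
    calc ⁅y, a⁆ * y ^ 2 = ⁅y, a⁆ * y * y := by rw [sq, mul_assoc]
      _ = y * ⁅y, a⁆⁻¹ * y := by rw [c4, h.iv (h.yc a)]
      _ = y * (a * y * a⁻¹) := by group
      _ = s ^ n * c * ((a * s * a⁻¹) ^ n * (a * c * a⁻¹)) := by rw [conj_zpow, e1]; group
      _ = c * e ^ n * (a * c⁻¹ * a⁻¹) := by rw [se, c1.mul_zpow, ← c2, h.iv hc]; group
      _ = _ := by rw [c3]; group
  exact h.x1W ((mul_mem_cancel_right wW).1 (f ▸ mul_mem e2 ⟨c, hc, rfl⟩))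

theorem caseN (hr : r ∈ 𝓒(X)) (m : MCB B 𝓒(X) r) (nc : ¬ 𝓒(B) ≤ R B r) (hy : y ∈ R B r) : H7SR.SR 4 G := by
  haveI := Fact.mk Nat.prime_two
  have wW := h.wW hr m nc hy
  have kT : 𝓒(X) = ⊤ := by
    by_contra k
    obtain ⟨g, -, g1, g2, -⟩ := PGBasic.exists_mem_normalizer (h.pG.to_subgroup ⊤) (lt_top_iff_ne_top.2 k)
    have g3 := (mem_normalizer_iff.1 g2 a).1 h.aK
    have e : g * ⁅a, b⁆ * g⁻¹ = ⁅g * a * g⁻¹, g * b * g⁻¹⁆ := by group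
    refine g1 (h.memK (h.dX h.aK) h.wX h.x0 h.w1 (fun j => wW (j ▸ h.x0W)) ?_
      (by rw [mem_center_iff.1 h.wc g, mul_inv_cancel_right]))
    have n1 : g * ⁅a, b⁆ * g⁻¹ ≠ 1 := fun j => h.x0 (conj_eq_one_iff.1 j)
    have := (h.dor g3 (h.nB.conj_mem _ h.bB g)).resolve_left (e ▸ n1)
    rw [← e] at this
    exact this.trans ((h.dtwo (h.idx hr m nc) g3).resolve_left (this ▸ n1))
  intro H F h1 h2
  by_contra hlt
  have k1 := split h1 h2 B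
  have k2 := m.four (H := H) (N := F ⊔ H ⊓ B) (kT ▸ le_top) le_sup_right fun x hx => mem_sup_left (h2 x hx)
  have k3 := (rel_card F (H ⊓ B)).trans (card_le_of_le' inf_le_right)
  have c8 := h.c8
  obtain ⟨k4, k5, -⟩ := big (B := B) h2 (by nlinarith)
  obtain ⟨t, t1, t2, t3, t4⟩ := m.inv h.pG (H := H) (N := F ⊔ H ⊓ B) (kT ▸ le_top) le_sup_right (by nlinarith)
  have := h.sy' (R_inv hy t2 h.yB t3 h.y2 t4)
  exact h.w1 (mem_bot.1 (k5 ▸ ⟨this ▸ h2 t t1, h.y2⟩))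

theorem caseC (hc : 𝓒(B) ≤ R B s) (alt : 𝓒(B).relIndex 𝓒(X) ≤ 2 ∨ ∃ r ∈ 𝓒(X), MCB B 𝓒(X) r ∧ 𝓒(B) ≤ R B r) :
    H7SR.SR 4 G := fun H F h1 h2 => by
  by_contra hlt
  have c8 := h.c8
  have k1 := lin8 h.pG h.eB c8 h1 h2
  have k2 := split h1 h2 𝓒(B)
  set D := H ⊓ 𝓒(B) with hD
  have k3 := split (F := F ⊓ D) (H := D) inf_le_right (fun x hx => ⟨h2 x hx.1, pow_mem hx 2⟩) B
  have eD : D ⊓ B = H ⊓ B := by rw [hD, inf_assoc, inf_of_le_right h.BC]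
  rw [inf_relIndex_right, ← inf_relIndex_right (F ⊓ D), inf_assoc, ← inf_assoc D, inf_idem, inf_relIndex_right,
    eD] at k3
  have k4 := cyc2 (N := F ⊓ D ⊔ H ⊓ B) (inf_le_right.trans hc : D ≤ _) (eD ▸ le_sup_right)
    fun x hx => mem_sup_left ⟨h2 x hx.1, pow_mem hx 2⟩
  have nb : ¬ D ≤ B := fun k => by
    rw [inf_of_le_left k] at eD
    have := (big (B := B) h2 (by rw [← eD]; nlinarith)).2.2
    have := (rel_card F H).trans (card_le_of_le' ((le_inf le_rfl this).trans k))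
    omega
  obtain ⟨d, d1, d2⟩ := SetLike.not_le_iff_exists.1 nb
  obtain ⟨t, t1, t2, t3⟩ := exists_pow h.pG d2
  replace t1 := zpowers_le.2 d1 t1
  have yt := R_inv (hc h.yC) (hc t1.2) h.yB t2 h.y2 t3
  have wF : y ^ 2 ∈ F ⊓ (H ⊓ B) := by
    have : y ^ 2 ∈ F := h.sy' yt ▸ h2 t t1.1
    exact ⟨this, h1 this, h.y2⟩
  have k5 := card_inf_mul_relIndex F (H ⊓ B)
  have k6 := card_inf_mul_relIndex H B
  have k7 : 1 < ♯(F ⊓ (H ⊓ B)) := (one_lt_card_iff_ne_bot _).2 fun e => h.w1 (mem_bot.1 (e ▸ wF))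
  have p1 := Nat.pos_of_ne_zero (relIndex_ne_zero' H B)
  have p2 : ♯(H ⊓ B) ≤ 8 := by nlinarith
  have p3 : F.relIndex (H ⊓ B) ≤ 4 := by nlinarith
  have p4 : 5 ≤ F.relIndex D := by nlinarith
  have p5 : 3 ≤ F.relIndex (H ⊓ B) := by nlinarith
  have bH : B ≤ H := relIndex_eq_one.1 (by
    by_contra j
    have : 2 ≤ H.relIndex B := by omega
    nlinarith)
  have p6 : ♯(F ⊓ (H ⊓ B)) ≤ 2 := by nlinarith
  have p7 : 3 ≤ (F ⊔ D).relIndex H := by nlinarith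
  have p8 : ¬ D ≤ F ⊓ D ⊔ H ⊓ B := fun j => by rw [relIndex_eq_one.2 j] at k3; omega
  have p9 : ¬ 𝓒(B).relIndex H ≤ 2 := fun j => by
    have := relIndex_le_of_le_left (L := H) (le_sup_right : D ≤ F ⊔ D) (relIndex_ne_zero' _ _)
    rw [show D.relIndex H = 𝓒(B).relIndex H from inf_relIndex_left _ _] at this
    omega
  have yH : y ∈ H := H.inv_mem_iff.1 ((H.mul_mem_cancel_right t1.1).1 (bH yt))
  have cw : ∀ g ∈ H, ∀ c ∈ H, ⁅g, c⁆ ∈ B → ⁅g, c⁆ = 1 ∨ ⁅g, c⁆ = y ^ 2 := fun g hg c hc j =>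
    mem2 p6 wF h.w1 ⟨cm h2 hg hc, h1 (cm h2 hg hc), j⟩
  have cw' : ∀ g ∈ H, ∀ c ∈ B, ⁅g, c⁆ = 1 ∨ ⁅g, c⁆ = y ^ 2 := fun g hg c hc => cw g hg c (bH hc) (cmB hc g)
  have nX : ∀ g ∈ H, ∀ x ∈ X, g * x * g⁻¹ ∈ X := fun g hg x hx => by
    rw [show g * x * g⁻¹ = ⁅g, x⁆ * x by group]
    exact mul_mem ((cw' g hg x (h.XB hx)).elim (fun e => e ▸ one_mem _) fun e => e ▸ h.wX) hx
  have i2 := h.Kidx h.wX h.w1 h.wc nX
  obtain ⟨k, k1, k2⟩ : ∃ k ∈ H ⊓ 𝓒(X), k ∉ 𝓒(B) := SetLike.not_le_iff_exists.1 fun j => p9 (by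
    have := rel_le 𝓒(B) 𝓒(X) H
    rw [relIndex_eq_one.2 j] at this
    omega)
  have dk : ∀ k ∈ H ⊓ 𝓒(X), k ∉ 𝓒(B) → ⁅k, b⁆ = y ^ 2 := fun k k1 k2 =>
    (cw' k k1.1 b h.bB).resolve_left fun e => k2 ((h.dC k1.2).1 e)
  have ww := h.mm h.y2
  by_cases e : ⁅a, b⁆ = y ^ 2
  · have c0 := (h.dC (mul_mem k1.2 h.aK)).1 (by rw [h.dmul k1.2 h.aK, e, dk k k1 k2, ww])
    obtain ⟨g, g1, g2⟩ := R_gen hc
    have cm : ∀ x ∈ 𝓒(B), ∀ z ∈ 𝓒(B), Commute x z := fun x hx z hz => by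
      obtain ⟨i, c, c1, rfl⟩ := mem_R'.1 (g2 hx)
      refine Commute.mul_left ?_ (mem_cent.1 hz c c1)
      obtain ⟨j, c', c2, rfl⟩ := mem_R'.1 (g2 hz)
      exact ((Commute.refl g).zpow_zpow i j).mul_right (mem_cent.1 (zpow_mem g1 i) _ c2).symm
    have nC : 𝓒(B).Normal := inferInstance
    have e2 : ⁅k, y⁆ = ⁅y, a⁆ := by
      have := (cm _ c0 _ (nC.conj_mem _ h.yC a⁻¹)).eq
      calc ⁅k, y⁆ = k * a * (a⁻¹ * y * a⁻¹⁻¹) * (k * a)⁻¹ * y⁻¹ := by group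
        _ = a⁻¹ * y * a⁻¹⁻¹ * y⁻¹ := by rw [this]; group
        _ = ⁅y, a⁆⁻¹ := by rw [inv_inv]; nth_rw 1 [inv_of_sq h.a2]; nth_rw 2 [← inv_of_sq h.a2]; group
        _ = _ := h.iv (h.yc a)
    exact h.x1W ((cw k k1.1 y yH (e2 ▸ h.yc a)).elim (fun j => e2 ▸ j ▸ one_mem _)
      fun j => e2 ▸ j ▸ e ▸ h.x0W)
  obtain ⟨r, r1, m, r2⟩ := alt.resolve_left fun j => (h.dtwo j k1.2).elim
    (fun i => k2 ((h.dC k1.2).1 i)) fun i => e (i.symm.trans (dk k k1 k2))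
  obtain ⟨g, g1, g2⟩ : ∃ g ∈ H, g ∉ 𝓒(X) := SetLike.not_le_iff_exists.1 fun j => p9 (two' fun x a z b x1 z1 =>
    (h.dC (mul_mem (j a) (j b))).1 (by rw [h.dmul (j a) (j b), dk x ⟨a, j a⟩ x1, dk z ⟨b, j b⟩ z1, ww]))
  have x0 := h.dX h.aK
  have g3 : g * ⁅a, b⁆ * g⁻¹ = y ^ 2 * ⁅a, b⁆ := by
    rw [← (cw' g g1 _ (h.XB x0)).resolve_left fun j => g2 (h.memK x0 h.wX h.x0 h.w1 e
      (by rw [cm1.1 j, mul_inv_cancel_right]) (by rw [mem_center_iff.1 h.wc g, mul_inv_cancel_right]))]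
    group
  have a1 : g * a * g⁻¹ ∈ 𝓒(X) := mem_cent.2 fun x hx => by
    have := ((h.mX _).1 (nX _ (inv_mem g1) x hx)).2
    calc x * (g * a * g⁻¹) = g * (g⁻¹ * x * g⁻¹⁻¹ * a) * g⁻¹ := by group
      _ = _ := by rw [this]; group
  have a2 : ⁅g * a * g⁻¹, b⁆ = y ^ 2 * ⁅a, b⁆ := by
    rw [← g3, ← h.dout a1 (h.nB.conj_mem _ h.bB g) fun j => h.bX (by
      have := nX _ (inv_mem g1) _ j
      rwa [show g⁻¹ * (g * b * g⁻¹) * g⁻¹⁻¹ = b by group] at this)]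
    group
  have a3 : k * (a * (g * a * g⁻¹)) ∈ 𝓒(B) := (h.dC (mul_mem k1.2 (mul_mem h.aK a1))).1 (by
    rw [h.dmul k1.2 (mul_mem h.aK a1), h.dmul h.aK a1, a2, dk k k1 k2, mul_assoc (y ^ 2), h.mm (h.XB x0), mul_one, ww])
  have go : ∀ t ∈ 𝓒(X), t ∉ 𝓒(B) → t ^ 2 = 1 → t ∉ R B r := fun t t1 t2 t3 j =>
    h.yB (R_le le_rfl (t3 ▸ one_mem _) (gen_odd h.pG h.BC r2 (h.sqC r1) j t2 (h.sqC t1) h.yC))
  have a4 := m _ h.aK _ a1 (go a h.aK h.aC h.a2) (go _ a1 (fun j => e (by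
    rw [(h.dC a1).2 j] at a2
    exact (eq_inv_of_mul_eq_one_right a2.symm).trans (h.iv h.y2))) (by rw [conj_pow, h.a2]; group))
  have a5 := gen_odd h.pG h.BC r2 (h.sqC r1) ((mul_mem_cancel_right a4).1 (r2 a3)) k2 (h.sqC k1.2)
  exact p8 (inf_le_right.trans (a5.trans (R_le ((le_inf bH le_rfl).trans le_sup_right)
    (mem_sup_left ⟨h2 k k1.1, pow_mem k1.1 2, h.sqC k1.2⟩))))

theorem sr : H7SR.SR 4 G := by
  obtain ⟨r, r1, m⟩ := mcb h.pG h.aK fun k hk j => h.yk hk j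
  by_cases k : 𝓒(B) ≤ R B r
  · exact h.caseC k (.inr ⟨r, r1, m, k⟩)
  by_cases j : y ∈ R B r
  · exact h.caseN r1 m k j
  refine h.caseC (s := y) (fun c hc => ?_) (.inl (h.idx r1 m k))
  have f : ∀ x ∈ 𝓒(X), ∃ u ∈ R B r, ((x : G ⧸ B) = u ∨ (x : G ⧸ B) = y⁻¹ * u) := fun x hx => by
    by_cases e : x ∈ R B r
    · exact ⟨x, e, .inl rfl⟩
    · exact ⟨_, m _ (h.CK h.yC) _ hx j e, .inr (by simp)⟩
  have cy : ∀ g : G, Commute (y : G ⧸ B) g := fun g =>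
    commutatorElement_eq_one_iff_commute.1 ((QuotientGroup.eq_one_iff ⁅y, g⁆).2 (h.yc g))
  obtain ⟨u, u1, u2⟩ := f c (h.CK hc)
  obtain ⟨v, v1, v2⟩ := f a h.aK
  have cu : Commute (u : G ⧸ B) v :=
    commutatorElement_eq_one_iff_commute.1 ((QuotientGroup.eq_one_iff ⁅u, v⁆).2 (R_comm u1 v1))
  have ca : Commute (c : G ⧸ B) a := by
    have : Commute (u : G ⧸ B) a := by
      rcases v2 with e | e <;> rw [e]
      exacts [cu, (cy u).symm.inv_right.mul_right cu]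
    rcases u2 with e | e <;> rw [e]
    exacts [this, (cy a).inv_left.mul_left this]
  rcases h.yk' hc ((QuotientGroup.eq_one_iff ⁅c, a⁆).1 (commutatorElement_eq_one_iff_commute.2 ca)) with e | e
  · exact B_le_R e
  · exact (mul_mem_cancel_left (inv_mem self_R)).1 (B_le_R e)

end H8

theorem Hy.sr (h : Hy B X a) : H7SR.SR 4 G := by
  haveI := h.nB
  haveI := Fact.mk Nat.prime_two
  obtain ⟨n, hn⟩ := (pT h.pG B).exists_card Nat.prime_two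
  have k1 := h.cardW.trans (Nat.mul_le_mul_left 4 (card_le_of_le' h.WX))
  have k2 := h.b8
  rw [h.X4, hn] at k1
  rw [hn] at k2
  have : n ≤ 4 := (Nat.pow_le_pow_iff_right (by omega)).1 (k1.trans (by norm_num : 4 * 4 ≤ 2 ^ 4))
  have : 3 ≤ n := (Nat.pow_le_pow_iff_right (by omega)).1 ((by norm_num : 2 ^ 3 ≤ 8).trans k2)
  obtain rfl | rfl : n = 4 ∨ n = 3 := by omega
  · exact h.s16 hn
  by_cases k : 𝓒(B) ≤ B
  · exact FusHar.sc h.pG h.eB hn k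
  obtain ⟨y, y1, y2, y3, y4⟩ := PGBasic.exists_layer_pow_top h.pG k
  obtain ⟨b, b1, b2⟩ := SetLike.not_le_iff_exists.1 fun j : B ≤ X => by
    have := card_le_of_le' j
    rw [hn, h.X4] at this
    omega
  exact H8.sr ⟨h, hn, y1, y2, y3, y4, b1, b2⟩

end CA.FusHar
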