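import Cfsg.Agent.Lib.Fus.FusHar3

/-!
`2`-groups with a self-centralizing elementary abelian subgroup of order eight have sectional rank at most four.
-/

set_option autoImplicit false
set_option linter.unusedSectionVars false
set_option linter.style.haveILetI false

namespace CA.FusHar

open Subgroup Cfsg CA.OQuo CA.BG CA.BG4 CA.FusPat CA.FusMw
open scoped commutatorElement

variable {G : Type*} [Group G] [Finite G] {A B C D F H K N T X : Subgroup G} {a b c g k k' r s t v w x y z : G}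

theorem mem_norm (h : ∀ x ∈ K, g * x * g⁻¹ ∈ K) : g ∈ 𝓝(K) := mem_normalizer_fintype h

theorem gen8 (A8 : ♯A ≤ 8) (ha : a ∈ T ⊓ A) (hb : b ∈ T ⊓ A) (hc : c ∈ T ⊓ A) (a1 : a ≠ 1) (b1 : b ≠ 1) (ab : a ≠ b)
    (ab1 : a * b ≠ 1) (h : ¬ (c = 1 ∨ c = a ∨ c = b ∨ c = a * b)) : A ≤ T := by
  have k1 : ¬ ♯(T ⊓ A) ≤ 4 := fun k => h (mem4 k ha hb a1 b1 ab ab1 hc)
  have k2 := card_inf_mul_relIndex T A
  have k3 := Nat.pos_of_ne_zero (relIndex_ne_zero' T A)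
  exact relIndex_eq_one.1 (by nlinarith)

theorem rel_cm (f : ∀ x ∈ H, ⁅x, a⁆ ∈ X) (h : ∀ x ∈ H, x * a = a * x → x ∈ T) : T.relIndex H ≤ ♯X := by
  rw [← relIndex_bot_left]
  refine relIndex_le_of_fun (fun b => ⁅b, a⁆) f fun b hb c hc e => h _ (mul_mem (inv_mem hb) hc) ?_
  have e' : ⁅b, a⁆ = ⁅c, a⁆ := inv_mul_eq_one.1 e
  calc b⁻¹ * c * a = b⁻¹ * ⁅c, a⁆ * a * c := by group
    _ = _ := by rw [← e']; group

theorem k1 (pG : IsPGroup 2 G) [nB : B.Normal] (eB : ∀ x ∈ B, x ^ 2 = 1)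
    (mx : ∀ Y : Subgroup G, Y.Normal → (∀ x ∈ Y, x ^ 2 = 1) → ♯Y ≤ ♯B) (b8 : 8 ≤ ♯B) (eA : ∀ x ∈ A, x ^ 2 = 1)
    (A8 : ♯A = 8) (hC : 𝓒(A) ≤ A) (Z2 : ♯(A ⊓ B) = 2) : ∃ X a, Hy B X a := by
  haveI := Fact.mk Nat.prime_two
  obtain ⟨⟨z, hz⟩, z1⟩ := ne_bot_iff_exists_ne_one.1 ((one_lt_card_iff_ne_bot (A ⊓ B)).1 (by omega))
  replace z1 : z ≠ 1 := by simpa using z1
  have zz := fun x (hx : x ∈ A ⊓ B) => mem2 Z2.le hz z1 hx
  obtain ⟨u, u1, u2, u3⟩ := PGBasic.exists_layer (H := ⊤) (P := 𝓝(A)) (M := A) (N := A ⊓ B)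
    (pG.to_subgroup ⊤).isNilpotent le_top le_top le_rfl fun j => by have := card_le_of_le' j; omega
  obtain ⟨a, a1, a2⟩ : ∃ a ∈ A, ¬ (a = 1 ∨ a = z ∨ a = u ∨ a = z * u) := by
    by_contra j
    have := card_le4 (X := A) (u := z) (v := u) (w := z * u) fun x hx => by_contra fun i => j ⟨x, hx, i⟩
    omega
  have gen : ∀ T : Subgroup G, z ∈ T → u ∈ T → a ∈ T → A ≤ T := fun T t1 t2 t3 =>
    gen8 A8.le ⟨t1, hz.1⟩ ⟨t2, u1⟩ ⟨t3, a1⟩ z1 (fun e => u2 (e ▸ one_mem _)) (fun e => u2 (e ▸ hz))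
      (fun e => u2 ((mul_mem_cancel_left hz).1 (e ▸ one_mem _))) a2
  have cen : ∀ t, z * t = t * z → u * t = t * u → a * t = t * a → t ∈ A := fun t t1 t2 t3 =>
    hC (mem_cent.2 fun x hx => mem_cent1.1 (gen 𝓒₁(t) (mem_cent1.2 t1) (mem_cent1.2 t2) (mem_cent1.2 t3) hx))
  have fz : ∀ t ∈ B, u * t = t * u → a * t = t * a → t ∈ A ⊓ B := fun t t1 t2 t3 =>
    ⟨cen t (ea_comm eB hz.2 t1) t2 t3, t1⟩
  set X := B ⊓ 𝓒₁(a) with hX
  have ua : u ∈ 𝓒₁(a) := mem_cent1.2 (ea_comm eA u1 a1)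
  have ZX : A ⊓ B ≤ X := fun x hx => ⟨hx.2, mem_cent1.2 (ea_comm eA hx.1 a1)⟩
  have cmem : ∀ {T : Subgroup G} {x y : G}, x ∈ T → y ∈ T → ⁅x, y⁆ ∈ T := fun hx hy =>
    mul_mem (mul_mem (mul_mem hx hy) (inv_mem hx)) (inv_mem hy)
  have xu : ∀ x ∈ X, ⁅x, u⁆ ∈ A ⊓ B := fun x hx => fz _ (cmB' hx.1 u)
    (by rw [cm_inv (eA u u1), inv_of_sq (eB _ (cmB' hx.1 u))]) (mem_cent1.1 (cmem hx.2 ua)).symm
  have i1 := rel_cm (T := A ⊓ B) xu fun x hx e => fz x hx.1 e.symm (mem_cent1.1 hx.2).symm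
  have i2 := rel_cm (H := B) (T := X) (X := X) (a := a) (fun x hx => ⟨cmB' hx a, mem_cent1.2
    (by rw [cm_inv (eA a a1), inv_of_sq (eB _ (cmB' hx a))])⟩) fun x hx e => ⟨hx, mem_cent1.2 e⟩
  have i3 := card_mul_relIndex ZX
  have i4 : ♯X * X.relIndex B = ♯B := card_mul_relIndex inf_le_left
  rw [Z2] at i1 i3
  have X4 : ♯X = 4 := by
    have : 3 ≤ ♯X := by nlinarith
    omega
  obtain ⟨x, x1, x2⟩ := SetLike.not_le_iff_exists.1 fun j : X ≤ A ⊓ B => by have := card_le_of_le' j; omega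
  have x3 : ⁅x, u⁆ = z := (zz _ (xu x x1)).resolve_left fun e =>
    x2 (fz x x1.1 (cm1.1 e).symm (mem_cent1.1 x1.2).symm)
  have aa : a * a = 1 := by rw [← sq, eA a a1]
  let A' : Subgroup G :=
    { carrier := {t | t ∈ X ∨ t * a ∈ X}
      mul_mem' := fun {s t} hs ht => by
        rcases hs with hs | hs <;> rcases ht with ht | ht
        · exact .inl (mul_mem hs ht)
        · exact .inr (by rw [mul_assoc]; exact mul_mem hs ht)
        · exact .inr (by rw [mul_assoc, mem_cent1.1 ht.2, ← mul_assoc]; exact mul_mem hs ht)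
        · refine .inl ?_
          have := mul_mem hs ht
          rwa [mul_assoc, ← mem_cent1.1 ht.2, mul_assoc t, aa, mul_one] at this
      one_mem' := .inl (one_mem _)
      inv_mem' := fun {t} ht => ht.imp inv_mem fun ht => by
        have e : Commute t a := mul_right_cancel ((mem_cent1.1 ht.2).trans (mul_assoc _ _ _).symm)
        have := inv_mem ht
        rwa [mul_inv_rev, inv_of_sq (eA a a1), ← e.inv_left.eq] at this }
  have nX : ∀ g ∈ 𝓒₁(a), ∀ x ∈ X, g * x * g⁻¹ ∈ X := fun g hg x hx =>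
    mem_inf.2 ⟨nB.conj_mem _ hx.1 g, mul_mem (mul_mem hg (mem_inf.1 hx).2) (inv_mem hg)⟩
  have main : 𝓒(X) ⊓ 𝓒₁(a) ≤ A' := by
    by_contra j
    obtain ⟨t, t1, t2, t3⟩ := PGBasic.exists_layer (H := ⊤) (P := zpowers u) (M := 𝓒(X) ⊓ 𝓒₁(a))
      (pG.to_subgroup ⊤).isNilpotent le_top le_top (zpowers_le.2 (mem_norm fun t ht => mem_inf.2 ⟨mem_cent.2 fun x hx => by
        have := mem_cent.1 ht.1 _ (nX _ (inv_mem ua) x hx)
        calc x * (u * t * u⁻¹) = u * (u⁻¹ * x * u⁻¹⁻¹ * t) * u⁻¹ := by group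
          _ = _ := by rw [this]; group, mul_mem (mul_mem ua (mem_inf.1 ht).2) (inv_mem ua)⟩)) j
    have ea := mem_cent1.1 (cmem t1.2 ua)
    have tz := mem_cent.1 t1.1 z (ZX hz)
    rcases t3 u (mem_zpowers u) with e | e
    · have e1 := fz _ e.1 (by rw [cm_inv (eA u u1), inv_of_sq (eB _ e.1)]) ea.symm
      obtain ⟨y, y1, y2⟩ : ∃ y ∈ X, ⁅t * y, u⁆ = 1 := by
        rcases zz _ e1 with f | f
        · exact ⟨1, one_mem _, by rwa [mul_one]⟩
        · refine ⟨x, x1, ?_⟩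
          rw [show ⁅t * x, u⁆ = t * ⁅x, u⁆ * t⁻¹ * ⁅t, u⁆ by group, x3, f, ← tz, mul_inv_cancel_right, ← sq, eB z hz.2]
      have y3 : t * y ∈ 𝓒(X) ⊓ 𝓒₁(a) := mul_mem t1 ⟨mem_cent.2 fun w hw => ea_comm eB hw.1 y1.1, y1.2⟩
      have y4 := cen _ (mem_cent.1 y3.1 z (ZX hz)) (cm1.1 y2).symm (mem_cent1.1 y3.2).symm
      refine t2 ((A'.mul_mem_cancel_right (.inl y1)).1 ?_)
      by_contra i
      have zA : z ∈ A' := .inl (ZX hz)
      have aA : a ∈ A' := .inr (aa ▸ one_mem _)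
      have := gen8 (T := 𝓒(X)) A8.le ⟨mem_cent.2 fun w hw => ea_comm eB hw.1 hz.2, hz.1⟩
        ⟨mem_cent.2 fun w hw => mem_cent1.1 hw.2, a1⟩ ⟨y3.1, y4⟩ z1 (fun e => a2 (.inl e))
        (fun e => a2 (.inr (.inl e.symm))) (fun e => a2 (.inr (.inl
          ((eq_inv_of_mul_eq_one_right e).trans (inv_of_sq (eB z hz.2)))))) (by
            rintro (e | e | e | e) <;> refine i (e ▸ ?_)
            exacts [one_mem _, zA, aA, mul_mem zA aA])
      exact z1 (x3.symm.trans (cm1.2 (mem_cent.1 (this u1) x x1)))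
    · have e0 : ⁅t, u⁆ ^ 2 = 1 := by
        have := eB _ e.1
        rwa [(show Commute _ _ from ea).mul_pow, eA a a1, mul_one] at this
      have e1 := fz _ e.1 (by rw [← mul_assoc, cm_inv (eA u u1), inv_of_sq e0, mul_assoc, mul_assoc, mem_cent1.1 ua])
        (mem_cent1.1 e.2).symm
      have e2 : t ∈ 𝓝(A) := mem_norm fun x hx => gen (A.comap (MulAut.conj t).toMonoidHom)
        (show t * z * t⁻¹ ∈ A by rw [← tz, mul_inv_cancel_right]; exact hz.1)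
        (show t * u * t⁻¹ ∈ A by
          rw [show t * u * t⁻¹ = ⁅t, u⁆ * u by group]
          exact mul_mem ((A.mul_mem_cancel_right a1).1 e1.1) u1)
        (show t * a * t⁻¹ ∈ A by rw [mem_cent1.1 t1.2, mul_inv_cancel_right]; exact a1) hx
      have e3 := inv_mem (u3 t e2)
      rw [commutatorElement_inv] at e3
      exact a2 ((zz a ((mul_mem_cancel_left e3).1 e1)).imp_right .inl)
  exact ⟨X, a, pG, nB, eB, mx, eA a a1, fun x => and_congr_right fun _ => mem_cent1, X4, b8,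
    fun t t1 t2 => (main ⟨t1, mem_cent1.2 t2⟩).imp And.left And.left⟩

theorem harada (pG : IsPGroup 2 G) (eA : ∀ x ∈ A, x ^ 2 = 1) (A8 : ♯A = 8) (hC : 𝓒(A) ≤ A) : H7SR.SR 4 G := by
  haveI := Fact.mk Nat.prime_two
  by_cases k : ∀ A : Subgroup G, A.Normal → IsMulCommutative A → (∀ a ∈ A, a ^ 2 = 1) → Nat.card A ≤ 4
  · exact macWilliams pG k
  push Not at k
  obtain ⟨B0, n0, -, e0, c0⟩ := k
  obtain ⟨B, ⟨nB, eB⟩, mx⟩ := Set.exists_max_image {Y : Subgroup G | Y.Normal ∧ ∀ x ∈ Y, x ^ 2 = 1} (fun Y => ♯Y)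
    (Set.toFinite _) ⟨B0, n0, e0⟩
  replace mx := fun Y a b => mx Y ⟨a, b⟩
  have b8 : 8 ≤ ♯B := by
    obtain ⟨n, hn⟩ := (pT pG B).exists_card Nat.prime_two
    have := c0.trans_le (mx B0 n0 e0)
    rw [hn] at this ⊢
    exact Nat.pow_le_pow_right (n := 2) (j := n) (i := 3) two_pos
      ((Nat.pow_lt_pow_iff_right (by omega)).1 (show 2 ^ 2 < 2 ^ n from this))
  obtain ⟨i, i1, i2⟩ := (Nat.dvd_prime_pow Nat.prime_two (m := 3)).1 (A8 ▸ card_dvd_of_le (inf_le_left : A ⊓ B ≤ A))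
  interval_cases i
  · obtain ⟨z, z1, z2, z3⟩ := PGBasic.exists_mem_center_orderOf pG (M := B) (by
      rintro rfl; rw [card_bot] at b8; omega)
    have : z ∈ A ⊓ B := ⟨hC (mem_cent.2 fun x _ => mem_center_iff.1 z2 x), z1⟩
    rw [card_eq_one.1 i2, mem_bot] at this
    simp [this] at z3
  · obtain ⟨X, a, h⟩ := k1 pG eB mx b8 eA A8 hC i2
    exact h.sr
  · obtain ⟨a, a1, a2⟩ := SetLike.not_le_iff_exists.1 fun j : A ≤ A ⊓ B => by have := card_le_of_le' j; omega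
    have i := twoc (inf_le_left : A ⊓ B ≤ A) (by omega)
    have cen : ∀ t ∈ 𝓒(A ⊓ B), t * a = a * t → t ∈ A := fun t t1 t2 => hC (mem_cent.2 fun x hx => by
      by_cases j : x ∈ A ⊓ B
      · exact mem_cent.1 t1 x j
      have := mem_cent.1 t1 _ (two i hx a1 j a2)
      rw [mul_assoc, ← t2, ← mul_assoc, ← mul_assoc] at this
      exact mul_right_cancel this)
    exact Hy.sr (X := A ⊓ B) ⟨pG, nB, eB, mx, eA a a1, fun x => ⟨fun hx => ⟨hx.2, ea_comm eA hx.1 a1⟩, fun hx =>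
      ⟨cen x (mem_cent.2 fun y hy => ea_comm eB hy.2 hx.1) hx.2, hx.1⟩⟩, i2, b8, fun t t1 t2 =>
        or_iff_not_imp_left.2 fun j => (two i (cen t t1 t2) a1 (fun e => j e.2) a2).2⟩
  · have l : A ≤ B := inf_eq_left.1 (eq_of_le_of_card_ge inf_le_left (by omega))
    have l2 := (centralizer_le l).trans hC
    haveI := ea_mc eB
    have := card_le_of_le' ((le_centralizer B).trans l2)
    exact sc pG eB (by omega) (l2.trans l)

end CA.FusHar
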