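import Cfsg.Agent.Lib.Fus.FusPat
import Cfsg.Agent.Lib.Grp.H7SR

/-!
MacWilliams' four generator theorem, part 1: two by two matrices over the field with two elements, and
`2`-groups whose elements of order four are central.
-/

set_option autoImplicit false
set_option linter.unusedSectionVars false
set_option linter.style.haveILetI false
set_option synthInstance.maxSize 4000
set_option synthInstance.maxHeartbeats 200000

namespace CA.FusMw

open Subgroup Cfsg CA.OQuo CA.BG CA.BG4 CA.FusPat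
open scoped commutatorElement

abbrev V : Type := ZMod 2 × ZMod 2
abbrev Mx : Type := V × V

def app (A : Mx) (v : V) : V := (v.1 * A.1.1 + v.2 * A.2.1, v.1 * A.1.2 + v.2 * A.2.2)
def mat (f : V → V) : Mx := (f (1, 0), f (0, 1))
def one : Mx := ((1, 0), (0, 1))
def Iv (A : Mx) : Prop := ∀ v, app A v = 0 → v = 0
instance : DecidablePred Iv := fun _ => by unfold Iv; infer_instance
/-- the transvection fixing `l` -/
def tv (l : V) : Mx := mat fun v => v + ((l.1 * v.2 + l.2 * v.1) * l.1, (l.1 * v.2 + l.2 * v.1) * l.2)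
def cg (r X : Mx) : Mx := mat fun v => app r (app X (app r v))

theorem v_add_self : ∀ v : V, v + v = 0 := by decide
theorem m_add_self : ∀ v : Mx, v + v = 0 := by decide
theorem v_cases : ∀ v : V, v = 0 ∨ v = (1, 0) ∨ v = (0, 1) ∨ v = (1, 0) + (0, 1) := by decide
theorem app_add : ∀ (A B : Mx) (v : V), app (A + B) v = app A v + app B v := by decide +kernel
theorem app_add' : ∀ (A : Mx) (v w : V), app A (v + w) = app A v + app A w := by decide +kernel
theorem app_one : ∀ v, app one v = v := by decide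
theorem app_zero : ∀ v, app 0 v = 0 := by decide
theorem app_zero' : ∀ A, app A 0 = 0 := by decide
theorem mx_ext : ∀ A B : Mx, (∀ v, app A v = app B v) → A = B := by decide +kernel
theorem app_e : ∀ x y : V, app (x, y) (1, 0) = x ∧ app (x, y) (0, 1) = y := by decide
theorem iv_one : Iv one := by decide
theorem iv_sur : ∀ A, Iv A → ∀ v, ∃ u, app A u = v := by decide +kernel
theorem tv1 : ∀ l, l ≠ 0 → Iv (tv l) ∧ tv l ≠ one ∧ (∀ v, app (tv l) (app (tv l) v) = v) ∧ app (tv l) l = l := by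
  decide +kernel
theorem tv2 : ∀ l, l ≠ 0 → ∀ X, Iv X → app X l = l → X = one ∨ X = tv l := by decide +kernel
theorem tv3 : ∀ l, l ≠ 0 → ∃ x y, Iv x ∧ Iv y ∧ app x l ≠ l ∧ app y l ≠ l ∧ x + y = one := by decide +kernel
theorem tv4 : ∀ l, l ≠ 0 → ∃ x y, Iv x ∧ Iv y ∧ app x l ≠ l ∧ app y l ≠ l ∧ x + y = tv l := by decide +kernel
theorem app_cg : ∀ r X v, app (cg r X) v = app r (app X (app r v)) := by decide +kernel
theorem cg_add : ∀ l X Y, cg (tv l) (X + Y) = cg (tv l) X + cg (tv l) Y := by decide +kernel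
theorem cg1 : ∀ l, l ≠ 0 → cg (tv l) one = one ∧ cg (tv l) (tv l) = tv l ∧ cg (tv l) 0 = 0 ∧
    (∃ x, x + cg (tv l) x = one + tv l) ∧ (Finset.univ.filter fun X => cg (tv l) X = X).card = 4 := by
  decide +kernel
theorem cg2 : ∀ l, l ≠ 0 → ∀ X, cg (tv l) (cg (tv l) X) = X ∧ (Iv X → Iv (cg (tv l) X)) ∧
    (cg (tv l) X = one → X = one) := by
  decide +kernel
theorem s5 : ∃ a b c d e : Mx, a + b = one ∧ c + d + one = e ∧ ∀ X ∈ [a, b, c, d, e], X ≠ 0 ∧ Iv (one + X) :=
  ⟨((0, 1), (1, 1)), ((1, 1), (1, 0)), ((0, 0), (1, 0)), ((0, 1), (0, 0)), ((1, 1), (1, 1)), by decide⟩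
theorem om : ∃ a : Mx, a ≠ 0 ∧ Iv a ∧ Iv (one + a) := ⟨((0, 1), (1, 1)), by decide⟩
theorem tri6 : ∀ (l : V) (n : Mx), l ≠ 0 → app n l = 0 → ∃ X Y, app X l ≠ 0 ∧ app Y l ≠ 0 ∧ app (X + Y + n) l ≠ 0 ∧
    app (X + Y) l ≠ 0 ∧ app (X + (X + Y + n)) l ≠ 0 ∧ app (Y + (X + Y + n)) l ≠ 0 ∧ X + (Y + (X + Y + n)) = n := by
  decide +kernel
theorem hit : ∀ l : V, l ≠ 0 → ∀ v, ∃ X, app X l = v := by decide +kernel
theorem span2 : ∀ l v u : V, l ≠ 0 → v ≠ 0 → v ≠ l → u = 0 ∨ u = l ∨ u = v ∨ u = l + v := by decide +kernel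
theorem card_mx : Nat.card (Multiplicative Mx) = 16 := by simp [Nat.card_eq_fintype_card]

theorem app_mat {f : V → V} (h : ∀ v w, f (v + w) = f v + f w) (v : V) : app (mat f) v = f v := by
  have h0 : f 0 = 0 := by have := h 0 0; rwa [add_zero, v_add_self] at this
  rcases v_cases v with e | e | e | e <;> rw [e]
  · rw [app_zero', h0]
  · exact (app_e _ _).1
  · exact (app_e _ _).2
  · rw [app_add', h, mat, (app_e _ _).1, (app_e _ _).2]

theorem p2 {B : Subgroup (Multiplicative Mx)} (h : 4 < Nat.card B) (x y : Mx) :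
    Multiplicative.ofAdd x ∈ B ∨ Multiplicative.ofAdd y ∈ B ∨ Multiplicative.ofAdd (x + y) ∈ B := by
  have a := B.card_mul_index
  rw [card_mx] at a
  have b : B.index ≤ 3 := by nlinarith
  have c : B.index ≠ 3 := fun e => by rw [e] at a; omega
  have d : B.index ≠ 0 := index_ne_zero_of_finite
  by_cases e : B.index = 1
  · exact .inl (index_eq_one.1 e ▸ mem_top _)
  · have := mul_mem_iff_of_index_two (H := B) (by omega) (a := Multiplicative.ofAdd x) (b := Multiplicative.ofAdd y)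
    rw [← ofAdd_add] at this
    tauto

theorem le8 {B : Subgroup (Multiplicative Mx)} (h : B ≠ ⊤) : Nat.card B ≤ 8 := by
  have a := B.card_mul_index
  rw [card_mx] at a
  have d : B.index ≠ 0 := index_ne_zero_of_finite
  have e : B.index ≠ 1 := mt index_eq_one.1 h
  have : 2 ≤ B.index := by omega
  nlinarith

universe u

theorem sq_of_fix {G : Type*} [Group G] (hG : IsPGroup 2 G) {c : G}
    (h : ∀ y ∈ zpowers c, y ^ 4 = 1 → y ^ 2 = 1) : c ^ 2 = 1 := by
  obtain ⟨k, hk⟩ := hG c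
  induction k generalizing c with
  | zero => rw [pow_zero, pow_one] at hk; rw [hk, one_pow]
  | succ k ih =>
    refine h c (mem_zpowers c) ?_
    rw [show 4 = 2 * 2 from rfl, pow_mul]
    exact ih (fun y hy => h y (zpowers_le.2 (pow_mem (mem_zpowers c) 2) hy)) (by rw [← pow_mul, ← pow_succ', hk])

theorem comm_sq {G : Type*} [Group G] (hG : IsPGroup 2 G) (hc : ∀ x : G, x ^ 4 = 1 → x ∈ center G) {x : G}
    (hx : x ^ 2 ∈ center G) (g : G) : ⁅x, g⁆ ^ 2 = 1 := by
  have e : x * ⁅x, g⁆ * x⁻¹ = ⁅x, g⁆⁻¹ := by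
    have := mem_center_iff.1 hx g
    rw [eq_inv_iff_mul_eq_one, commutatorElement_def]
    calc _ = x ^ 2 * g * x⁻¹ * (g⁻¹ * g) * x⁻¹ * g⁻¹ := by simp only [sq]; group
      _ = 1 := by rw [← this, sq]; group
  refine sq_of_fix hG fun y hy h4 => ?_
  obtain ⟨n, rfl⟩ := hy
  have := mem_center_iff.1 (hc _ h4) x
  have f : x * ⁅x, g⁆ ^ n * x⁻¹ = (⁅x, g⁆ ^ n)⁻¹ := by rw [← conj_zpow, e, inv_zpow]
  change (⁅x, g⁆ ^ n) ^ 2 = 1
  rw [this, mul_inv_cancel_right] at f
  rw [sq]
  exact eq_inv_iff_mul_eq_one.1 f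

theorem index_frattini_two (n : ℕ) (G : Type u) [Group G] [Finite G]
    (hn : Nat.card G = n) (hG : IsPGroup 2 G) (hc : ∀ x : G, x ^ 4 = 1 → x ∈ center G) (W : Subgroup G)
    (hW : ∀ x, x ∈ W ↔ x ^ 2 = 1) : (frattini G).index ≤ ♯W := by
  induction n using Nat.strong_induction_on generalizing G with
  | _ n ih =>
  subst hn
  have p4 : ∀ {K : Type u} [Group K] (x : K), x ^ 4 = (x ^ 2) ^ 2 := fun x => pow_mul x 2 2
  by_cases hF : W ≤ frattini G
  · rcases subsingleton_or_nontrivial G with h0 | h0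
    · rw [Subsingleton.elim (frattini G) ⊤, index_top]; exact card_pos' W
    have wc : W ≤ center G := fun x hx => hc x (by rw [p4, (hW x).1 hx, one_pow])
    haveI : W.Normal := ⟨fun x hx g => by rwa [mem_center_iff.1 (wc hx) g, mul_inv_cancel_right]⟩
    obtain ⟨z, -, -, hz⟩ := PGBasic.exists_mem_center_orderOf hG (M := ⊤) top_ne_bot
    have w1 : W ≠ ⊥ := ne_bot_of_mem ((hW z).2 (hz ▸ pow_orderOf_eq_one z)) fun e =>
      Nat.prime_two.one_lt.ne (by rw [← hz, e, orderOf_one])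
    have k2 : ∀ (q : G ⧸ W) (m : ℕ), q ^ m = 1 → q.out ^ m ∈ W := fun q m hq => by
      rwa [← QuotientGroup.eq_one_iff, QuotientGroup.mk_pow, QuotientGroup.out_eq']
    have hc' : ∀ q : G ⧸ W, q ^ 4 = 1 → q ∈ center (G ⧸ W) := fun q hq => mem_center_iff.2 fun r => by
      have := (QuotientGroup.eq_one_iff _).2 ((hW _).2 (comm_sq hG hc (hc _ (by
        rw [← pow_mul, mul_comm, pow_mul]; exact (hW _).1 (k2 q 4 hq))) r.out))
      rw [commutatorElement_def] at this
      simp only [QuotientGroup.mk_mul, QuotientGroup.mk_inv, QuotientGroup.out_eq'] at this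
      exact (commutatorElement_eq_one_iff_mul_comm.1 this).symm
    obtain ⟨W', hW'⟩ := exists_om (p := 2) fun q hq => hc' q (by rw [p4, hq, one_pow])
    have a1 := ih _ (by
      have := W.card_mul_index
      have h1 := (one_lt_card_iff_ne_bot W).2 w1
      have h3 : 0 < W.index := Nat.pos_of_ne_zero index_ne_zero_of_finite
      change W.index < _
      nlinarith) (G ⧸ W) rfl (hG.to_quotient W) hc' W' hW'
    rw [← index_comap_of_surjective _ (QuotientGroup.mk'_surjective W),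
      PGFrattini.comap_frattini_of_surjective hG _ (QuotientGroup.mk'_surjective W), QuotientGroup.ker_mk',
      sup_eq_left.2 hF] at a1
    refine a1.trans (Nat.card_le_card_of_injective
      (fun q : W' => (⟨q.1.out ^ 2, k2 _ 2 ((hW' _).1 q.2)⟩ : W)) fun q q' h => Subtype.ext ?_)
    have b1 : q.1.out ^ 2 = q'.1.out ^ 2 := congrArg Subtype.val h
    have b2 : q'.1.out ∈ center G := hc _ (by rw [p4]; exact (hW _).1 (k2 _ 2 ((hW' _).1 q'.2)))
    rw [← q.1.out_eq, ← q'.1.out_eq]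
    refine QuotientGroup.eq.2 ((hW _).2 ?_)
    rw [(PGClassTwo.commute_of_mem_center b2 _).mul_pow, inv_pow, b1, inv_mul_cancel]
  · obtain ⟨z, hz, hz'⟩ := SetLike.not_le_iff_exists.1 hF
    obtain ⟨M, hM, hzM⟩ : ∃ M : Subgroup G, IsCoatom M ∧ z ∉ M := by
      by_contra h
      exact hz' (PGFrattini.mem_frattini_iff.2 fun M hM => by_contra fun h' => h ⟨M, hM, h'⟩)
    have a1 := ih _ ((card_lt_of_lt hM.1.lt_top).trans_eq card_top) M rfl (hG.to_subgroup M)
      (fun x hx => mem_center_iff.2 fun g => Subtype.ext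
        (mem_center_iff.1 (hc x (congrArg Subtype.val hx)) g)) (W.subgroupOf M)
      fun x => by rw [mem_subgroupOf, hW, ← Subgroup.coe_pow, OneMemClass.coe_eq_one]
    have a2 : ♯(W.subgroupOf M) = ♯(W ⊓ M) := by
      rw [← subgroupOf_map_subtype, card_map_of_injective M.subtype_injective]
    have a3 : ♯(W ⊓ M) * 2 ≤ ♯W := PGBasic.card_mul_le_of_lt (hG.to_subgroup W)
      (inf_le_left.lt_of_ne fun e => hzM (e.ge hz).2)
    have a4 := index_map_subtype (frattini M)
    rw [PGBasic.index_eq_of_isCoatom hG hM] at a4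
    calc (frattini G).index ≤ ((frattini M).map M.subtype).index :=
          Nat.le_of_dvd (Nat.pos_of_ne_zero index_ne_zero_of_finite)
            (index_dvd_of_le (PGFrattini.map_frattini_le_frattini hG M))
      _ ≤ ♯(W ⊓ M) * 2 := by rw [a4, ← a2]; exact Nat.mul_le_mul_right _ a1
      _ ≤ _ := a3

variable {G : Type*} [Group G] {H N D W U : Subgroup G}

theorem cm (h : ∀ x ∈ H, x ^ 2 ∈ N) {x y : G} (a : x ∈ H) (b : y ∈ H) : x * y * x⁻¹ * y⁻¹ ∈ N := by
  have := mul_mem (mul_mem (h x a) (h _ (mul_mem (inv_mem a) b))) (h _ (inv_mem b))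
  convert this using 1
  simp only [sq]; group

theorem cm' (h : ∀ x ∈ H, x ^ 2 ∈ N) : ⁅H, H⁆ ≤ N := commutator_le.2 fun _ a _ b => cm h a b

theorem cen [Finite G] (hG : IsPGroup 2 G) (al : ∀ x ∈ 𝓒(W), x ^ 4 = 1 → x ∈ W)
    (hU : ∀ x ∈ W, x ^ 2 = 1 → x ∈ U) (hU' : ∀ x ∈ U, x ^ 2 = 1) (hD : D ≤ 𝓒(W)) (h : ∀ x ∈ D, x ^ 2 ∈ N) :
    N.relIndex D ≤ ♯U := by
  have h2 := index_frattini_two _ D rfl (hG.to_subgroup D)
    (fun x hx => mem_center_iff.2 fun g => Subtype.ext
      (mem_cent.1 (hD g.2) x (al x (hD x.2) (congrArg Subtype.val hx))).symm) (U.subgroupOf D)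
    fun x => ⟨fun h => Subtype.ext (hU' x h), fun h => by
      have e : (x : G) ^ 2 = 1 := congrArg Subtype.val h
      exact hU x (al x (hD x.2) (by rw [show 4 = 2 * 2 from rfl, pow_mul, e, one_pow])) e⟩
  have h3 : ♯(U.subgroupOf D) ≤ ♯U := by
    rw [← card_map_of_injective D.subtype_injective, subgroupOf_map_subtype]
    exact card_le_of_le' inf_le_left
  have e : (Phi D).relIndex D = (frattini D).index := by
    rw [Phi, relIndex, subgroupOf, comap_map_eq_self_of_injective D.subtype_injective]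
  exact (relIndex_le_of_le_left (Phi_le_of Nat.prime_two (isPi_of_isPGroup Nat.prime_two (hG.to_subgroup D))
    (cm' h) h) (relIndex_ne_zero' _ _)).trans (e.trans_le (h2.trans h3))

theorem inf_le_of [Finite G] {P : Subgroup G} (h1 : (P ⊓ N).relIndex D ≤ 4) (h2 : 3 ≤ N.relIndex D) : N ⊓ D ≤ P := by
  rw [← relIndex_inf_mul_relIndex] at h1
  have := relIndex_ne_zero' P (N ⊓ D)
  refine relIndex_eq_one.1 (by_contra fun k => ?_)
  have : 2 ≤ P.relIndex (N ⊓ D) := by omega
  nlinarith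

end CA.FusMw
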