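import Cfsg.Agent.Lib.Fus.FusMw

/-!
MacWilliams' four generator theorem, part 2: a normal `C₄ × C₄` containing the elements of order four of its
centralizer.
-/

set_option autoImplicit false
set_option linter.unusedSectionVars false
set_option linter.style.haveILetI false

namespace CA.FusMw

open Subgroup Cfsg CA.OQuo CA.BG CA.BG4 CA.FusPat
open scoped commutatorElement

variable {G : Type*} [Group G]

/-- coordinates on a normal `C₄ × C₄` -/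
structure C0 (W : Subgroup G) (σ : V → G) (π : G → V) : Prop where
  hG : IsPGroup 2 G
  nW : W.Normal
  cW : W ≤ 𝓒(W)
  al : ∀ x ∈ 𝓒(W), x ^ 4 = 1 → x ∈ W
  sq : ∀ w ∈ W, σ (π w) = w ^ 2
  add : ∀ v v', σ (v + v') = σ v * σ v'
  inj : Function.Injective σ
  sur : ∀ v, ∃ w ∈ W, π w = v
  inv : ∀ w ∈ W, w ^ 2 = 1 → ∃ v, σ v = w
  no8 : ∀ A : Subgroup G, A.Normal → IsMulCommutative A → (∀ a ∈ A, a ^ 2 = 1) → Nat.card A ≤ 4

namespace C0
variable {W : Subgroup G} {σ : V → G} {π : G → V} (c : C0 W σ π)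
include c

theorem z0 : σ 0 = 1 := by have := c.add 0 0; rw [add_zero] at this; exact left_eq_mul.1 this
theorem eq0 {v : V} (h : σ v = 1) : v = 0 := c.inj (h.trans c.z0.symm)
theorem ss (v : V) : σ v * σ v = 1 := by rw [← c.add, v_add_self, c.z0]
theorem s2 (v : V) : σ v ^ 2 = 1 := by rw [pow_two, c.ss]
theorem sinv (v : V) : (σ v)⁻¹ = σ v := inv_eq_of_mul_eq_one_right (c.ss v)
theorem sW (v : V) : σ v ∈ W := by obtain ⟨w, hw, rfl⟩ := c.sur v; rw [c.sq w hw]; exact pow_mem hw 2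
theorem com {x w : G} (hx : x ∈ 𝓒(W)) (hw : w ∈ W) : Commute x w := (mem_cent.1 hx w hw).symm
theorem pmul {w w' : G} (h : w ∈ W) (h' : w' ∈ W) : π (w * w') = π w + π w' :=
  c.inj (by rw [c.add, c.sq _ h, c.sq _ h', c.sq _ (mul_mem h h'), (c.com (c.cW h) h').mul_pow])
theorem ps (v : V) : π (σ v) = 0 := c.eq0 (by rw [c.sq _ (c.sW v), c.s2])
theorem p1 : π 1 = 0 := c.z0 ▸ c.ps 0
theorem pinv {w : G} (h : w ∈ W) : π w⁻¹ = π w := by
  have := c.pmul (inv_mem h) h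
  rw [inv_mul_cancel, c.p1] at this
  rw [← add_zero (π w⁻¹), ← v_add_self (π w), ← add_assoc, ← this, zero_add]
theorem of_p0 {w : G} (h : w ∈ W) (h0 : π w = 0) : ∃ v, σ v = w := c.inv w h (by rw [← c.sq w h, h0, c.z0])

/-- the involutions of `W` -/
def U : Subgroup G where
  carrier := Set.range σ
  mul_mem' := by rintro _ _ ⟨v, rfl⟩ ⟨v', rfl⟩; exact ⟨_, c.add v v'⟩
  one_mem' := ⟨0, c.z0⟩
  inv_mem' := by rintro _ ⟨v, rfl⟩; exact ⟨v, (c.sinv v).symm⟩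

theorem card_U : ♯c.U = 4 := (Nat.card_range_of_injective c.inj).trans (by simp)

theorem exists_R (g : G) : ∃ R : Mx, ∀ v, g * σ v * g⁻¹ = σ (app R v) := by
  choose f hf using fun v => c.inv (g * σ v * g⁻¹) (c.nW.conj_mem _ (c.sW v) g) (by rw [conj_pow, c.s2]; simp)
  have : ∀ v w, f (v + w) = f v + f w := fun v w => c.inj (by rw [c.add, hf, hf, hf, c.add]; group)
  exact ⟨mat f, fun v => by rw [app_mat this, hf]⟩

theorem exists_A (t : G) : ∃ A : Mx, t ∈ 𝓒(c.U) → ∀ w ∈ W, t * w * t⁻¹ = w * σ (app A (π w)) := by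
  by_cases ht : t ∈ 𝓒(c.U)
  swap
  · exact ⟨0, fun h => (ht h).elim⟩
  have hs : ∀ v, σ v * t = t * σ v := fun v => mem_cent.1 ht _ ⟨v, rfl⟩
  choose w hw e using c.sur
  have k : ∀ v, ∃ u, σ u = (w v)⁻¹ * (t * w v * t⁻¹) := fun v => c.inv _
    (mul_mem (inv_mem (hw v)) (c.nW.conj_mem _ (hw v) t)) (by
      rw [(c.com (c.cW (inv_mem (hw v))) (c.nW.conj_mem _ (hw v) t)).mul_pow, conj_pow, inv_pow, ← c.sq _ (hw v), ← hs]
      group)
  choose f hf using k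
  have k2 : ∀ x ∈ W, t * x * t⁻¹ = x * σ (f (π x)) := fun x hx => by
    obtain ⟨u, hu⟩ := c.of_p0 (mul_mem (inv_mem (hw (π x))) hx) (by
      rw [c.pmul (inv_mem (hw _)) hx, c.pinv (hw _), e, v_add_self])
    have e1 : x = w (π x) * σ u := by rw [hu, mul_inv_cancel_left]
    generalize π x = v at e1
    rw [e1, mul_assoc (w v), (c.com (c.cW (c.sW u)) (c.sW _)).eq, hf, ← mul_assoc t, mul_assoc _ (σ u),
      show σ u * t⁻¹ = t⁻¹ * σ u from (Commute.inv_right (hs u)).eq]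
    group
  suffices ∀ v v', f (v + v') = f v + f v' from ⟨mat f, fun _ x hx => by rw [app_mat this, k2 x hx]⟩
  refine fun v v' => c.inj ?_
  have a := k2 _ (mul_mem (hw v) (hw v'))
  rw [c.pmul (hw v) (hw v'), e, e, show t * (w v * w v') * t⁻¹ = t * w v * t⁻¹ * (t * w v' * t⁻¹) by group,
    k2 _ (hw v), k2 _ (hw v'), e, e, mul_assoc, ← mul_assoc (σ _), (c.com (c.cW (c.sW _)) (hw v')).eq,
    mul_assoc (w v'), ← mul_assoc] at a
  rw [c.add, mul_left_cancel a]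

end C0

/-- coordinates together with the matrices of the action -/
structure Cx (W : Subgroup G) (σ : V → G) (π : G → V) (R A : G → Mx) (l : V) : Prop extends C0 W σ π where
  hR : ∀ g v, g * σ v * g⁻¹ = σ (app (R g) v)
  hA : ∀ t ∈ 𝓒(toC0.U), ∀ w ∈ W, t * w * t⁻¹ = w * σ (app (A t) (π w))
  l0 : l ≠ 0
  hl : σ l ∈ center G

theorem C0.exists_Cx [Finite G] {W : Subgroup G} {σ : V → G} {π : G → V} (c : C0 W σ π) :
    ∃ R A l, Cx W σ π R A l := by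
  choose R hR using c.exists_R
  choose A hA using c.exists_A
  haveI : c.U.Normal := ⟨by rintro _ ⟨v, rfl⟩ g; exact ⟨_, (hR g v).symm⟩⟩
  obtain ⟨_, ⟨l, rfl⟩, h1, h2⟩ := PGBasic.exists_mem_center_orderOf c.hG (M := c.U) fun e => by
    have := c.card_U; rw [e, card_bot] at this; omega
  exact ⟨R, A, l, c, hR, hA, fun e => by rw [e, c.z0, orderOf_one] at h2; omega, h1⟩

namespace Cx
variable {W : Subgroup G} {σ : V → G} {π : G → V} {R A : G → Mx} {l : V} (c : Cx W σ π R A l) {t t' g x w h : G}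

/-- the centralizer of the involutions -/
abbrev T : Subgroup G := 𝓒(c.U)

include c

theorem ts (ht : t ∈ c.T) (v : V) : σ v * t = t * σ v := mem_cent.1 ht _ ⟨v, rfl⟩
theorem memT (h : ∀ v, σ v * t = t * σ v) : t ∈ c.T := mem_cent.2 (by rintro _ ⟨v, rfl⟩; exact h v)
theorem CT : 𝓒(W) ≤ c.T := fun _ hx => c.memT fun v => (c.com hx (c.sW v)).eq.symm
theorem WT : W ≤ c.T := c.cW.trans c.CT
theorem nU : c.U.Normal := ⟨by rintro _ ⟨v, rfl⟩ g; exact ⟨_, (c.hR g v).symm⟩⟩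
theorem nT : c.T.Normal := by haveI := c.nU; infer_instance

theorem R_iv (g : G) : Iv (R g) := fun v h => c.eq0 (by
  have := c.hR g v
  rw [h, c.z0] at this
  exact conj_eq_one_iff.1 this)

theorem R_one : R g = one ↔ g ∈ c.T :=
  ⟨fun e => c.memT fun v => by have := c.hR g v; rw [e, app_one] at this; exact (mul_inv_eq_iff_eq_mul.1 this).symm,
    fun e => mx_ext _ _ fun v => c.inj (by rw [← c.hR, app_one, ← c.ts e, mul_inv_cancel_right])⟩

theorem R_or (g : G) : g ∈ c.T ∨ R g = tv l :=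
  (tv2 l c.l0 _ (c.R_iv g) (c.inj (by rw [← c.hR, mem_center_iff.1 c.hl g, mul_inv_cancel_right]))).imp_left c.R_one.1

theorem mulT (hx : x ∉ c.T) (hg : g ∉ c.T) : x * g ∈ c.T := c.memT fun v => by
  have a : x * g * σ v * (x * g)⁻¹ = x * (g * σ v * g⁻¹) * x⁻¹ := by group
  rw [c.hR g, c.hR x, (c.R_or x).resolve_left hx, (c.R_or g).resolve_left hg, (tv1 l c.l0).2.2.1] at a
  exact (mul_inv_eq_iff_eq_mul.1 a).symm

theorem p_conj (g : G) (hw : w ∈ W) : π (g * w * g⁻¹) = app (R g) (π w) :=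
  c.inj (by rw [c.sq _ (c.nW.conj_mem _ hw g), ← c.hR, c.sq _ hw, conj_pow])

theorem A_ext {X : Mx} (ht : t ∈ c.T) (h : ∀ w ∈ W, t * w * t⁻¹ = w * σ (app X (π w))) : A t = X :=
  mx_ext _ _ fun v => by
    obtain ⟨w, hw, rfl⟩ := c.sur v
    exact c.inj (mul_left_cancel ((c.hA t ht w hw).symm.trans (h w hw)))

theorem A_mul (ht : t ∈ c.T) (ht' : t' ∈ c.T) : A (t * t') = A t + A t' := c.A_ext (mul_mem ht ht') fun w hw => by
  rw [show t * t' * w * (t * t')⁻¹ = t * (t' * w * t'⁻¹) * t⁻¹ by group, c.hA t' ht' w hw, app_add, c.add,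
    ← mul_assoc w, ← c.hA t ht w hw, ← mul_assoc t, mul_assoc _ (σ _), c.ts (inv_mem ht), ← mul_assoc]

theorem A_zero (ht : t ∈ c.T) : A t = 0 ↔ t ∈ 𝓒(W) :=
  ⟨fun e => mem_cent.2 fun w hw => by
    have := c.hA t ht w hw
    rw [e, app_zero, c.z0, mul_one] at this
    exact (mul_inv_eq_iff_eq_mul.1 this).symm,
  fun e => c.A_ext ht fun w hw => by rw [app_zero, c.z0, mul_one, (c.com e hw).eq, mul_inv_cancel_right]⟩

theorem A_inv (ht : t ∈ c.T) : A t⁻¹ = A t := by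
  have := c.A_mul (inv_mem ht) ht
  rw [inv_mul_cancel, (c.A_zero (one_mem _)).2 (one_mem _)] at this
  rw [← add_zero (A t⁻¹), ← m_add_self (A t), ← add_assoc, ← this, zero_add]

theorem A_mulC (ht : t ∈ c.T) (hx : x ∈ 𝓒(W)) : A (t * x) = A t := by
  rw [c.A_mul ht (c.CT hx), (c.A_zero (c.CT hx)).2 hx, add_zero]

theorem memC (ht : t ∈ c.T) (ht' : t' ∈ c.T) (h : A t = A t') : t⁻¹ * t' ∈ 𝓒(W) :=
  (c.A_zero (mul_mem (inv_mem ht) ht')).1 (by rw [c.A_mul (inv_mem ht) ht', c.A_inv ht, h, m_add_self])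

theorem sqC (ht : t ∈ c.T) : t ^ 2 ∈ 𝓒(W) :=
  (c.A_zero (pow_mem ht 2)).1 (by rw [pow_two, c.A_mul ht ht, m_add_self])

theorem A_conj (g : G) (ht : t ∈ c.T) (v : V) : app (A (g * t * g⁻¹)) (app (R g) v) = app (R g) (app (A t) v) := by
  obtain ⟨w, hw, rfl⟩ := c.sur v
  have a := c.hA _ (c.nT.conj_mem _ ht g) _ (c.nW.conj_mem _ hw g)
  rw [show g * t * g⁻¹ * (g * w * g⁻¹) * (g * t * g⁻¹)⁻¹ = g * (t * w * t⁻¹) * g⁻¹ by group, c.hA t ht w hw,
    c.p_conj g hw, show ∀ y, g * (w * y) * g⁻¹ = g * w * g⁻¹ * (g * y * g⁻¹) from fun y => by group, c.hR] at a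
  exact (c.inj (mul_left_cancel a)).symm

theorem A_conjT (hg : g ∈ c.T) (ht : t ∈ c.T) : A (g * t * g⁻¹) = A t := mx_ext _ _ fun v => by
  have := c.A_conj g ht v
  rwa [c.R_one.2 hg, app_one, app_one] at this

theorem A_conjS (hg : g ∉ c.T) (ht : t ∈ c.T) : A (g * t * g⁻¹) = cg (tv l) (A t) := mx_ext _ _ fun v => by
  have := c.A_conj g ht (app (tv l) v)
  rwa [(c.R_or g).resolve_left hg, (tv1 l c.l0).2.2.1, ← app_cg] at this

theorem A_fix (ht : t ∈ c.T) (h : cg (tv l) (A t) = A t) (g : G) : A (g * t * g⁻¹) = A t := by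
  by_cases hg : g ∈ c.T
  · exact c.A_conjT hg ht
  · rw [c.A_conjS hg ht, h]

theorem mul_sq (x y : G) : (x * y) ^ 2 = x * y * x⁻¹ * x ^ 2 * y := by simp only [pow_two]; group

theorem sq_mulW (ht : t ∈ c.T) (hw : w ∈ W) : (t * w) ^ 2 = t ^ 2 * σ (app (one + A t) (π w)) := by
  rw [c.mul_sq, c.hA t ht w hw, app_add, app_one, c.add, c.sq w hw, mul_assoc w, c.ts (pow_mem ht 2),
    ← mul_assoc w, ← (c.com (c.sqC ht) hw).eq, mul_assoc _ (σ _), c.ts (c.WT hw), pow_two w]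
  group

theorem sq_iv (ht : t ∈ c.T) (h : Iv (A t)) : ∃ v, σ v = t ^ 2 := by
  have a : (t ^ 2) ^ 2 = 1 := sq_of_fix c.hG fun y hy h4 => by
    have y1 := c.al y (zpowers_le.2 (c.sqC ht) hy) h4
    have y2 := c.hA t ht y y1
    obtain ⟨n, rfl⟩ := hy
    rw [(((Commute.refl t).pow_right 2).zpow_right n).eq, mul_inv_cancel_right, left_eq_mul] at y2
    rw [← c.sq _ y1, h _ (c.eq0 y2), c.z0]
  exact c.inv _ (c.al _ (c.sqC ht) (by rw [show 4 = 2 * 2 from rfl, pow_mul, a, one_pow])) a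

theorem inverts (ht : t ∈ c.T) (h : Iv (A t)) (hx : x ∈ 𝓒(W)) : ∃ v, t * x * t⁻¹ = x⁻¹ * σ v := by
  obtain ⟨v, hv⟩ := c.sq_iv ht h
  obtain ⟨v', hv'⟩ := c.sq_iv (mul_mem ht (c.CT hx)) (by rwa [c.A_mulC ht hx])
  rw [c.mul_sq, ← hv] at hv'
  refine ⟨v' + v, ?_⟩
  rw [c.add, ← mul_assoc, ← c.ts (inv_mem (c.CT hx)), hv', mul_inv_cancel_right, mul_assoc _ (σ v), c.ss, mul_one]

theorem lemP [Finite G] (hh : h ∈ c.T) (h0 : A h ≠ 0) (h1 : Iv (one + A h)) (h2 : ∀ g, A (g * h * g⁻¹) = A h)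
    (h3 : ∀ x ∈ c.T, A x = A h → ∀ d ∈ 𝓒(W), ∃ v, x * d * x⁻¹ = d * σ v) {d : G} (hd : d ∈ 𝓒(W)) {v : V}
    (h4 : h ^ 2 = d ^ 2 * σ v) : False := by
  obtain ⟨x, x1, x2, x3⟩ : ∃ x ∈ c.T, A x = A h ∧ x ^ 2 = 1 := by
    obtain ⟨v1, e1⟩ := h3 h hh rfl d⁻¹ (inv_mem hd)
    have dT := c.CT hd
    have e2 : (h * d⁻¹) ^ 2 = σ (v1 + v) := by
      rw [c.mul_sq, e1, h4, c.add, ← c.ts (inv_mem dT), ← c.ts (pow_mem dT 2), mul_assoc (σ v1), ← mul_assoc d⁻¹,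
        ← c.ts (inv_mem dT), pow_two]
      group
    obtain ⟨u, hu⟩ := iv_sur _ h1 (v1 + v)
    obtain ⟨w, hw, rfl⟩ := c.sur u
    have y1 := mul_mem hh (inv_mem dT)
    have y2 := c.A_mulC hh (inv_mem hd)
    exact ⟨_, mul_mem y1 (c.WT hw), by rw [c.A_mulC y1 (c.cW hw), y2], by rw [c.sq_mulW y1 hw, e2, y2, hu, c.ss]⟩
  have k : ∀ g, ∃ v, g * x * g⁻¹ = x * σ v := fun g => by
    have g1 := c.nT.conj_mem _ x1 g
    have g2 : A (g * x * g⁻¹) = A x := by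
      have a := c.memC hh x1 x2.symm
      rw [show g * x * g⁻¹ = g * h * g⁻¹ * (g * (h⁻¹ * x) * g⁻¹) by group, c.A_mulC (c.nT.conj_mem _ hh g)
        (haveI := c.nW; Normal.conj_mem inferInstance _ a g), h2, x2]
    have a := c.memC x1 g1 g2.symm
    obtain ⟨y, hy⟩ : ∃ y, y = x⁻¹ * (g * x * g⁻¹) := ⟨_, rfl⟩
    rw [← hy] at a
    have b : (x * y) ^ 2 = 1 := by rw [hy, mul_inv_cancel_left, conj_pow, x3]; simp
    obtain ⟨v1, e1⟩ := h3 x x1 x2 y a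
    have b2 := b
    rw [c.mul_sq, e1, x3, mul_one, mul_assoc, c.ts (c.CT a), ← mul_assoc, mul_eq_one_iff_eq_inv, c.sinv, ← pow_two] at b2
    have yW := c.al y a (by rw [show 4 = 2 * 2 from rfl, pow_mul, b2, c.s2])
    rw [c.sq_mulW x1 yW, x3, one_mul, x2] at b
    obtain ⟨v2, e2⟩ := c.of_p0 yW (h1 _ (c.eq0 b))
    exact ⟨v2, by rw [e2, hy, mul_inv_cancel_left]⟩
  have xx : x * x = 1 := by rw [← pow_two, x3]
  let E : Subgroup G :=
    { carrier := {y | ∃ v, y = σ v ∨ y = x * σ v}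
      mul_mem' := by
        rintro _ _ ⟨v, rfl | rfl⟩ ⟨v', rfl | rfl⟩ <;> refine ⟨v + v', ?_⟩ <;> rw [c.add]
        · exact .inl rfl
        · exact .inr (by rw [← mul_assoc, c.ts x1, mul_assoc])
        · exact .inr (mul_assoc _ _ _)
        · exact .inl (by rw [← mul_assoc, mul_assoc x, c.ts x1, ← mul_assoc x, xx, one_mul])
      one_mem' := ⟨0, .inl c.z0.symm⟩
      inv_mem' := by
        rintro _ ⟨v, rfl | rfl⟩
        · exact ⟨v, .inl (c.sinv v)⟩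
        · exact ⟨v, .inr (by rw [mul_inv_rev, c.sinv, inv_eq_of_mul_eq_one_right xx, c.ts x1])⟩ }
  have e2 : ∀ a ∈ E, a ^ 2 = 1 := by
    rintro _ ⟨v, rfl | rfl⟩
    · exact c.s2 v
    · rw [(Commute.symm (c.ts x1 v)).mul_pow, x3, c.s2, one_mul]
  have n : E.Normal := ⟨by
    rintro _ ⟨v, rfl | rfl⟩ g
    · exact ⟨_, .inl (c.hR g v)⟩
    · obtain ⟨v', e⟩ := k g
      exact ⟨v' + app (R g) v, .inr (by rw [c.add, ← c.hR, ← mul_assoc x, ← e]; group)⟩⟩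
  have := c.no8 E n ⟨⟨fun a b => Subtype.ext (H7SR.comm_of_sq (e2 _ a.2) (e2 _ b.2) (e2 _ (mul_mem a.2 b.2)))⟩⟩ e2
  have lt : c.U < E := lt_of_le_of_ne (by rintro _ ⟨v, rfl⟩; exact ⟨v, .inl rfl⟩) fun e => by
    obtain ⟨v, hv⟩ : x ∈ c.U := e ▸ ⟨0, .inr (by rw [c.z0, mul_one])⟩
    exact h0 (x2 ▸ (c.A_zero x1).2 (hv ▸ c.cW (c.sW v)))
  have := card_lt_of_lt lt
  rw [c.card_U] at this
  omega

end Cx

end CA.FusMw
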