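import Cfsg.Agent.Lib.Fus.FusMw2

/-!
MacWilliams' four generator theorem, part 3.
-/

set_option autoImplicit false
set_option linter.unusedSectionVars false
set_option linter.style.haveILetI false

namespace CA.FusMw

open Subgroup Cfsg CA.OQuo CA.BG CA.BG4 CA.FusPat
open scoped commutatorElement

variable {G : Type*} [Group G] [Finite G]

theorem v_tri : ∀ a b c x y z u : V, a + (b + c) + u = x → a + b + y = z → ∀ s t : V, a + c + s = t →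
    x = z + t + u + a + y + s := by decide +kernel

namespace Cx
variable {W : Subgroup G} {σ : V → G} {π : G → V} {R A : G → Mx} {l : V} (c : Cx W σ π R A l) {t t' g x y z w h j : G}
  {H F : Subgroup G}
include c

/-- the matrix of an element, as a homomorphism -/
def Ah : c.T →* Multiplicative Mx :=
  MonoidHom.mk' (fun t => Multiplicative.ofAdd (A t)) fun a b => by rw [← ofAdd_add, ← c.A_mul a.2 b.2]; rfl

/-- the matrices of a subgroup -/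
def im (H : Subgroup G) : Subgroup (Multiplicative Mx) := (H.subgroupOf c.T).map c.Ah

theorem mem_im {X : Mx} : Multiplicative.ofAdd X ∈ c.im H ↔ ∃ x ∈ H, x ∈ c.T ∧ A x = X :=
  ⟨fun ⟨x, a, b⟩ => ⟨x, a, x.2, Multiplicative.ofAdd.injective b⟩, fun ⟨x, a, b, e⟩ => ⟨⟨x, b⟩, a, congrArg Multiplicative.ofAdd e⟩⟩

theorem rel_im (hH : H ≤ c.T) : 𝓒(W).relIndex H = ♯(c.im H) := by
  have : c.Ah.ker = 𝓒(W).subgroupOf c.T := by
    ext x
    rw [mem_subgroupOf, ← c.A_zero x.2, MonoidHom.mem_ker]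
    exact ofAdd_eq_one
  rw [im, ← relIndex_ker, this, relIndex_subgroupOf hH]

theorem cen4 {D : Subgroup G} (hD : D ≤ 𝓒(W)) (h : ∀ x ∈ D, x ^ 2 ∈ F) : F.relIndex D ≤ 4 :=
  c.card_U ▸ cen c.hG c.al (fun x a b => c.inv x a b) (by rintro _ ⟨v, rfl⟩; exact c.s2 v) hD h

theorem lemQ (hF : ∀ x ∈ H, x ^ 2 ∈ F) (j1 : j ∈ H) (j2 : j ∈ c.T) (j3 : A j = one) (t1 : t ∈ H) (t2 : t ∈ c.T)
    (t3 : Iv (A t)) (t4 : A t ≠ one) (t5 : ∀ g, A (g * t * g⁻¹) = A t) (h3 : 3 ≤ F.relIndex (H ⊓ 𝓒(W))) : False := by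
  have ji : Iv (A j) := j3 ▸ iv_one
  have cm : ∀ d ∈ 𝓒(W), ∀ e ∈ 𝓒(W), ∃ v, e * d = d * e * σ v := fun d hd e he => by
    obtain ⟨v0, e0⟩ := c.inverts j2 ji (mul_mem (inv_mem hd) (inv_mem he))
    obtain ⟨v1, e1⟩ := c.inverts j2 ji (inv_mem hd)
    obtain ⟨v2, e2⟩ := c.inverts j2 ji (inv_mem he)
    rw [show j * (d⁻¹ * e⁻¹) * j⁻¹ = j * d⁻¹ * j⁻¹ * (j * e⁻¹ * j⁻¹) by group, e1, e2, mul_inv_rev, inv_inv,
      inv_inv] at e0
    refine ⟨v1 + v2 + v0, ?_⟩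
    rw [c.add, c.add, ← mul_assoc, ← mul_assoc, mul_assoc d, ← c.ts (c.CT he), ← mul_assoc, mul_assoc _ e, e0,
      mul_assoc, c.ss, mul_one]
  let P : Subgroup G :=
    { carrier := {y | ∃ d ∈ 𝓒(W), ∃ v, y = d ^ 2 * σ v}
      mul_mem' := by
        rintro _ _ ⟨d, hd, v, rfl⟩ ⟨e, he, v', rfl⟩
        obtain ⟨u, hu⟩ := cm d hd e he
        refine ⟨d * e, mul_mem hd he, u + (v + v'), ?_⟩
        rw [show (d * e) ^ 2 = d * (e * d) * e by simp only [pow_two, mul_assoc], hu, c.add, c.add, mul_assoc _ (σ v),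
          ← mul_assoc (σ v), c.ts (pow_mem (c.CT he) 2), ← mul_assoc d, mul_assoc _ (σ u), c.ts (c.CT he),
          ← mul_assoc _ e, mul_assoc _ (σ u), ← mul_assoc (σ u), c.ss, one_mul]
        simp only [pow_two, mul_assoc]
      one_mem' := ⟨1, one_mem _, 0, by rw [c.z0]; simp⟩
      inv_mem' := by
        rintro _ ⟨d, hd, v, rfl⟩
        exact ⟨d⁻¹, inv_mem hd, v, by rw [mul_inv_rev, c.sinv, ← inv_pow, c.ts (pow_mem (inv_mem (c.CT hd)) 2)]⟩ }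
  have hT := mul_mem j2 t2
  obtain ⟨d, hd, v, e⟩ : (j * t) ^ 2 ∈ P := inf_le_of (c.cen4 (F := P ⊓ F) inf_le_right fun x hx =>
    ⟨⟨x, hx.2, 0, by rw [c.z0, mul_one]⟩, hF x hx.1⟩) h3
    ⟨hF _ (mul_mem j1 t1), pow_mem (mul_mem j1 t1) 2, c.sqC hT⟩
  have a : A (j * t) = one + A t := by rw [c.A_mul j2 t2, j3]
  have b : one + A (j * t) = A t := by rw [a, ← add_assoc, m_add_self, zero_add]
  refine c.lemP hT (fun k => t4 (by rw [← b, k, add_zero])) (b ▸ t3) (fun g => ?_) (fun x x1 x2 d hd => ?_) hd e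
  · rw [show g * (j * t) * g⁻¹ = g * j * g⁻¹ * (g * t * g⁻¹) by group,
      c.A_mul (c.nT.conj_mem _ j2 g) (c.nT.conj_mem _ t2 g), t5, c.A_fix j2 (by rw [j3, (cg1 l c.l0).1]), a, j3]
  · have y1 := mul_mem x1 (inv_mem t2)
    have y2 : A (x * t⁻¹) = one := by rw [c.A_mul x1 (inv_mem t2), c.A_inv t2, x2, a, add_assoc, m_add_self, add_zero]
    obtain ⟨v1, e1⟩ := c.inverts t2 t3 hd
    obtain ⟨v2, e2⟩ := c.inverts y1 (y2 ▸ iv_one) (inv_mem hd)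
    refine ⟨v2 + v1, ?_⟩
    rw [show x * d * x⁻¹ = x * t⁻¹ * (t * d * t⁻¹) * (x * t⁻¹)⁻¹ by group, e1, ← mul_assoc, mul_assoc _ (σ v1),
      c.ts (inv_mem y1), ← mul_assoc, e2, inv_inv, c.add, mul_assoc]

section
variable (hC : 𝓒(W) ≤ W)
include hC

theorem q_eq (ht : t ∈ c.T) (ht' : t' ∈ c.T) (h : A t = A t') : π (t' ^ 2) = π (t ^ 2) := by
  rw [← mul_inv_cancel_left t t', c.sq_mulW ht (hC (c.memC ht ht' h)), c.pmul (hC (c.sqC ht)) (c.sW _), c.ps, add_zero]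

theorem q_ker (ht : t ∈ c.T) : app (A t) (π (t ^ 2)) = 0 := by
  have := c.hA t ht _ (hC (c.sqC ht))
  rw [((Commute.refl t).pow_right 2).eq, mul_inv_cancel_right, left_eq_mul] at this
  exact c.eq0 this

theorem cmW (hx : x ∈ c.T) (hy : y ∈ c.T) : x⁻¹ * y * x * y⁻¹ ∈ W := hC ((c.A_zero
  (mul_mem (mul_mem (mul_mem (inv_mem hx) hy) hx) (inv_mem hy))).1 (by
    rw [c.A_mul (mul_mem (mul_mem (inv_mem hx) hy) hx) (inv_mem hy), c.A_mul (mul_mem (inv_mem hx) hy) hx,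
      c.A_mul (inv_mem hx) hy, c.A_inv hx, c.A_inv hy, add_assoc, m_add_self]))

theorem q_mul (hx : x ∈ c.T) (hy : y ∈ c.T) :
    π (x ^ 2) + π (x⁻¹ * y * x * y⁻¹) + π (y ^ 2) = π ((x * y) ^ 2) := by
  rw [← c.pmul (hC (c.sqC hx)) (c.cmW hC hx hy), ← c.pmul (mul_mem (hC (c.sqC hx)) (c.cmW hC hx hy)) (hC (c.sqC hy))]
  congr 1
  simp only [pow_two]; group

theorem q_tri (hx : x ∈ c.T) (hy : y ∈ c.T) (hz : z ∈ c.T) : π ((x * (y * z)) ^ 2) =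
    π ((x * y) ^ 2) + π ((x * z) ^ 2) + π ((y * z) ^ 2) + π (x ^ 2) + π (y ^ 2) + π (z ^ 2) := by
  refine v_tri _ _ _ _ _ _ _ (Eq.trans ?_ (c.q_mul hC hx (mul_mem hy hz))) (c.q_mul hC hx hy) _ _ (c.q_mul hC hx hz)
  rw [show x⁻¹ * (y * z) * x * (y * z)⁻¹ = x⁻¹ * y * x * y⁻¹ * (y * (x⁻¹ * z * x * z⁻¹) * y⁻¹) by group,
    c.pmul (c.cmW hC hx hy) (c.nW.conj_mem _ (c.cmW hC hx hz) y), c.p_conj y (c.cmW hC hx hz), c.R_one.2 hy, app_one]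

theorem lemP' (hh : h ∈ c.T) (h0 : A h ≠ 0) (h1 : Iv (one + A h)) (h2 : ∀ g, A (g * h * g⁻¹) = A h) :
    π (h ^ 2) ≠ 0 := fun k => by
  obtain ⟨v, e⟩ := c.of_p0 (hC (c.sqC hh)) k
  exact c.lemP hh h0 h1 h2 (fun x x1 _ d hd => ⟨_, c.hA x x1 d (hC hd)⟩) (one_mem _) (v := v) (by rw [e]; simp)

theorem lemN (hh : h ∈ c.T) (e : A h = one + tv l) : π (h ^ 2) ≠ 0 := by
  have b : one + A h = tv l := by rw [e, ← add_assoc, m_add_self, zero_add]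
  exact c.lemP' hC hh (fun k => (tv1 l c.l0).2.1 (by rw [← b, k, add_zero])) (b ▸ (tv1 l c.l0).1)
    (c.A_fix hh (by rw [e, cg_add, (cg1 l c.l0).1, (cg1 l c.l0).2.1]))

theorem caseIa (hH : H ≤ c.T) (h4 : 4 < ♯(c.im H)) (hq : ∀ x ∈ H, π (x ^ 2) = 0) : False := by
  have p := fun X Y => (p2 h4 X Y).imp c.mem_im.1 (Or.imp c.mem_im.1 c.mem_im.1)
  have ad : ∀ {X Y}, (∃ x ∈ H, x ∈ c.T ∧ A x = X) → (∃ x ∈ H, x ∈ c.T ∧ A x = Y) → ∃ x ∈ H, x ∈ c.T ∧ A x = X + Y := by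
    rintro _ _ ⟨x, a, b, rfl⟩ ⟨y, a', b', rfl⟩
    exact ⟨_, mul_mem a a', mul_mem b b', c.A_mul b b'⟩
  by_cases hT : ∀ g, g ∈ c.T
  · obtain ⟨a, b, d, e, f, h1, h2, h3⟩ := s5
    have k : ∀ X ∈ [a, b, d, e, f], ¬ ∃ x ∈ H, x ∈ c.T ∧ A x = X := by
      rintro _ hX ⟨x, x1, x2, rfl⟩
      exact c.lemP' hC x2 (h3 _ hX).1 (h3 _ hX).2 (fun g => c.A_conjT (hT g) x2) (hq x x1)
    refine k f (by simp) (h2 ▸ ad ?_ (h1 ▸ ?_))
    · exact ((p d e).resolve_left (k d (by simp))).resolve_left (k e (by simp))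
    · exact ((p a b).resolve_left (k a (by simp))).resolve_left (k b (by simp))
  obtain ⟨s, hs⟩ := not_forall.1 hT
  have n : ¬ ∃ x ∈ H, x ∈ c.T ∧ A x = one + tv l := fun ⟨x, x1, x2, x3⟩ => c.lemN hC x2 x3 (hq x x1)
  obtain ⟨X, hX⟩ := (cg1 l c.l0).2.2.2.1
  obtain ⟨x, x1, x2, x3⟩ : ∃ x ∈ H, x ∈ c.T ∧ A x + cg (tv l) (A x) = one + tv l := by
    rcases p X (cg (tv l) X) with ⟨x, x1, x2, e⟩ | ⟨x, x1, x2, e⟩ | e
    · exact ⟨x, x1, x2, e ▸ hX⟩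
    · exact ⟨x, x1, x2, by rw [e, (cg2 l c.l0 X).1, add_comm, hX]⟩
    · exact (n (hX ▸ e)).elim
  obtain ⟨k, k1, k2, k3, k4⟩ : ∃ k ∈ H, k ∈ c.T ∧ cg (tv l) (A k) = A k ∧ Iv (A k + (one + tv l)) := by
    rcases p one (tv l) with ⟨x, x1, x2, e⟩ | ⟨x, x1, x2, e⟩ | e
    · exact ⟨x, x1, x2, by rw [e, (cg1 l c.l0).1], by rw [e, ← add_assoc, m_add_self, zero_add]; exact (tv1 l c.l0).1⟩
    · exact ⟨x, x1, x2, by rw [e, (cg1 l c.l0).2.1], by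
        rw [e, add_comm one, ← add_assoc, m_add_self, zero_add]; exact iv_one⟩
    · exact (n e).elim
  have y2 := c.nT.conj_mem _ x2 s
  have qs : ∀ u ∈ H, π ((s * u * s⁻¹) ^ 2) = 0 := fun u hu => by
    rw [conj_pow, c.p_conj s (hC (c.sqC (hH hu))), hq u hu, app_zero']
  have a1 : A (x * (s * x * s⁻¹)) = one + tv l := by rw [c.A_mul x2 y2, c.A_conjS hs x2, x3]
  have a2 := c.q_tri hC k2 x2 y2
  rw [hq _ (mul_mem k1 x1), hq k k1, hq x x1, qs x x1, c.q_eq hC (c.nT.conj_mem _ (mul_mem k2 x2) s) (mul_mem k2 y2) (by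
    rw [c.A_conjS hs (mul_mem k2 x2), c.A_mul k2 x2, cg_add, k3, c.A_mul k2 y2, c.A_conjS hs x2]),
    qs _ (mul_mem k1 x1)] at a2
  simp only [add_zero, zero_add] at a2
  have a3 := c.q_ker hC (mul_mem k2 (mul_mem x2 y2))
  rw [c.A_mul k2 (mul_mem x2 y2), a1] at a3
  exact c.lemN hC (mul_mem x2 y2) a1 (a2 ▸ k4 _ a3)

theorem caseIb (hH : H ≤ c.T) (hB : c.im H = ⊤) (hF : ∀ x ∈ H, x ^ 2 ∈ F) : W ≤ F := by
  have al : ∀ X, ∃ x ∈ H, x ∈ c.T ∧ A x = X := fun X => c.mem_im.1 (hB ▸ mem_top _)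
  by_contra hW
  obtain ⟨h, h1, h2, h3⟩ := al (one + tv l)
  have q0 := c.lemN hC h2 h3
  have hh := hC (c.sqC h2)
  have uF : ∀ v, σ v ∈ F := fun v => by
    obtain ⟨X, hX⟩ := hit _ q0 v
    obtain ⟨x, x1, x2, rfl⟩ := al X
    have := cm hF x1 (pow_mem h1 2)
    rwa [c.hA x x2 _ hh, hX, ← c.ts (pow_mem h2 2), mul_inv_cancel_right] at this
  have k : ∀ x ∈ H, app (A x) (π (h ^ 2)) ≠ 0 → π (x ^ 2) = 0 := fun x hx e => by
    by_contra a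
    have xW := hC (c.sqC (hH hx))
    refine hW fun w hw => ?_
    obtain ⟨f, f1, f2, f3⟩ : ∃ f ∈ F, f ∈ W ∧ π w = π f := by
      rcases span2 _ _ (π w) q0 a (fun b => e (b ▸ c.q_ker hC (hH hx))) with b | b | b | b
      · exact ⟨1, one_mem _, one_mem _, b.trans c.p1.symm⟩
      · exact ⟨_, hF h h1, hh, b⟩
      · exact ⟨_, hF x hx, xW, b⟩
      · exact ⟨_, mul_mem (hF h h1) (hF x hx), mul_mem hh xW, b.trans (c.pmul hh xW).symm⟩
    obtain ⟨v, hv⟩ := c.of_p0 (mul_mem (inv_mem f2) hw) (by rw [c.pmul (inv_mem f2) hw, c.pinv f2, f3, v_add_self])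
    rw [← mul_inv_cancel_left f w, ← hv]
    exact mul_mem f1 (uF v)
  obtain ⟨X, Y, e1, e2, e3, e4, e5, e6, e7⟩ := tri6 _ _ q0 (c.q_ker hC h2)
  obtain ⟨x, x1, x2, rfl⟩ := al X
  obtain ⟨y, y1, y2, rfl⟩ := al Y
  obtain ⟨z, z1, z2, z3⟩ := al (A x + A y + A h)
  rw [← z3] at e3 e5 e6 e7
  have := c.q_tri hC x2 y2 z2
  rw [k x x1 e1, k y y1 e2, k z z1 e3, k _ (mul_mem x1 y1) (by rwa [c.A_mul x2 y2]),
    k _ (mul_mem x1 z1) (by rwa [c.A_mul x2 z2]), k _ (mul_mem y1 z1) (by rwa [c.A_mul y2 z2]),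
    c.q_eq hC h2 (mul_mem x2 (mul_mem y2 z2)) (by rw [c.A_mul x2 (mul_mem y2 z2), c.A_mul y2 z2, e7])] at this
  exact q0 (by simpa using this)

end

theorem caseA (hH : H ≤ c.T) (hF : ∀ x ∈ H, x ^ 2 ∈ F) : F.relIndex H ≤ 16 := by
  by_contra hlt
  have a : 𝓒(W).relIndex H * F.relIndex (H ⊓ 𝓒(W)) = (F ⊓ 𝓒(W)).relIndex H := by
    rw [inf_comm H, mul_comm, relIndex_inf_mul_relIndex]
  have b := relIndex_le_of_le_left (L := H) (inf_le_left : F ⊓ 𝓒(W) ≤ F) (relIndex_ne_zero' _ _)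
  have d := c.cen4 (D := H ⊓ 𝓒(W)) inf_le_right fun x hx => hF x hx.1
  rw [c.rel_im hH] at a
  have h4 : 4 < ♯(c.im H) := by nlinarith
  have h3 : c.im H ≠ ⊤ → 3 ≤ F.relIndex (H ⊓ 𝓒(W)) := fun k => by have := le8 k; nlinarith
  by_cases hC : 𝓒(W) ≤ W
  · by_cases hB : c.im H = ⊤
    · have := relIndex_eq_one.2 ((inf_le_right.trans hC).trans (c.caseIb hC hH hB hF) : H ⊓ 𝓒(W) ≤ F)
      rw [hB, card_top, card_mx, this] at a
      omega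
    · refine c.caseIa hC hH h4 fun x hx => ?_
      obtain ⟨v, hv⟩ : x ^ 2 ∈ c.U := inf_le_of (c.cen4 (F := c.U ⊓ F) inf_le_right fun x hx =>
        ⟨⟨_, c.sq x (hC hx.2)⟩, hF x hx.1⟩) (h3 hB) ⟨hF x hx, pow_mem hx 2, c.sqC (hH hx)⟩
      rw [← hv, c.ps]
  obtain ⟨e, e1, e2, e3⟩ : ∃ e ∈ 𝓒(W), e ∉ W ∧ e ^ 2 ∈ W := by
    obtain ⟨e, e1, e2⟩ := SetLike.not_le_iff_exists.1 hC
    obtain ⟨k, hk⟩ := c.hG e
    induction k generalizing e with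
    | zero => rw [pow_zero, pow_one] at hk; exact (e2 (hk ▸ one_mem _)).elim
    | succ k ih =>
      by_cases f : e ^ 2 ∈ W
      · exact ⟨e, e1, e2, f⟩
      · exact ih _ (pow_mem e1 2) f (by rw [← pow_mul, ← pow_succ', hk])
  have m0 : π (e ^ 2) ≠ 0 := fun k => e2 (c.al e e1 (by
    rw [show 4 = 2 * 2 from rfl, pow_mul, ← c.sq _ e3, k, c.z0]))
  have fx : ∀ x ∈ c.T, Iv (A x) → app (A x) (π (e ^ 2)) = π (e ^ 2) := fun x hx k => by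
    obtain ⟨v, hv⟩ := c.inverts hx k e1
    have := c.hA x hx _ e3
    rw [← conj_pow, hv, (Commute.symm (c.ts (inv_mem (c.CT e1)) v)).mul_pow, c.s2, mul_one, inv_pow,
      inv_eq_iff_mul_eq_one, ← mul_assoc, ← pow_two, ← c.sq _ e3, ← c.add] at this
    have := c.eq0 this
    rw [← zero_add (app _ _), ← v_add_self (π (e ^ 2)), add_assoc, this, add_zero]
  have k : ∀ Z, (∃ x y, Iv x ∧ Iv y ∧ app x (π (e ^ 2)) ≠ π (e ^ 2) ∧ app y (π (e ^ 2)) ≠ π (e ^ 2) ∧ x + y = Z) →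
      (∃ x ∈ H, x ∈ c.T ∧ A x = Z) ∧ c.im H ≠ ⊤ := by
    rintro _ ⟨X, Y, a1, a2, a3, a4, rfl⟩
    have n : ∀ X, Iv X → app X (π (e ^ 2)) ≠ π (e ^ 2) → Multiplicative.ofAdd X ∉ c.im H := fun X b1 b2 b3 => by
      obtain ⟨x, -, x2, rfl⟩ := c.mem_im.1 b3
      exact b2 (fx x x2 b1)
    exact ⟨c.mem_im.1 (((p2 h4 X Y).resolve_left (n X a1 a3)).resolve_left (n Y a2 a4)),
      fun b => n X a1 a3 (b ▸ mem_top _)⟩
  obtain ⟨⟨j, j1, j2, j3⟩, hB⟩ := k _ (tv3 _ m0)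
  obtain ⟨⟨t, t1, t2, t3⟩, -⟩ := k _ (tv4 _ m0)
  have ti : Iv (A t) := t3 ▸ (tv1 _ m0).1
  have tn : A t ≠ one := t3 ▸ (tv1 _ m0).2.1
  refine c.lemQ hF j1 j2 j3 t1 t2 ti tn (fun g => ?_) (h3 hB)
  by_cases hg : g ∈ c.T
  · exact c.A_conjT hg t2
  · have g1 : Iv (A (g * t * g⁻¹)) := by rw [c.A_conjS hg t2]; exact (cg2 l c.l0 _).2.1 ti
    refine ((tv2 _ m0 _ g1 (fx _ (c.nT.conj_mem _ t2 g) g1)).resolve_left fun b => tn ?_).trans t3.symm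
    rw [c.A_conjS hg t2] at b
    exact (cg2 l c.l0 _).2.2 b

theorem caseB (hFH : F ≤ H) (hF : ∀ x ∈ H, x ^ 2 ∈ F) {s : G} (s1 : s ∈ H) (s2 : s ∉ c.T) : F.relIndex H ≤ 16 := by
  by_contra hlt
  haveI := c.nT
  haveI := c.nW
  have i2 : c.T.index = 2 := index_eq_two_iff.2 ⟨s, fun b => by
    by_cases hb : b ∈ c.T
    · exact .inr ⟨hb, fun k => s2 ((mul_mem_cancel_left hb).1 k)⟩
    · exact .inl ⟨c.mulT hb s2, hb⟩⟩
  have a1 : c.T.relIndex H ≤ 2 := i2 ▸ Nat.le_of_dvd (by omega) (relIndex_dvd_index_of_normal _ _)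
  have sT : ∀ x, x ^ 2 ∈ c.T := fun x => sq_mem_of_index_two i2 x
  set F0 := F ⊓ c.T with hF0
  set H0 := H ⊓ c.T with hH0
  set D := H ⊓ 𝓒(W) with hD
  have hF' : ∀ x ∈ H, x ^ 2 ∈ F0 := fun x hx => ⟨hF x hx, sT x⟩
  have l1 : F0 ≤ H0 := inf_le_inf_right _ hFH
  have l2 : D ≤ H0 := inf_le_inf_left _ c.CT
  have a2 := relIndex_le_of_le_left (L := H) (inf_le_left : F0 ≤ F) (relIndex_ne_zero' _ _)
  have a3 := relIndex_mul_relIndex F0 H0 H l1 inf_le_left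
  rw [hH0, inf_relIndex_left, ← hH0] at a3
  have a4 := relIndex_mul_relIndex F0 (D ⊔ F0) H0 le_sup_right (sup_le l2 l1)
  have nF : H ≤ 𝓝(F0) := norm_of_comm_le_right (commutator_le.2 fun x a y b =>
    mem_inf.2 ⟨cm hF a (hFH b.1), mul_mem (c.nT.conj_mem _ b.2 x) (inv_mem (mem_inf.1 b).2)⟩)
  rw [relIndex_sup_norm (inf_le_left.trans nF)] at a4
  have a5 := c.cen4 (D := D) inf_le_right fun x hx => hF' x hx.1
  let Z : Subgroup (Multiplicative Mx) :=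
    { carrier := {X | cg (tv l) X.toAdd = X.toAdd}
      mul_mem' := fun {a b} ha hb => by
        change cg _ (a * b).toAdd = _
        rw [toAdd_mul, cg_add, ha, hb]
      one_mem' := (cg1 l c.l0).2.2.1
      inv_mem' := fun {a} ha => by
        change cg _ a⁻¹.toAdd = _
        rwa [toAdd_inv, neg_eq_of_add_eq_zero_left (m_add_self _)] }
  have z4 : ♯Z = 4 := by
    rw [← (cg1 l c.l0).2.2.2.2, ← Fintype.card_subtype, ← Nat.card_eq_fintype_card]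
    rfl
  let K : Subgroup G := H ⊓ (Z.comap c.Ah).map c.T.subtype
  have mK : ∀ x, x ∈ K ↔ x ∈ H ∧ x ∈ c.T ∧ cg (tv l) (A x) = A x := fun x =>
    and_congr_right fun _ => ⟨by rintro ⟨y, hy, rfl⟩; exact ⟨y.2, hy⟩, fun k => ⟨⟨x, k.1⟩, k.2, rfl⟩⟩
  have l3 : D ≤ K := fun x hx => (mK x).2 ⟨hx.1, c.CT hx.2, by rw [(c.A_zero (c.CT hx.2)).2 hx.2, (cg1 l c.l0).2.2.1]⟩
  have l4 : K ≤ H0 := fun x hx => ⟨hx.1, ((mK x).1 hx).2.1⟩
  have kZ : c.im K ≤ Z := fun X hX => by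
    obtain ⟨x, x1, -, e⟩ := c.mem_im.1 (show Multiplicative.ofAdd X.toAdd ∈ _ from hX)
    change cg _ _ = _
    rw [← e]; exact ((mK x).1 x1).2.2
  have b1 : D.relIndex K = ♯(c.im K) := by
    have kH : K ≤ H := inf_le_left
    rw [← c.rel_im (l4.trans inf_le_right), hD, inf_comm H, ← inf_relIndex_right, inf_assoc, inf_of_le_right kH,
      inf_relIndex_right]
  have b2 : K.relIndex H0 ≤ D.relIndex (D ⊔ F0) := relIndex_le_of_fun (fun x => x * s * x⁻¹ * s⁻¹)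
    (fun x hx => mem_sup_right (cm hF' hx.1 s1)) fun x hx y hy e => by
      have f : ∀ x ∈ c.T, x * s * x⁻¹ * s⁻¹ ∈ c.T ∧ A (x * s * x⁻¹ * s⁻¹) = A x + cg (tv l) (A x) := fun x hx => by
        rw [show x * s * x⁻¹ * s⁻¹ = x * (s * x⁻¹ * s⁻¹) by group]
        exact ⟨mul_mem hx (c.nT.conj_mem _ (inv_mem hx) s), by
          rw [c.A_mul hx (c.nT.conj_mem _ (inv_mem hx) s), c.A_conjS s2 (inv_mem hx), c.A_inv hx]⟩
      have := (c.A_zero (c.CT e.2)).2 e.2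
      rw [c.A_mul (inv_mem (f x hx.2).1) (f y hy.2).1, c.A_inv (f x hx.2).1, (f x hx.2).2, (f y hy.2).2,
        add_add_add_comm, ← cg_add] at this
      refine (mK _).2 ⟨mul_mem (inv_mem hx.1) hy.1, mul_mem (inv_mem hx.2) hy.2, ?_⟩
      rw [c.A_mul (inv_mem hx.2) hy.2, c.A_inv hx.2, ← zero_add (cg _ _), ← m_add_self (A x + A y), add_assoc, this,
        add_zero]
  have b3 := relIndex_mul_relIndex D K H0 l3 l4
  have b4 := relIndex_mul_relIndex D (D ⊔ F0) H0 le_sup_left (sup_le l2 l1)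
  have b5 : (D ⊔ F0).relIndex H0 ≤ D.relIndex K := by
    have := Nat.pos_of_ne_zero (relIndex_ne_zero' D (D ⊔ F0))
    nlinarith
  have b6 := card_dvd_of_le kZ
  rw [z4, ← b1] at b6
  have b7 := Nat.le_of_dvd (by omega) b6
  have b8 : 9 ≤ F0.relIndex D * (D ⊔ F0).relIndex H0 := by nlinarith
  have b9 : D.relIndex K = 4 := by
    have : 3 ≤ D.relIndex K := by nlinarith
    have : D.relIndex K ≠ 3 := fun e => by rw [e] at b6; omega
    omega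
  have e := eq_of_le_of_card_ge kZ (by rw [z4, ← b1, b9])
  obtain ⟨j, j1, j2, j3⟩ := c.mem_im.1 (e ▸ (cg1 l c.l0).1 : Multiplicative.ofAdd one ∈ c.im K)
  obtain ⟨t, t1, t2, t3⟩ := c.mem_im.1 (e ▸ (cg1 l c.l0).2.1 : Multiplicative.ofAdd (tv l) ∈ c.im K)
  exact c.lemQ hF' j1.1 j2 j3 t1.1 t2 (t3 ▸ (tv1 l c.l0).1) (t3 ▸ (tv1 l c.l0).2.1) (c.A_fix t2 ((mK t).1 t1).2.2)
    (by rw [← hD]; nlinarith)

theorem sr : H7SR.SR 4 G := fun H F h1 h2 => by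
  by_cases k : H ≤ c.T
  · exact c.caseA k h2
  · obtain ⟨s, s1, s2⟩ := SetLike.not_le_iff_exists.1 k
    exact c.caseB h1 h2 s1 s2

end Cx

theorem macWilliams (hG : IsPGroup 2 G)
    (h : ∀ A : Subgroup G, A.Normal → IsMulCommutative A → (∀ a ∈ A, a ^ 2 = 1) → Nat.card A ≤ 4) : H7SR.SR 4 G := by
  have pp := Nat.prime_two
  have pT : ∀ K : Subgroup G, IsPi {2} K := fun K => isPi_of_isPGroup pp (hG.to_subgroup K)
  obtain ⟨W, -, ⟨hn, hc, he⟩, hmax⟩ := exists_maximal_ge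
    (P := fun B : Subgroup G => ⊤ ≤ 𝓝(B) ∧ IsMulCommutative B ∧ ExpDvd B (2 ^ 2)) (H := ⊥)
    ⟨le_norm_bot _, inferInstance, fun x hx => by rw [mem_bot.1 hx, one_pow]⟩
  have al : ∀ x ∈ 𝓒(W), x ^ 4 = 1 → x ∈ W := fun x hx h =>
    alperin (n := 2) pp (pT ⊤) (by norm_num) le_top hn hc he
      (fun B h1 _ h3 h4 h5 => hmax B ⟨h3, h4, h5⟩ h1) (mem_top x) hx h
  haveI nW : W.Normal := normalizer_eq_top_iff.1 (top_le_iff.1 hn)
  have cW : W ≤ 𝓒(W) := le_centralizer W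
  have co : ∀ {a b : G}, a ∈ W → b ∈ W → Commute a b := fun ha hb => mem_cent.1 (cW hb) _ ha
  let U : Subgroup G :=
    { carrier := {x | x ∈ W ∧ x ^ 2 = 1}
      mul_mem' := fun {a b} ha hb => ⟨mul_mem ha.1 hb.1, by rw [(co ha.1 hb.1).mul_pow, ha.2, hb.2, one_mul]⟩
      one_mem' := ⟨one_mem _, one_pow _⟩
      inv_mem' := fun {a} ha => ⟨inv_mem ha.1, by rw [inv_pow, ha.2, inv_one]⟩ }
  have u4 : ♯U ≤ 4 := h U ⟨fun x hx g => ⟨nW.conj_mem _ hx.1 g, by rw [conj_pow, hx.2]; simp⟩⟩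
    ⟨⟨fun a b => Subtype.ext (co a.2.1 b.2.1)⟩⟩ fun a ha => ha.2
  obtain ⟨a, ha⟩ := (pT W).exists_card pp
  by_cases a3 : a ≤ 3
  · intro H F h1 h2
    have k1 := linear pp (pT H) hc (le_top.trans hn) (cm' h2) h1 ha
    have k2 := cen (D := H ⊓ 𝓒(W)) (U := U) hG al (fun x a b => ⟨a, b⟩) (fun x a => a.2) inf_le_right
      fun x hx => h2 x hx.1
    have k3 := relIndex_mul_relIndex F (F ⊔ H ⊓ 𝓒(W)) H le_sup_left (sup_le h1 inf_le_left)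
    rw [sup_comm, relIndex_sup_norm (inf_le_left.trans (norm_of_comm_le_right ((commutator_mono le_rfl h1).trans
      (cm' h2)))), sup_comm] at k3
    have k4 : 2 ^ (a * a / 4) ≤ 4 := by interval_cases a <;> norm_num
    rw [← k3]
    exact (Nat.mul_le_mul (k2.trans u4) (k1.trans k4)).trans (by norm_num)
  let f : W →* U := MonoidHom.mk' (fun w => ⟨w ^ 2, pow_mem w.2 2, by rw [← pow_mul]; exact he _ w.2⟩)
    fun x y => Subtype.ext ((co x.2 y.2).mul_pow 2)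
  have k1 : ♯f.ker ≤ ♯U := Nat.card_le_card_of_injective
    (fun x : f.ker => (⟨x.1, x.1.2, congrArg Subtype.val x.2⟩ : U)) fun x y e =>
      Subtype.ext (Subtype.ext (congrArg (fun u : U => (u : G)) e))
  have k2 := f.ker.card_mul_index
  have k3 : 2 ^ 4 ≤ 2 ^ a := Nat.pow_le_pow_right (by omega) (by omega)
  have k4 : ♯f.range ≤ ♯U := card_le_card_group _
  rw [index_ker, ha] at k2
  have k5 : ♯U = 4 := by nlinarith
  have k6 : f.range = ⊤ := eq_top_of_card_eq _ (by nlinarith)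
  have ex : Monoid.exponent U = 2 := by
    haveI : Nontrivial U := Finite.one_lt_card_iff_nontrivial.1 (by omega)
    exact (Monoid.exponent_eq_prime_iff pp).2 fun x hx => orderOf_eq_prime (Subtype.ext x.2.2) hx
  haveI : IsKleinFour U := ⟨k5, ex⟩
  obtain ⟨e⟩ : Nonempty (U ≃* Multiplicative V) := IsKleinFour.nonempty_mulEquiv
  classical
  have c : C0 W (fun v => e.symm (Multiplicative.ofAdd v)) (fun x => if hx : x ∈ W then (e (f ⟨x, hx⟩)).toAdd else 0) :=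
    ⟨hG, nW, cW, al, fun w hw => by simp only [dif_pos hw, ofAdd_toAdd, e.symm_apply_apply]; rfl,
      fun v v' => by simp only [ofAdd_add, map_mul, Subgroup.coe_mul],
      fun v v' k => Multiplicative.ofAdd.injective (e.symm.injective (Subtype.ext k)), fun v => by
        obtain ⟨w, hw⟩ := (k6 ▸ mem_top _ : e.symm (Multiplicative.ofAdd v) ∈ f.range)
        exact ⟨w, w.2, by simp only [dif_pos w.2, Subtype.coe_eta, hw, e.apply_symm_apply, toAdd_ofAdd]⟩,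
      fun w hw h2 => ⟨(e ⟨w, hw, h2⟩).toAdd, by simp only [ofAdd_toAdd, e.symm_apply_apply]⟩, h⟩
  obtain ⟨R, A, l, c⟩ := c.exists_Cx
  exact c.sr

end CA.FusMw
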