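import Cfsg.Agent.Lib.Fus.FusExt

/-!
Normal subsystems of the fusion system of a group of characteristic `p` come from normal subgroups.
-/

namespace CA.Fus

open Cfsg Subgroup CA.AmbSyl CA.AmbCore CA.AmbRes CA.AmbChar Relation
open Cfsg.FusionSystem (normalizerIn centralizerIn)
open scoped commutatorElement

variable {G : Type*} [Group G] [Finite G] {S T Q R H : Subgroup G} {p : ℕ} [Fact p.Prime]

theorem mem_pCore_of_stab (hc : CharP p (⊤ : Subgroup G)) (hn : ⊤ ≤ normalizer (R : Set G)) {g : G}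
    (h1 : g ∈ centralizer (R : Set G)) (h2 : ∀ x ∈ pCoreOf p ⊤, x⁻¹ * (g * x * g⁻¹) ∈ R) : g ∈ pCoreOf p ⊤ := by
  have hQ := norm_pCoreOf p (⊤ : Subgroup G)
  have r := (homOn_cjA (pCoreOf p (⊤ : Subgroup G))).mono hQ
  have hs : ∀ a : G, cjA (pCoreOf p ⊤) a ∈ stabA _ R := fun a => mem_stabA.2 fun x => by
    by_cases hx : x ∈ pCoreOf p (⊤ : Subgroup G)
    · rw [act_cjA (hQ (mem_top a)) hx]; exact (mem_normalizer_iff.1 (hn (mem_top a)) x).symm
    · rw [act_of_not_mem _ hx]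
  refine le_pCoreOf (Q := centralizer (R : Set G) ⊓ r.pre (trivA _ ⊤ R)) le_top
    (isPGroup_of_coprime fun v hv hv' => charP_iff_elem.1 hc v (mem_top v) ((cjA_eq_one_iff (hQ (mem_top v))).1
      (aut_eq_one_iff.2 fun x hx => fix_of_fix_le (Q := pCoreOf p ⊤ ⊓ R) (isPGroup_pCoreOf p _)
        (hv'.coprime_dvd_left (r.orderOf_dvd (mem_top v))) (fun y hy => ?_)
        (mem_inf.2 ⟨mul_mem (inv_mem hx) (act_mem _ hx), mem_trivT.1 hv.2.2 x hx⟩))) hv')
    (Amb.norm_inf (Amb.norm_centralizer hn) fun a ha => r.pre_norm ha (norm_trivA (A := zpowers _)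
      (by rw [stabA_top]; exact le_top) (zpowers_le.2 (hs a)) (mem_zpowers _)))
    ⟨h1, mem_top g, mem_trivT.2 fun x hx => by rw [act_cjA (hQ (mem_top g)) hx]; exact h2 x hx⟩
  rw [act_cjA (hQ (mem_top v)) hy.1, ← hv.1 y hy.2, mul_inv_cancel_right]

theorem exists_normal_model (hS : SylIn p S ⊤) (hc : CharP p (⊤ : Subgroup G)) {E : FusionSystem T}
    (hE : E.IsNormalIn (groupFusionSystem S) p) :
    ∃ H : Subgroup G, (∃ h : T ≤ H, ⊤ ≤ normalizer (H : Set G) ∧ SylIn p T H ∧ E = fusionSystemOfSubgroup H T h) ∧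
      ∀ (H' : Subgroup G) (h : T ≤ H'), ⊤ ≤ normalizer (H' : Set G) → SylIn p T H' →
        E = fusionSystemOfSubgroup H' T h → H' = H := by
  have hp := hS.pg
  have hT := nm_sc hE
  have hTp := hp.to_le hT.1
  have hst := fun R => @mem_pCore_of_stab G _ _ R p _ hc
  have hQ := norm_pCoreOf p (⊤ : Subgroup G)
  have hQS := pCoreOf_le_syl hS
  generalize pCoreOf p (⊤ : Subgroup G) = Q at hst hQ hQS
  have hsc : ∀ x ∈ T, ∀ g : G, g * x * g⁻¹ ∈ S → g * x * g⁻¹ ∈ T := fun x hx g h =>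
    sc_maps hT (P := zpowers x) (f := cj g) (mor_group.2 ⟨zpowers_le.2 (hT.1 hx), fun y hy =>
      (homOn_cj ⊤ g).maps_closure (s := {x}) le_top (by simpa using h) y (by rwa [← zpowers_eq_closure]),
      g, fun _ _ => rfl⟩) (mem_zpowers x) hx
  have hR : ⊤ ≤ normalizer ((Q ⊓ T : Subgroup G) : Set G) := fun g _ => mem_normalizer_of_maps fun x hx =>
    have := conj_mem_of_norm (hQ (mem_top g)) hx.1
    ⟨this, hsc x hx.2 g (hQS this)⟩
  have hRT : Q ⊓ T ≤ T := inf_le_right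
  have hQT : ∀ P, Q ⊓ T ≤ P → P ≤ T → ∀ x ∈ Q, ∀ y ∈ P, y⁻¹ * (x * y * x⁻¹) ∈ P := fun P h1 h2 x hx y hy =>
    h1 ⟨inv_mul_conj_mem' (hQ (mem_top y)) hx,
      T.mul_mem (T.inv_mem (h2 hy)) (conj_mem_of_norm (sc_norm hT (hQS hx)) (h2 hy))⟩
  have hC : centralizerIn T (Q ⊓ T) ≤ Q ⊓ T := fun x hx => ⟨hst _ hR hx.2 fun y hy =>
    ⟨Q.mul_mem (Q.inv_mem hy) (conj_mem_of_norm (hQ (mem_top x)) hy),
      inv_mul_conj_mem' (sc_norm hT (hQS hy)) hx.1⟩, hx.1⟩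
  have r := (homOn_cjA (Q ⊓ T)).mono hR
  have r' := (homOn_cjA Q).mono hQ
  have hA : ∀ g : G, cjA (Q ⊓ T) g ∈ (groupFusionSystem S).autGroup (Q ⊓ T) := fun g => by
    rw [aut_group (hRT.trans hT.1)]; exact cjA_mem_autInd (mem_top g) (hR (mem_top g))
  obtain ⟨M, hMd⟩ : ∃ M, M = r.pre (E.autGroup (Q ⊓ T)) ⊓ r'.pre (trivA Q ⊤ T) := ⟨_, rfl⟩
  have hM : ∀ g, g ∈ M ↔ cjA (Q ⊓ T) g ∈ E.autGroup (Q ⊓ T) ∧ ∀ x ∈ Q, x⁻¹ * (g * x * g⁻¹) ∈ T := fun g =>
    hMd ▸ ⟨fun h => ⟨h.1.2, fun x hx => act_cjA (hQ (mem_top g)) hx ▸ mem_trivT.1 h.2.2 x hx⟩,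
      fun h => ⟨⟨mem_top g, h.1⟩, mem_top g, mem_trivT.2 fun x hx => by
        rw [act_cjA (hQ (mem_top g)) hx]; exact h.2 x hx⟩⟩
  have hMn : ⊤ ≤ normalizer (M : Set G) := hMd ▸ Amb.norm_inf
    (fun g hg => r.pre_norm hg (inv_norm_aut (nm_inv hE) hRT (hA g))) fun g hg => r'.pre_norm hg
      (norm_trivA (by rw [stabA_top]; exact le_top) (aut_le_stab_sc hT Q) (by
        rw [aut_group hQS]; exact cjA_mem_autInd (mem_top g) (hQ hg)))
  clear hMd
  have hTM : T ≤ M := fun t ht => (hM t).2 ⟨cjA_mem_aut E hRT ⟨ht, hR (mem_top t)⟩, fun x hx =>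
    inv_mul_conj_mem' (sc_norm hT (hQS hx)) ht⟩
  have hker : ∀ a ∈ M, ∀ b ∈ M, cjA (Q ⊓ T) a = cjA (Q ⊓ T) b → a⁻¹ * b ∈ Q := fun a ha b hb e =>
    hst _ hR ((cjA_eq_iff (hR (mem_top a)) (hR (mem_top b))).1 e) fun x hx =>
      ⟨Q.mul_mem (Q.inv_mem hx) (conj_mem_of_norm (hQ (mem_top _)) hx),
        ((hM _).1 (M.mul_mem (M.inv_mem ha) hb)).2 x hx⟩
  have hRn : E.IsNormal (Q ⊓ T) := normal_in_sub hp (nm_sat hE) (nm_sub hE) (by
    rw [group_eq_ofSubgroup]; exact normal_ofSub hQS hQ)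
  have hsyl := sat_syl hTp (nm_sat hE) (normal_fullyNorm hRn)
  have hSM := hS.inf_norm le_top hMn
  have hdec : ∀ s ∈ S ⊓ M, ∃ t ∈ T, t⁻¹ * s ∈ Q := fun s hs => by
    have h1 : cjA (Q ⊓ T) s ∈ autInducedBy S (Q ⊓ T) := cjA_mem_autInd hs.1 (hR (mem_top s))
    obtain ⟨t, ht, e⟩ := mem_autInd'.1 (hsyl.le_of_norm' (Q := zpowers (cjA (Q ⊓ T) s))
      ((isPGroup_autInd hp _).to_le (zpowers_le.2 h1)) (zpowers_le.2 ((hM s).1 hs.2).1)
      (zpowers_le.2 (norm_autInd (sc_norm hT) hT.1 _ h1)) (mem_zpowers _))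
    exact ⟨t, ht.1, hker t (hTM ht.1) s hs.2 e⟩
  have hK : S ⊓ pResidualOf p M ≤ T := by
    have h1 : S ⊓ pResidualOf p M = S ⊓ M ⊓ pResidualOf p M := by
      rw [inf_assoc, inf_eq_right.2 (res_le p M)]
    rw [h1, ← hyper_ofSub hSM]
    refine (hyper_le_focal _ p).trans (focal_le_iff.2 fun P f hf x hx => ?_)
    obtain ⟨h2, h3, g, hg, e⟩ := (mor_ofSubgroup _).1 hf
    obtain ⟨t, ht, h4⟩ := hdec x (h2 hx)
    have h5 := conj_mem_of_norm (hQ (mem_top g)) h4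
    have h6 : g * t * g⁻¹ ∈ T := hsc t ht g (by
      have := mul_mem (e x hx ▸ (h3 x hx).1) (S.inv_mem (hQS h5))
      convert this using 1; group)
    have := mul_mem (conj_mem_of_norm' (sc_norm hT (hQS h4)) (mul_mem (T.inv_mem ht) h6))
      (((hM g).1 hg).2 _ h4)
    rw [e x hx]; convert this using 1; group
  have hKn : ⊤ ≤ normalizer (pResidualOf p M : Set G) := norm_res_of_norm hMn
  have hHM : T ⊔ pResidualOf p M ≤ M := sup_le hTM (res_le p M)
  have hHn : ⊤ ≤ normalizer ((T ⊔ pResidualOf p M : Subgroup G) : Set G) := by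
    rw [← hSM.frattini_sup le_top hMn]
    refine sup_le ?_ fun g hg => Amb.norm_sup (L := zpowers g) (zpowers_le.2 (mem_normalizer_of_maps fun x hx =>
      hsc x hx g (conj_mem_of_norm hg.2 ⟨hT.1 hx, hTM hx⟩).1)) (le_top.trans hKn) (mem_zpowers g)
    exact le_of_syl_of_res hSM (Amb.norm_sup (inf_le_left.trans (sc_norm hT)) (le_top.trans hKn))
      (Amb.norm_of_le le_sup_right)
  have hSH : S ⊓ (T ⊔ pResidualOf p M) = T := le_antisymm (by
    rw [inf_comm, Amb.sup_inf_of_norm (le_top.trans hKn) hT.1, inf_comm]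
    exact sup_le le_rfl hK) (le_inf hT.1 le_sup_left)
  have hTH : SylIn p T (T ⊔ pResidualOf p M) := by
    have := hS.inf_norm le_top hHn
    rwa [hSH] at this
  have hsub : E.IsSubsystemOf (fusionSystemOfSubgroup _ T hTH.le) := sub_iff.2 fun P f hf =>
    alperin_res hTp (nm_sat hE) (fun P hP => res_le_iff.2 fun α hα hc' => by
      obtain ⟨h1, h2, h3⟩ := ess_cr hTp (nm_sat hE) hP
      have h4 := normal_le_cr hTp hRn (centric_self_le h2) h3
      have h5 : Q ≤ normalizer (P : Set G) := fun x hx => mem_normalizer_of_maps fun y hy => by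
        simpa using mul_mem hy (hQT P h4 h1.1 x hx y hy)
      have hPS := h1.1.trans hT.1
      have h6 : (groupFusionSystem S).autGroup P ≤ normalizer (autInducedBy Q P : Set (MulAut P)) := by
        rw [aut_group hPS]; exact norm_autInd hQ le_top P
      obtain ⟨β, h7, e, h8⟩ := nm_ext_local hp hE h2 hα hc' (R := P ⊔ Q) le_sup_left
        (sup_le (le_normIn hPS) (le_inf hQS h5)) (cm_sup le_normalizer h5
          (fun x hx => inn_le_Cm _ (cjA_mem_inn hx)) fun x hx => by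
            have h7 := cjA_mem_autInd hx (h5 hx)
            rw [mem_Cm, ← (radical_iff.1 h3).2]
            refine le_pCoreOf (Q := E.autGroup P ⊓ autInducedBy Q P) inf_le_left
              ((isPGroup_autInd (hp.to_le hQS) P).to_le inf_le_right)
              (Amb.norm_inf le_normalizer ((aut_mono (nm_sub hE) P).trans h6)) ⟨comm_mem_of_norm hα
                (inv_norm_aut (nm_inv hE) h1.1 (autInd_le_aut _ hPS (autInd_mono hQS P h7))), ?_⟩
            exact (autInducedBy Q P).mul_mem (conj_mem_of_norm (h6 (aut_mono (nm_sub hE) P hα)) h7) (inv_mem h7))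
      have h9 := h7.1
      rw [aut_group (sup_le hPS hQS)] at h9
      obtain ⟨g, hg, rfl⟩ := mem_autInd'.1 h9
      obtain ⟨v, hv, e', h10⟩ := (homOn_cjA (P ⊔ Q)).lift_p' hg.2 h8
      replace hv := zpowers_le.2 hg.2 hv
      rw [← e'] at e h7
      have e2 : ∀ x ∈ P, act α x = v * x * v⁻¹ := fun x hx => (e x hx).symm.trans (act_cjA hv (mem_sup_left hx))
      rw [aut_ofSubgroup _ h1.1]
      refine mem_autInd_of (mem_sup_right (mem_res ((hM v).2 ⟨(((mem_aut h1.1).1 hα).mono h4).mem_aut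
        fun x hx => (act_cjA (hR (mem_top v)) hx).trans (e2 x (h4 hx)).symm, fun x hx => h1.1 ?_⟩) h10)) e2
      exact act_cjA hv (mem_sup_right hx) ▸ mem_trivT.1 h7.2 x (mem_sup_right hx)) hf
  have hn' : (fusionSystemOfSubgroup _ T hTH.le).IsNormal (Q ⊓ T) := normal_ofSub hRT (le_top.trans hR)
  refine ⟨_, ⟨hTH.le, hHn, hTH, sub_antisymm hsub (sub_iff.2 fun P f hf => ?_)⟩, fun H' h h1 h2 e => ?_⟩
  · obtain ⟨g, hg, e, -⟩ := normal_ext hn' hf
    obtain ⟨-, -, a, ha, e'⟩ := (mor_ofSubgroup _).1 hg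
    exact ((mor_of_restrict hTp (sat_ofSub hTH) (nm_sat hE) hsub (centric_of_wc (normal_wc hn') hC) le_sup_right hg
      (((mem_aut hRT).1 ((hM a).1 (hHM ha)).1).congr fun x hx => (act_cjA (hR (mem_top a)) hx).trans
        (e' x (mem_sup_right hx)).symm)).mono le_sup_left).congr e
  have h3 : E.autGroup (Q ⊓ T) = autInducedBy H' (Q ⊓ T) := by rw [e, aut_ofSubgroup _ hRT]
  have h4 : ∀ H' : Subgroup G, ⊤ ≤ normalizer (H' : Set G) → SylIn p T H' → Q ⊓ H' ≤ T := fun H' h1 h2 =>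
    h2.le_of_norm ((hp.to_le hQS).to_le inf_le_left) inf_le_right (le_top.trans (Amb.norm_inf hQ h1))
  have h5 : H' ≤ M := fun a ha => (hM a).2 ⟨h3 ▸ cjA_mem_autInd ha (hR (mem_top a)), fun x hx =>
    h4 H' h1 h2 ⟨Q.mul_mem (Q.inv_mem hx) (conj_mem_of_norm (hQ (mem_top a)) hx),
      inv_mul_conj_mem' (h1 (mem_top x)) ha⟩⟩
  have h6 : H' ≤ T ⊔ pResidualOf p M := le_of_syl_of_res h2 le_sup_left ((res_mono h5).trans le_sup_right)
  refine le_antisymm h6 fun a ha => ?_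
  obtain ⟨b, hb, e'⟩ := mem_autInd'.1 (h3 ▸ ((hM a).1 (hHM ha)).1)
  simpa using mul_mem hb.1 (h (h4 _ hHn hTH (mem_inf.2 ⟨hker b (h5 hb.1) a (hHM ha) e', mul_mem (inv_mem (h6 hb.1)) ha⟩)))

end CA.Fus
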