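import Mathlib
import Cfsg.Prelude.Def_Sporadic_a

/-!
The strongly regular graph with parameters `(77, 16, 0, 4)` is the block graph of a Steiner system `S(3, 6, 22)`
(Brouwer): lines of size five, cocliques of size twenty-one.
-/

set_option autoImplicit false
set_option linter.unusedSectionVars false

namespace CA.FusSrg

open Finset Cfsg

variable {V : Type*} [Fintype V] [DecidableEq V] {G : SimpleGraph V} [DecidableRel G.Adj] {x y z u v w : V}

/-- adjacency indicator -/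
def a (G : SimpleGraph V) [DecidableRel G.Adj] (x y : V) : ℤ := if G.Adj x y then 1 else 0

/-- membership indicator -/
def ι (S : Finset V) (x : V) : ℤ := if x ∈ S then 1 else 0

/-- the adjacency operator -/
def A (G : SimpleGraph V) [DecidableRel G.Adj] (f : V → ℤ) (w : V) : ℤ := ∑ v, f v * a G v w

theorem a_comm : a G x y = a G y x := by simp only [a, G.adj_comm]
theorem a_of (h : G.Adj x y) : a G x y = 1 := if_pos h
theorem a_not (h : ¬ G.Adj x y) : a G x y = 0 := if_neg h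
theorem a_self : a G x x = 0 := a_not G.irrefl
theorem a_nonneg : 0 ≤ a G x y := by unfold a; split_ifs <;> norm_num
theorem ι_of {S : Finset V} (h : x ∈ S) : ι S x = 1 := if_pos h
theorem ι_not {S : Finset V} (h : x ∉ S) : ι S x = 0 := if_neg h

theorem sum_ι_mul (S : Finset V) (f : V → ℤ) : ∑ v, ι S v * f v = ∑ v ∈ S, f v := by
  simp [ι, sum_ite_mem]

theorem sum_ι (S : Finset V) : ∑ v, ι S v = S.card := by simp [ι]

theorem A_ι (S : Finset V) : A G (ι S) w = ∑ v ∈ S, a G v w := sum_ι_mul S _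

theorem A_ι_card (S : Finset V) : A G (ι S) w = (S.filter fun v => G.Adj v w).card := by
  rw [A_ι]; simp [a]

theorem A_ι_eq_zero {S : Finset V} : A G (ι S) w = 0 ↔ ∀ v ∈ S, ¬ G.Adj v w := by
  rw [A_ι_card]; simp [filter_eq_empty_iff]

theorem A_symm (f g : V → ℤ) : ∑ w, g w * A G f w = ∑ v, f v * A G g v := by
  simp only [A, mul_sum]
  rw [sum_comm]
  exact sum_congr rfl fun v _ => sum_congr rfl fun w _ => by rw [a_comm]; ring

/-- common neighbours -/
def Q (G : SimpleGraph V) [DecidableRel G.Adj] (x y : V) : Finset V := univ.filter fun v => G.Adj x v ∧ G.Adj y v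

theorem mem_Q : v ∈ Q G x y ↔ G.Adj x v ∧ G.Adj y v := by simp [Q]

/-- the number of common neighbours of three vertices -/
def T (G : SimpleGraph V) [DecidableRel G.Adj] (x y w : V) : ℤ := A G (ι (Q G x y)) w

theorem T_eq : T G x y w = (univ.filter fun v => G.Adj x v ∧ G.Adj y v ∧ G.Adj w v).card := by
  rw [T, A_ι_card]; congr 2; ext v; simp [Q, and_assoc, G.adj_comm v w]

theorem T_swap : T G x y w = T G y x w := by
  rw [T_eq, T_eq]; congr 2; ext v; simp only [mem_filter]; tauto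

theorem T_swap' : T G x y w = T G x w y := by
  rw [T_eq, T_eq]; congr 2; ext v; simp only [mem_filter]; tauto

/-- the three further points of a line -/
def Z (G : SimpleGraph V) [DecidableRel G.Adj] (x y : V) : Finset V :=
  univ.filter fun w => ¬ G.Adj x w ∧ ¬ G.Adj y w ∧ T G x y w = 0

theorem mem_Z : w ∈ Z G x y ↔ ¬ G.Adj x w ∧ ¬ G.Adj y w ∧ T G x y w = 0 := by simp [Z]

/-- the line through two non-adjacent vertices -/
def L (G : SimpleGraph V) [DecidableRel G.Adj] (x y : V) : Finset V := insert x (insert y (Z G x y))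

/-- the null vector -/
def ff (G : SimpleGraph V) [DecidableRel G.Adj] (x y w : V) : ℤ :=
  3 * ι {x} w + 3 * ι {y} w + 2 * ι (Q G x y) w - ι (Z G x y) w

theorem A_ff : A G (ff G x y) w = 3 * a G x w + 3 * a G y w + 2 * T G x y w - A G (ι (Z G x y)) w := by
  have h1 : ∀ u, a G u w = A G (ι {u}) w := fun u => by rw [A_ι, sum_singleton]
  rw [h1 x, h1 y, T]
  simp only [A, ff, mul_sum, ← sum_add_distrib, ← sum_sub_distrib]
  exact sum_congr rfl fun v _ => by ring

/-- triangles -/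
def O (G : SimpleGraph V) [DecidableRel G.Adj] (x y w : V) : Prop :=
  ¬ G.Adj x y ∧ ¬ G.Adj x w ∧ ¬ G.Adj y w ∧ T G x y w = 1

theorem O.swap (h : O G x y w) : O G y x w := ⟨fun h' => h.1 h'.symm, h.2.2.1, h.2.1, T_swap.trans h.2.2.2⟩
theorem O.swap' (h : O G x y w) : O G x w y := ⟨h.2.1, h.1, fun h' => h.2.2.1 h'.symm, T_swap'.trans h.2.2.2⟩

/-- planes -/
def Pl (G : SimpleGraph V) (C : Finset V) : Prop := C.card = 21 ∧ ∀ u ∈ C, ∀ v ∈ C, ¬ G.Adj u v

variable (hG : G.IsSRGWith 77 16 0 4)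
include hG

theorem sum_c (c : ℤ) : ∑ _w : V, c = 77 * c := by simp [hG.card]

theorem sum_a (x : V) : ∑ w, a G x w = 16 := by
  have := hG.regular x
  rw [← G.card_neighborFinset_eq_degree, SimpleGraph.neighborFinset_eq_filter] at this
  simp [a, this]

theorem card_Q' (x y : V) : (Q G x y).card = Fintype.card (G.commonNeighbors x y) := by
  rw [← Set.toFinset_card]; congr 1; ext v; simp [Q, SimpleGraph.mem_commonNeighbors]

theorem card_Q (h : x ≠ y) (h' : ¬ G.Adj x y) : (Q G x y).card = 4 := (card_Q' hG x y).trans (hG.of_not_adj h h')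

theorem no_tri (h1 : G.Adj x y) (h2 : G.Adj x z) : ¬ G.Adj y z := fun h3 => by
  have := (card_Q' hG x y).trans (hG.of_adj x y h1)
  exact absurd (mem_Q.2 ⟨h2, h3⟩) (by rw [card_eq_zero.1 this]; simp)

theorem sum_aa (x y : V) : ∑ w, a G x w * a G y w = 12 * ι {x} y - 4 * a G x y + 4 := by
  have e : ∑ w, a G x w * a G y w = (Q G x y).card := by
    rw [← sum_ι]; exact sum_congr rfl fun w _ => by simp only [a, ι, mem_Q]; split_ifs <;> simp_all
  by_cases h : x = y
  · subst h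
    rw [ι_of (mem_singleton_self x), a_self, ← sum_congr rfl fun w _ => (by unfold a; split_ifs <;> simp :
      a G x w = a G x w * a G x w), sum_a hG]
    norm_num
  rw [e, ι_not (by simpa using Ne.symm h)]
  by_cases h' : G.Adj x y
  · rw [card_Q' hG, hG.of_adj x y h', a_of h']; norm_num
  · rw [card_Q hG h h', a_not h']; norm_num

theorem sum_A (f : V → ℤ) : ∑ w, A G f w = 16 * ∑ v, f v := by
  simp only [A]
  rw [sum_comm, mul_sum]
  exact sum_congr rfl fun v _ => by rw [← mul_sum, sum_a hG, mul_comm]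

theorem sum_AA (f : V → ℤ) : ∑ w, A G f w ^ 2 =
    12 * ∑ v, f v ^ 2 - 4 * ∑ v, f v * A G f v + 4 * (∑ v, f v) ^ 2 := by
  have e : ∀ u, ∑ w, a G u w * A G f w = 12 * f u - 4 * A G f u + 4 * ∑ v, f v := fun u => by
    have e1 : ∑ v, f v * ι {v} u = f u := by simp [ι, eq_comm]
    rw [← e1]
    simp only [A, mul_sum, ← sum_add_distrib, ← sum_sub_distrib]
    rw [sum_comm]
    refine sum_congr rfl fun v _ => ?_
    have := sum_aa hG v u
    calc ∑ w, a G u w * (f v * a G v w) = f v * ∑ w, a G v w * a G u w := by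
          rw [mul_sum]; exact sum_congr rfl fun w _ => by ring
      _ = _ := by rw [this]; ring
  calc ∑ w, A G f w ^ 2 = ∑ w, ∑ u, f u * (a G u w * A G f w) :=
        sum_congr rfl fun w _ => by rw [sq]; nth_rw 1 [A]; rw [sum_mul]; exact sum_congr rfl fun u _ => by ring
    _ = ∑ u, f u * (12 * f u - 4 * A G f u + 4 * ∑ v, f v) := by
        rw [sum_comm]; exact sum_congr rfl fun u _ => by rw [← mul_sum, e]
    _ = _ := by
        rw [sq (∑ v, f v), sum_mul]
        simp only [mul_sum _ _ (12 : ℤ), mul_sum _ (fun v => f v * A G f v) (4 : ℤ),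
          mul_sum _ (fun v => f v * ∑ v, f v) (4 : ℤ), ← sum_add_distrib, ← sum_sub_distrib]
        exact sum_congr rfl fun u _ => by ring

theorem sum_ιι (S : Finset V) : ∑ w, A G (ι S) w ^ 2 =
    12 * S.card - 4 * ∑ v ∈ S, A G (ι S) v + 4 * (S.card : ℤ) ^ 2 := by
  rw [sum_AA hG, sum_ι_mul, sum_ι, ← sum_ι S]
  congr 3
  exact sum_congr rfl fun v _ => by unfold ι; split_ifs <;> simp

theorem sum_quad (S : Finset V) (b c : ℤ) : ∑ w, (A G (ι S) w ^ 2 + b * A G (ι S) w + c) =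
    12 * S.card - 4 * ∑ v ∈ S, A G (ι S) v + 4 * (S.card : ℤ) ^ 2 + b * (16 * S.card) + 77 * c := by
  rw [sum_add_distrib, sum_add_distrib, sum_ιι hG, ← mul_sum, sum_A hG, sum_ι, sum_c hG]

theorem no_K33 {X P : Finset V} (hX : X.card = 3) (hP : P.card = 3) (h : ∀ u ∈ X, ∀ v ∈ P, G.Adj u v) : False := by
  obtain ⟨p, hp⟩ := card_pos.1 (by omega : 0 < P.card)
  obtain ⟨q, hq⟩ := card_pos.1 (by omega : 0 < X.card)
  have d : Disjoint X P := disjoint_left.2 fun u h1 h2 => G.irrefl (h u h1 u h2)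
  have c : (X ∪ P).card = 6 := by rw [card_union_of_disjoint d, hX, hP]
  have e : ∀ w ∈ X ∪ P, A G (ι (X ∪ P)) w = 3 := fun w hw => by
    rw [A_ι, sum_union d]
    rcases mem_union.1 hw with hw | hw
    · rw [sum_eq_zero fun v hv => a_not (no_tri hG (h v hv p hp).symm (h w hw p hp).symm),
        sum_congr rfl fun v hv => a_of (h w hw v hv).symm]
      simp [hP]
    · rw [sum_eq_zero (s := P) fun v hv => a_not (no_tri hG (h q hq v hv) (h q hq w hw)),
        sum_congr rfl fun v hv => a_of (h v hv w hw)]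
      simp [hX]
  have h1 := sum_quad hG (X ∪ P) (-3) 2
  rw [sum_congr rfl e] at h1
  have h2 : ∑ w, 2 * ι (X ∪ P) w ≤ ∑ w, (A G (ι (X ∪ P)) w ^ 2 + -3 * A G (ι (X ∪ P)) w + 2) :=
    sum_le_sum fun w _ => by
      by_cases hw : w ∈ X ∪ P
      · rw [e w hw, ι_of hw]; norm_num
      · rw [ι_not hw]
        generalize A G (ι (X ∪ P)) w = n
        rcases le_or_gt n 1 with h | h <;> nlinarith
  rw [h1, ← mul_sum, sum_ι] at h2
  simp [c] at h2

theorem T_le (h1 : x ≠ y) (h2 : x ≠ w) (h3 : y ≠ w) : T G x y w ≤ 2 := by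
  by_contra h
  rw [T_eq] at h
  obtain ⟨P, hP, c⟩ := exists_subset_card_eq (n := 3)
    (s := univ.filter fun v => G.Adj x v ∧ G.Adj y v ∧ G.Adj w v) (by omega)
  refine no_K33 hG (X := {x, y, w}) (card_eq_three.2 ⟨x, y, w, h1, h2, h3, rfl⟩) c fun u hu v hv => ?_
  have := (mem_filter.1 (hP hv)).2
  simp only [mem_insert, mem_singleton] at hu
  rcases hu with rfl | rfl | rfl <;> tauto

theorem T_adj (h : G.Adj x w) : T G x y w = 0 :=
  A_ι_eq_zero.2 fun _ hv h' => no_tri hG h (mem_Q.1 hv).1 h'.symm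

theorem T_adj' (h : G.Adj y w) : T G x y w = 0 := T_swap.trans (T_adj hG h)

theorem T_self (h1 : x ≠ y) (h2 : ¬ G.Adj x y) : T G x y x = 4 := by
  rw [T, A_ι_card, filter_true_of_mem fun v hv => (mem_Q.1 hv).1.symm, card_Q hG h1 h2]; rfl

theorem T_self' (h1 : x ≠ y) (h2 : ¬ G.Adj x y) : T G x y y = 4 :=
  T_swap.trans (T_self hG h1.symm fun h => h2 h.symm)

theorem T_nonneg : 0 ≤ T G x y w := by rw [T_eq]; positivity

theorem left_notMem_Z (h1 : x ≠ y) (h2 : ¬ G.Adj x y) : x ∉ Z G x y := fun h => by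
  have := (mem_Z.1 h).2.2; rw [T_self hG h1 h2] at this; omega

theorem right_notMem_Z (h1 : x ≠ y) (h2 : ¬ G.Adj x y) : y ∉ Z G x y := fun h => by
  have := (mem_Z.1 h).2.2; rw [T_self' hG h1 h2] at this; omega

theorem card_Z (h1 : x ≠ y) (h2 : ¬ G.Adj x y) : (Z G x y).card = 3 := by
  have e1 := sum_quad hG (Q G x y) (-3) 2
  rw [sum_eq_zero (s := Q G x y) (f := fun v => A G (ι (Q G x y)) v) fun v hv => T_adj hG (mem_Q.1 hv).1,
    card_Q hG h1 h2] at e1
  have e2 : ∀ w, A G (ι (Q G x y)) w ^ 2 + -3 * A G (ι (Q G x y)) w + 2 =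
      6 * ι {x} w + 6 * ι {y} w + 2 * a G x w + 2 * a G y w - 2 * ι (Q G x y) w + 2 * ι (Z G x y) w := fun w => by
    change T G x y w ^ 2 + -3 * T G x y w + 2 = _
    by_cases w1 : w = x
    · subst w1
      simp [T_self hG h1 h2, ι, h1, a, h2, G.adj_comm y w, mem_Q, left_notMem_Z hG h1 h2]
    by_cases w2 : w = y
    · subst w2
      simp [T_self' hG h1 h2, ι, w1, a, h2, mem_Q, right_notMem_Z hG h1 h2]
    by_cases w3 : G.Adj x w
    · by_cases w4 : G.Adj y w <;> simp [T_adj hG w3, ι, w1, w2, a, w3, w4, mem_Q, mem_Z]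
    by_cases w4 : G.Adj y w
    · simp [T_adj' hG w4, ι, w1, w2, a, w3, w4, mem_Q, mem_Z]
    have t1 := T_le hG h1 (Ne.symm w1) (Ne.symm w2)
    have t2 := T_nonneg hG (x := x) (y := y) (w := w)
    simp only [ι, mem_singleton, w1, w2, a, w3, w4, mem_Q, mem_Z]
    generalize T G x y w = t at *
    interval_cases t <;> simp
  simp only [e2, sum_add_distrib, sum_sub_distrib, ← mul_sum, sum_ι, sum_a hG, card_singleton,
    card_Q hG h1 h2] at e1
  omega

theorem sum_ff_mul (g : V → ℤ) : ∑ w, ff G x y w * g w =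
    3 * g x + 3 * g y + 2 * ∑ w ∈ Q G x y, g w - ∑ w ∈ Z G x y, g w := by
  rw [← sum_singleton g x, ← sum_singleton g y, ← sum_ι_mul {x}, ← sum_ι_mul {y}, ← sum_ι_mul (Q G x y),
    ← sum_ι_mul (Z G x y)]
  simp only [mul_sum, ← sum_add_distrib, ← sum_sub_distrib, ff]
  exact sum_congr rfl fun v _ => by ring

theorem key (h1 : x ≠ y) (h2 : ¬ G.Adj x y) (w : V) : A G (ff G x y) w = 2 * ff G x y w + 2 := by
  have h2' : ¬ G.Adj y x := fun h => h2 h.symm
  have s1 : ∑ w, ff G x y w = 11 := by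
    have := sum_ff_mul hG (x := x) (y := y) fun _ => 1
    simp [card_Q hG h1 h2, card_Z hG h1 h2] at this
    exact this
  have s2 : ∑ w, ff G x y w ^ 2 = 37 := by
    simp only [sq]
    rw [sum_ff_mul hG, sum_congr rfl (g := fun _ => 2) (s₁ := Q G x y) fun w hw => by
        have := mem_Q.1 hw
        simp [ff, ι, hw, mem_Z, this.1, this.1.ne', this.2.ne'],
      sum_congr rfl (g := fun _ => -1) (s₁ := Z G x y) fun w hw => by
        have a1 : w ≠ x := fun e => left_notMem_Z hG h1 h2 (e ▸ hw)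
        have a2 : w ≠ y := fun e => right_notMem_Z hG h1 h2 (e ▸ hw)
        simp [ff, ι, hw, mem_Q, (mem_Z.1 hw).1, a1, a2]]
    simp [ff, ι, h1, h1.symm, mem_Q, left_notMem_Z hG h1 h2, right_notMem_Z hG h1 h2, card_Q hG h1 h2,
      card_Z hG h1 h2]
  have s3 : 96 ≤ ∑ w, ff G x y w * A G (ff G x y) w := by
    have z1 : A G (ι (Z G x y)) x = 0 := A_ι_eq_zero.2 fun v hv h => (mem_Z.1 hv).1 h.symm
    have z2 : A G (ι (Z G x y)) y = 0 := A_ι_eq_zero.2 fun v hv h => (mem_Z.1 hv).2.1 h.symm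
    rw [sum_ff_mul hG, sum_congr rfl (g := fun _ => 6) (s₁ := Q G x y) fun w hw => by
      have := mem_Q.1 hw
      rw [A_ff, a_of this.1, a_of this.2, T_adj hG this.1,
        A_ι_eq_zero.2 fun v hv h => A_ι_eq_zero.1 (mem_Z.1 hv).2.2 w hw h.symm]
      norm_num]
    have : ∑ w ∈ Z G x y, A G (ff G x y) w ≤ 0 := sum_nonpos fun w hw => by
      rw [A_ff, a_not (mem_Z.1 hw).1, a_not (mem_Z.1 hw).2.1, (mem_Z.1 hw).2.2, A_ι_card]; simp
    rw [A_ff, A_ff, z1, z2, T_self hG h1 h2, T_self' hG h1 h2, a_self, a_self, a_not h2, a_not h2']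
    simp only [sum_const, card_Q hG h1 h2, smul_eq_mul, nsmul_eq_mul]
    push_cast
    linarith
  have s4 : ∑ w, (A G (ff G x y) w - 2 * ff G x y w - 2) ^ 2 ≤ 0 := by
    have e : ∀ w, (A G (ff G x y) w - 2 * ff G x y w - 2) ^ 2 = A G (ff G x y) w ^ 2 + 4 * ff G x y w ^ 2 -
      4 * (ff G x y w * A G (ff G x y) w) - 4 * A G (ff G x y) w + 8 * ff G x y w + 4 := fun w => by ring
    simp only [e, sum_add_distrib, sum_sub_distrib, ← mul_sum]
    rw [sum_AA hG, sum_A hG, sum_c hG, s1, s2]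
    linarith
  have := (sum_eq_zero_iff_of_nonneg fun w _ => sq_nonneg _).1
    (le_antisymm s4 (sum_nonneg fun w _ => sq_nonneg _)) w (mem_univ w)
  linarith [(pow_eq_zero_iff two_ne_zero).1 this]

theorem card_L (h1 : x ≠ y) (h2 : ¬ G.Adj x y) : (L G x y).card = 5 := by
  rw [L, card_insert_of_notMem (by simp [h1, left_notMem_Z hG h1 h2]),
    card_insert_of_notMem (right_notMem_Z hG h1 h2), card_Z hG h1 h2]

theorem A_L (h1 : x ≠ y) (h2 : ¬ G.Adj x y) (w : V) :
    A G (ι (L G x y)) w = 4 * a G x w + 4 * a G y w + 2 * T G x y w - 2 - 2 * ff G x y w := by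
  have := key hG h1 h2 w
  rw [A_ff, A_ι] at this
  rw [A_ι, L, sum_insert (by simp [h1, left_notMem_Z hG h1 h2]), sum_insert (right_notMem_Z hG h1 h2)]
  linarith

theorem L_cases (h1 : x ≠ y) (h2 : ¬ G.Adj x y) (w : V) :
    (w ∈ L G x y ∧ A G (ι (L G x y)) w = 0) ∨ (w ∉ L G x y ∧ O G x y w ∧ A G (ι (L G x y)) w = 0) ∨
      (w ∉ L G x y ∧ ¬ O G x y w ∧ A G (ι (L G x y)) w = 2) := by
  rw [A_L hG h1 h2]
  by_cases w1 : w = x
  · subst w1
    simp [T_self hG h1 h2, L, ff, ι, h1, a, h2, G.adj_comm y w, mem_Q, left_notMem_Z hG h1 h2]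
  by_cases w2 : w = y
  · subst w2
    simp [T_self' hG h1 h2, L, ff, ι, w1, a, h2, mem_Q, right_notMem_Z hG h1 h2]
  by_cases w3 : G.Adj x w
  · by_cases w4 : G.Adj y w <;> simp [T_adj hG w3, L, O, ff, ι, w1, w2, a, w3, w4, mem_Q, mem_Z]
  by_cases w4 : G.Adj y w
  · simp [T_adj' hG w4, L, O, ff, ι, w1, w2, a, w3, w4, mem_Q, mem_Z]
  have t1 := T_le hG h1 (Ne.symm w1) (Ne.symm w2)
  have t2 := T_nonneg hG (x := x) (y := y) (w := w)
  simp only [L, O, ff, ι, mem_insert, mem_singleton, w1, w2, a, w3, w4, mem_Q, mem_Z, h2]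
  generalize T G x y w = t at *
  interval_cases t <;> simp

theorem L_cocl (h1 : x ≠ y) (h2 : ¬ G.Adj x y) (hu : u ∈ L G x y) (hv : v ∈ L G x y) : ¬ G.Adj u v := by
  rcases L_cases hG h1 h2 v with h | h | h
  exacts [A_ι_eq_zero.1 h.2 u hu, absurd hv h.1, absurd hv h.1]

theorem O.ne (h : O G x y w) : x ≠ y := by
  rintro rfl
  by_cases e : x = w
  · subst e
    have := hG.regular x
    have h1 := h.2.2.2
    rw [← G.card_neighborFinset_eq_degree, SimpleGraph.neighborFinset_eq_filter] at this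
    simp only [T_eq, and_self, this] at h1
    omega
  · have := (T_swap'.symm.trans (T_self hG e h.2.1)).symm.trans h.2.2.2
    omega

theorem O.spec (h : O G x y w) : w ∉ L G x y ∧ ∀ v ∈ L G x y, ¬ G.Adj v w := by
  rcases L_cases hG (h.ne hG) h.1 w with h' | h' | h'
  · simp only [L, mem_insert, mem_Z] at h'
    rcases h'.1 with e | e | e
    exacts [absurd e.symm (h.swap'.ne hG), absurd e.symm (h.swap.swap'.ne hG),
      absurd (e.2.2.symm.trans h.2.2.2) zero_ne_one]
  exacts [⟨h'.1, A_ι_eq_zero.1 h'.2.2⟩, absurd h h'.2.1]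

theorem O_of (h1 : x ≠ y) (h2 : ¬ G.Adj x y) (h3 : w ∉ L G x y) (h4 : ∀ v ∈ L G x y, ¬ G.Adj v w) :
    O G x y w := by
  rcases L_cases hG h1 h2 w with h | h | h
  exacts [absurd h.1 h3, h.2.1, absurd (h.2.2.symm.trans (A_ι_eq_zero.2 h4)) two_ne_zero]

theorem L_eq (h1 : x ≠ y) (h2 : ¬ G.Adj x y) (hu : u ∈ L G x y) (hv : v ∈ L G x y) (h : u ≠ v) :
    L G u v = L G x y := by
  refine (eq_of_subset_of_card_le (fun z hz => ?_)
    (by rw [card_L hG h1 h2, card_L hG h (L_cocl hG h1 h2 hu hv)])).symm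
  by_cases z1 : z = u
  · simp [L, z1]
  by_cases z2 : z = v
  · simp [L, z2]
  refine mem_insert_of_mem (mem_insert_of_mem (mem_Z.2 ⟨L_cocl hG h1 h2 hu hz, L_cocl hG h1 h2 hv hz,
    A_ι_eq_zero.2 fun w hw h' => ?_⟩))
  have c : ({u, v, z} : Finset V).card ≤ ((L G x y).filter fun v => G.Adj v w).card :=
    card_le_card fun t ht => by
      simp only [mem_insert, mem_singleton] at ht
      rcases ht with rfl | rfl | rfl
      exacts [mem_filter.2 ⟨hu, (mem_Q.1 hw).1⟩, mem_filter.2 ⟨hv, (mem_Q.1 hw).2⟩, mem_filter.2 ⟨hz, h'.symm⟩]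
  rw [card_eq_three.2 ⟨u, v, z, h, Ne.symm z1, Ne.symm z2, rfl⟩] at c
  have := L_cases hG h1 h2 w
  rw [A_ι_card] at this
  omega

theorem card_O [DecidablePred (O G x y)] (h1 : x ≠ y) (h2 : ¬ G.Adj x y) : (univ.filter (O G x y)).card = 32 := by
  have e : ∀ w, A G (ι (L G x y)) w = 2 - 2 * ι (L G x y) w - 2 * ι (univ.filter (O G x y)) w := fun w => by
    rcases L_cases hG h1 h2 w with h | h | h
    · rw [h.2, ι_of h.1, ι_not fun h' => ((mem_filter.1 h').2.spec hG).1 h.1]; norm_num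
    · rw [h.2.2, ι_not h.1, ι_of (mem_filter.2 ⟨mem_univ _, h.2.1⟩)]; norm_num
    · rw [h.2.2, ι_not h.1, ι_not fun h' => h.2.1 (mem_filter.1 h').2]; norm_num
  have := sum_A hG (ι (L G x y))
  simp only [e, sum_sub_distrib, ← mul_sum, sum_ι, sum_c hG, card_L hG h1 h2] at this
  omega

theorem Pl.six {C : Finset V} (h : Pl G C) (w : V) : A G (ι C) w = 6 - 6 * ι C w := by
  have z : ∀ v ∈ C, A G (ι C) v = 0 := fun v hv => A_ι_eq_zero.2 fun u hu => h.2 u hu v hv
  have e1 := sum_quad hG C (-12) 36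
  rw [sum_eq_zero z, h.1] at e1
  have e2 : ∀ w, (A G (ι C) w - 6 + 6 * ι C w) ^ 2 = (A G (ι C) w ^ 2 + -12 * A G (ι C) w + 36) - 36 * ι C w :=
    fun w => by
      by_cases hw : w ∈ C
      · rw [z w hw, ι_of hw]; norm_num
      · rw [ι_not hw]; ring
  have e3 : ∑ w, (A G (ι C) w - 6 + 6 * ι C w) ^ 2 = 0 := by
    simp only [e2]
    rw [sum_sub_distrib, e1, ← mul_sum, sum_ι, h.1]; norm_num
  have := (sum_eq_zero_iff_of_nonneg fun w _ => sq_nonneg _).1 e3 w (mem_univ w)
  linarith [(pow_eq_zero_iff two_ne_zero).1 this]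

theorem Pl.line {C : Finset V} (h : Pl G C) (hx : x ∈ C) (hy : y ∈ C) (h1 : x ≠ y) : L G x y ⊆ C := by
  have h2 := h.2 x hx y hy
  have e := A_symm (G := G) (ff G x y) (ι C)
  rw [sum_congr rfl fun w _ => by rw [key hG h1 h2 w, show ι C w * (2 * ff G x y w + 2) =
    2 * (ff G x y w * ι C w) + 2 * ι C w by ring], sum_add_distrib, ← mul_sum, ← mul_sum, sum_ι, h.1,
    sum_ff_mul hG, sum_ff_mul hG] at e
  simp only [h.six hG, ι_of hx, ι_of hy, sum_sub_distrib, ← mul_sum, sum_const, card_Q hG h1 h2,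
    card_Z hG h1 h2] at e
  rw [sum_eq_zero (s := Q G x y) fun v hv => ι_not fun h' => h.2 x hx v h' (mem_Q.1 hv).1] at e
  have e2 : ∑ v ∈ Z G x y, ι C v = ((Z G x y).filter (· ∈ C)).card := by
    simp [ι, filter_mem_eq_inter]
  rw [e2] at e
  have e3 : (Z G x y).filter (· ∈ C) = Z G x y := eq_of_subset_of_card_le (filter_subset _ _) (by
    rw [card_Z hG h1 h2]; simp only [nsmul_eq_mul] at e; omega)
  refine insert_subset hx (insert_subset hy fun v hv => (mem_filter.1 (e3 ▸ hv)).2)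

theorem O.plane (h : O G x y w) : ∃! C, Pl G C ∧ x ∈ C ∧ y ∈ C ∧ w ∈ C := by
  have k := h.swap.swap'
  have k1 := k.ne hG
  have k2 := k.spec hG
  have nx : ∀ u ∈ L G y w, x ≠ u ∧ ¬ G.Adj x u := fun u hu =>
    ⟨fun e => k2.1 (e ▸ hu), fun h' => k2.2 u hu h'.symm⟩
  have m : ∀ u ∈ L G y w, ∀ v ∈ L G y w, u ≠ v → ∀ s ∈ (L G x u).erase x,
      s ∉ L G x v ∧ ∀ t ∈ L G x v, ¬ G.Adj t s := fun u hu v hv e s hs => by
    have e1 := L_eq hG k1 k.1 hu hv e
    have o1 := (O_of hG e (L_cocl hG k1 k.1 hu hv) (e1 ▸ k2.1) (e1 ▸ k2.2)).swap'.swap.spec hG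
    have xs := (mem_erase.1 hs).1.symm
    have xm : x ∈ L G x u := mem_insert_self _ _
    have e2 := L_eq hG (nx u hu).1 (nx u hu).2 xm (mem_erase.1 hs).2 xs
    exact (O_of hG xs (L_cocl hG (nx u hu).1 (nx u hu).2 xm (mem_erase.1 hs).2) (e2 ▸ o1.1)
      (e2 ▸ o1.2)).swap'.spec hG
  have p : Pl G (insert x ((L G y w).biUnion fun u => (L G x u).erase x)) := by
    constructor
    · rw [card_insert_of_notMem (by simp), card_biUnion fun u hu v hv e => disjoint_left.2 fun s h1 h2 =>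
        (m u hu v hv e s h1).1 (mem_erase.1 h2).2, sum_congr rfl (g := fun _ => 4) fun u hu => by
          rw [card_erase_of_mem (by simp [L]), card_L hG (nx u hu).1 (nx u hu).2]]
      simp [card_L hG k1 k.1]
    · have q : ∀ t ∈ (L G y w).biUnion fun u => (L G x u).erase x, ¬ G.Adj x t := fun t ht => by
        obtain ⟨u, hu, ht⟩ := mem_biUnion.1 ht
        exact L_cocl hG (nx u hu).1 (nx u hu).2 (mem_insert_self _ _) (mem_erase.1 ht).2
      intro s hs t ht
      rcases mem_insert.1 hs with rfl | hs <;> rcases mem_insert.1 ht with rfl | ht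
      exacts [G.irrefl, q t ht, fun h' => q s hs h'.symm, by
        obtain ⟨u, hu, hs⟩ := mem_biUnion.1 hs
        obtain ⟨v, hv, ht⟩ := mem_biUnion.1 ht
        by_cases e : u = v
        · exact L_cocl hG (nx v hv).1 (nx v hv).2 (e ▸ (mem_erase.1 hs).2) (mem_erase.1 ht).2
        · exact fun h' => (m u hu v hv e s hs).2 t (mem_erase.1 ht).2 h'.symm]
  have i : ∀ u ∈ L G y w, u ∈ insert x ((L G y w).biUnion fun u => (L G x u).erase x) := fun u hu =>
    mem_insert_of_mem (mem_biUnion.2 ⟨u, hu, mem_erase.2 ⟨(nx u hu).1.symm, by simp [L]⟩⟩)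
  refine ⟨_, ⟨p, mem_insert_self _ _, i y (by simp [L]), i w (by simp [L])⟩, fun C ⟨c1, c2, c3, c4⟩ =>
    (eq_of_subset_of_card_le (insert_subset c2 (biUnion_subset.2 fun u hu => (erase_subset _ _).trans
      (c1.line hG c2 (c1.line hG c3 c4 k1 hu) (nx u hu).1))) (by rw [c1.1, p.1])).symm⟩

open Classical in
theorem card_two (h1 : x ≠ y) (h2 : ¬ G.Adj x y) :
    (univ.filter fun C : {C // Pl G C} => x ∈ C.1 ∧ y ∈ C.1).card = 2 := by
  have := card_mul_eq_card_mul (s := univ.filter (O G x y))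
    (t := univ.filter fun C : {C // Pl G C} => x ∈ C.1 ∧ y ∈ C.1) (fun w C => w ∈ C.1) (m := 1) (n := 16)
    (fun w hw => by
      obtain ⟨C, ⟨c1, c2, c3, c4⟩, hC⟩ := (mem_filter.1 hw).2.plane hG
      refine card_eq_one.2 ⟨⟨C, c1⟩, ?_⟩
      ext D
      simp only [bipartiteAbove, mem_filter, mem_univ, true_and, mem_singleton]
      exact ⟨fun h => Subtype.ext (hC D.1 ⟨D.2, h.1.1, h.1.2, h.2⟩), by rintro rfl; exact ⟨⟨c2, c3⟩, c4⟩⟩)
    (fun C hC => by
      obtain ⟨c1, c2⟩ := (mem_filter.1 hC).2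
      have l := C.2.line hG c1 c2 h1
      have : bipartiteBelow (fun w C => w ∈ C.1) (univ.filter (O G x y)) C = C.1 \ L G x y := by
        ext w
        simp only [bipartiteBelow, mem_filter, mem_univ, true_and, mem_sdiff]
        exact ⟨fun h => ⟨h.2, (h.1.spec hG).1⟩, fun h => ⟨O_of hG h1 h2 h.2 fun v hv => C.2.2 v (l hv) w h.1, h.1⟩⟩
      rw [this, card_sdiff_of_subset l, C.2.1, card_L hG h1 h2])
  rw [card_O hG h1 h2] at this
  omega

open Classical in
theorem card_six (x : V) : (univ.filter fun C : {C // Pl G C} => x ∈ C.1).card = 6 := by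
  have := card_mul_eq_card_mul (s := univ.filter fun y => x ≠ y ∧ ¬ G.Adj x y)
    (t := univ.filter fun C : {C // Pl G C} => x ∈ C.1) (fun w C => w ∈ C.1) (m := 2) (n := 20)
    (fun y hy => by
      rw [← card_two hG (mem_filter.1 hy).2.1 (mem_filter.1 hy).2.2, bipartiteAbove, filter_filter])
    (fun C hC => by
      have c1 := (mem_filter.1 hC).2
      have : bipartiteBelow (fun w C => w ∈ C.1) (univ.filter fun y => x ≠ y ∧ ¬ G.Adj x y) C = C.1.erase x := by
        ext w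
        simp only [bipartiteBelow, mem_filter, mem_univ, true_and, mem_erase]
        exact ⟨fun h => ⟨h.1.1.symm, h.2⟩, fun h => ⟨⟨h.1.symm, C.2.2 x c1 w h.2⟩, h.2⟩⟩
      rw [this, card_erase_of_mem c1, C.2.1])
  have e : ∀ w, ι (univ.filter fun y => x ≠ y ∧ ¬ G.Adj x y) w = 1 - ι {x} w - a G x w := fun w => by
    by_cases h : x = w
    · subst h; simp [ι, a]
    · by_cases h' : G.Adj x w <;> simp [ι, a, h, h', Ne.symm h]
  have e2 := sum_ι (univ.filter fun y => x ≠ y ∧ ¬ G.Adj x y)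
  simp only [e, sum_sub_distrib, sum_ι, sum_a hG, sum_c hG, card_singleton] at e2
  omega

open Classical in
theorem card_pl : Fintype.card {C // Pl G C} = 22 := by
  have := card_mul_eq_card_mul (s := (univ : Finset V)) (t := (univ : Finset {C // Pl G C}))
    (fun w (C : {C // Pl G C}) => w ∈ C.1) (m := 6) (n := 21) (fun y _ => card_six hG y)
    (fun C _ => by rw [← C.2.1]; congr 1; ext w; simp [bipartiteBelow])
  rw [card_univ, card_univ, hG.card] at this
  omega

open Classical in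
theorem main : ∃ b : V → Finset {C // Pl G C}, IsSteinerSystem 3 6 (Set.range b) ∧ Function.Injective b ∧
    ∀ x y, G.Adj x y ↔ Disjoint (b x) (b y) := by
  let b : V → Finset {C // Pl G C} := fun x => univ.filter fun C => x ∈ C.1
  have c6 : ∀ x, (b x).card = 6 := card_six hG
  have d : ∀ x y, G.Adj x y → Disjoint (b x) (b y) := fun x y h => disjoint_left.2 fun C h1 h2 =>
    C.2.2 x (mem_filter.1 h1).2 y (mem_filter.1 h2).2 h
  have c2 : ∀ x y, x ≠ y → ¬ G.Adj x y → (b x ∩ b y).card = 2 := fun x y h1 h2 => by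
    rw [← card_two hG h1 h2, filter_and]
  have u : ∀ s : Finset {C // Pl G C}, 3 ≤ s.card → ∀ x y, s ⊆ b x → s ⊆ b y → x = y := fun s hs x y h1 h2 => by
    by_contra h
    have := card_le_card (subset_inter h1 h2)
    by_cases h' : G.Adj x y
    · rw [disjoint_iff_inter_eq_empty.1 (d x y h'), card_empty] at this; omega
    · rw [c2 x y h h'] at this; omega
  refine ⟨b, ⟨by rintro _ ⟨x, rfl⟩; exact c6 x, fun s hs => ?_⟩,
    fun x y h => u (b x) (by rw [c6]; norm_num) x y Subset.rfl h.subset, fun x y => ⟨d x y, fun h => ?_⟩⟩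
  · have e : univ.biUnion (fun x => powersetCard 3 (b x)) = powersetCard 3 univ := by
      refine eq_of_subset_of_card_le (fun s hs => ?_) ?_
      · obtain ⟨x, -, hx⟩ := mem_biUnion.1 hs
        exact mem_powersetCard.2 ⟨subset_univ _, (mem_powersetCard.1 hx).2⟩
      · rw [card_biUnion fun x _ y _ h => disjoint_left.2 fun s h1 h2 => h (u s (mem_powersetCard.1 h1).2.ge x y
          (mem_powersetCard.1 h1).1 (mem_powersetCard.1 h2).1), card_powersetCard, card_univ, card_pl hG,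
          sum_congr rfl (g := fun _ => 20) fun x _ => by rw [card_powersetCard, c6]; rfl]
        simp [hG.card, Nat.choose]
    obtain ⟨x, -, h⟩ := mem_biUnion.1 (e ▸ mem_powersetCard.2 ⟨subset_univ s, hs⟩)
    refine ⟨b x, ⟨⟨x, rfl⟩, (mem_powersetCard.1 h).1⟩, ?_⟩
    rintro _ ⟨⟨y, rfl⟩, h'⟩
    rw [u s hs.ge x y (mem_powersetCard.1 h).1 h']
  · by_contra h'
    rw [disjoint_iff_inter_eq_empty] at h
    by_cases e : x = y
    · have := c6 x
      rw [← inter_self (b x)] at this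
      nth_rw 2 [e] at this
      rw [h] at this; simp at this
    · have := c2 x y e h'
      rw [h] at this; simp at this

end CA.FusSrg
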